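/-
S1144 (Fong-Seitz): definitions.  Moufang polygons as root group sequences `U : ℤ → Subgroup G` of period `2 n`
(Tits-Weiss conventions: `U i` fixes the path `i, …, i + n`; conjugation acts from the right).
-/
import Cfsg.Agent.CHEV.TB.Def2
import Cfsg.Prelude.Def_LieRecognition

set_option autoImplicit false

namespace CL.FS

universe u

variable {G : Type*} [Group G]

/-- `x ^ g` -/
def cj (x g : G) : G := g⁻¹ * x * g

/-- `[a, b]`; `a ^ b = a [a, b]` -/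
def cm (a b : G) : G := a⁻¹ * b⁻¹ * a * b

/-- `U_{[i, j]}` -/
def W (U : ℤ → Subgroup G) (i j : ℤ) : Subgroup G := ⨆ k ∈ Set.Icc i j, U k

/-- `g` induces the translation `j ↦ j + d` on the root groups -/
def Tr (U : ℤ → Subgroup G) (d : ℤ) (g : G) : Prop := ∀ j x, x ∈ U j ↔ cj x g ∈ U (j + d)

/-- `g` induces the reflection `j ↦ c - j` on the root groups -/
def Rf (U : ℤ → Subgroup G) (c : ℤ) (g : G) : Prop := ∀ j x, x ∈ U j ↔ cj x g ∈ U (c - j)

/-- the root groups of a Moufang `n`-gon of characteristic `p` -/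
structure MP (p n : ℕ) (U : ℤ → Subgroup G) : Prop where
  prime : p.Prime
  three : 3 ≤ n
  per : ∀ i, U (i + 2 * n) = U i
  comm : ∀ i j, i < j → j < i + n → ∀ a ∈ U i, ∀ b ∈ U j, cm a b ∈ W U (i + 1) (j - 1)
  ind : ∀ i k j, j < i + n → ∀ x ∈ W U i k, x ∈ W U (k + 1) j → x = 1
  mu : ∀ i, ∀ a ∈ U i, a ≠ 1 → ∃ κ ∈ U (i + n), ∃ l ∈ U (i + n), Rf U (2 * i + n) (κ * a * l)
  ne : ∀ i, ∃ a ∈ U i, a ≠ 1
  pg : ∀ i, IsPGroup p (U i)

/-- `κ = κ(a)`, `l = λ(a)`, `κ a l = μ(a)` for `1 ≠ a ∈ U i` -/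
structure Mu (n : ℕ) (U : ℤ → Subgroup G) (i : ℤ) (a κ l : G) : Prop where
  a_mem : a ∈ U i
  a_ne : a ≠ 1
  κ_mem : κ ∈ U (i + n)
  l_mem : l ∈ U (i + n)
  rf : Rf U (2 * i + n) (κ * a * l)

/-- the central elations in `U i` (for `n = 2 m`) -/
def V (U : ℤ → Subgroup G) (m : ℕ) (i : ℤ) : Subgroup G :=
  U i ⊓ Subgroup.centralizer (W U (i - m) (i + m) : Set G)

/-- `Y` is the graph of an isomorphism `A ≃ A'` -/
structure Gr {G' : Type*} [Group G'] (A : Subgroup G) (A' : Subgroup G') (Y : Subgroup (G × G')) : Prop where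
  le : ∀ y ∈ Y, y.1 ∈ A ∧ y.2 ∈ A'
  onto : ∀ x ∈ A, ∃ x', (x, x') ∈ Y
  onto' : ∀ x' ∈ A', ∃ x, (x, x') ∈ Y
  inj : ∀ y ∈ Y, y.1 = 1 ↔ y.2 = 1

/-- `f` parametrises `A` -/
structure Pm {K : Type*} (A : Subgroup G) (f : K → G) : Prop where
  mem : ∀ g, g ∈ A ↔ ∃ t, g = f t
  inj : Function.Injective f

/-- `G` has a faithful split BN-pair of rank two with Weyl group of order `2 n` and parameters `a`, `b` -/
def SBN (G : Type*) [Group G] (n a b : ℕ) : Prop :=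
  ∃ (P : Cfsg.BNPair G) (s t : P.S), s ≠ t ∧ (∀ k, k = s ∨ k = t) ∧ orderOf (BN.sW P s * BN.sW P t) = n ∧
    BN.cellIdx P (BN.sW P s) = a ∧ BN.cellIdx P (BN.sW P t) = b ∧ P.IsSplit ∧ P.B.normalCore = ⊥

/-- a model group with parameters `|U 0| = a`, `|U 1| = b` whose simple central quotients are of Lie type -/
def MdP (n a b : ℕ) : Prop :=
  ∃ (M : Type) (_ : Group M) (_ : Finite M) (p : ℕ) (U : ℤ → Subgroup M), MP p n U ∧ ⨆ i, U i = ⊤ ∧
    Nat.card (U 0) = a ∧ Nat.card (U 1) = b ∧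
    ∀ (G : Type u) [Group G] [IsSimpleGroup G] (f : M →* G), Function.Surjective f → f.ker ≤ Subgroup.center M →
      TB.IsL G

end CL.FS
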