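/-
S1144: windows of root groups.
-/
import Cfsg.Agent.CHEV.FS.Def

set_option autoImplicit false
set_option linter.unusedSectionVars false

namespace CL.FS

variable {G : Type*} [Group G] {p n : ℕ} {U : ℤ → Subgroup G}

theorem cj_eq (x g : G) : cj x g = x * cm x g := by
  unfold cj cm; group

theorem cj_eq' (x g : G) : cj x g = cm g x⁻¹ * x := by
  unfold cj cm; group

theorem cj_mul (x y g : G) : cj (x * y) g = cj x g * cj y g := by
  unfold cj; group

theorem cj_cj (x g k : G) : cj (cj x g) k = cj x (g * k) := by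
  unfold cj; group

theorem cj_inv (x g : G) : cj x⁻¹ g = (cj x g)⁻¹ := by
  unfold cj; group

theorem cj_one (x : G) : cj x 1 = x := by
  unfold cj; group

theorem one_cj (g : G) : cj 1 g = 1 := by
  unfold cj; group

theorem cj_cj_inv (x g : G) : cj (cj x g) g⁻¹ = x := by
  unfold cj; group

theorem cj_inv_cj (x g : G) : cj (cj x g⁻¹) g = x := by
  unfold cj; group

theorem cj_eq_one {x g : G} : cj x g = 1 ↔ x = 1 := by
  constructor
  · intro e
    rw [← cj_cj_inv x g, e, one_cj]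
  · rintro rfl
    exact one_cj g

theorem cj_inj {x y g : G} : cj x g = cj y g ↔ x = y := by
  constructor
  · intro e
    rw [← cj_cj_inv x g, e, cj_cj_inv]
  · rintro rfl
    rfl

theorem cj_eq_self {x g : G} : cj x g = x ↔ Commute x g := by
  unfold cj
  rw [mul_assoc, inv_mul_eq_iff_eq_mul]
  exact Iff.rfl

theorem cm_eq_one {x g : G} : cm x g = 1 ↔ Commute x g := by
  rw [← cj_eq_self, cj_eq, mul_eq_left]

theorem cm_inv (a b : G) : (cm a b)⁻¹ = cm b a := by
  unfold cm; group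

theorem cm_mul_left (a b c : G) : cm (a * b) c = cj (cm a c) b * cm b c := by
  unfold cj cm; group

theorem cm_mul_right (a b c : G) : cm a (b * c) = cm a c * cj (cm a b) c := by
  unfold cj cm; group

theorem cj_cm (a b g : G) : cj (cm a b) g = cm (cj a g) (cj b g) := by
  unfold cj cm; group


theorem le_W {i j k : ℤ} (h1 : i ≤ k) (h2 : k ≤ j) : U k ≤ W U i j :=
  le_iSup₂_of_le (f := fun k (_ : k ∈ Set.Icc i j) => U k) k ⟨h1, h2⟩ le_rfl

theorem W_le {i j : ℤ} {T : Subgroup G} (h : ∀ k, i ≤ k → k ≤ j → U k ≤ T) : W U i j ≤ T :=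
  iSup₂_le fun k hk => h k hk.1 hk.2

theorem W_mono {i j k l : ℤ} (h1 : k ≤ i) (h2 : j ≤ l) : W U i j ≤ W U k l :=
  W_le fun _ a b => le_W (h1.trans a) (b.trans h2)

theorem W_empty {i j : ℤ} (h : j < i) {x : G} (hx : x ∈ W U i j) : x = 1 := by
  have : W U i j ≤ ⊥ := W_le fun k a b => absurd (a.trans b) (not_le.2 h)
  exact Subgroup.mem_bot.1 (this hx)

theorem W_self (i : ℤ) : W U i i = U i :=
  le_antisymm (W_le fun k a b => by rw [le_antisymm b a]) (le_W le_rfl le_rfl)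

theorem W_ind {i j : ℤ} {P : G → Prop} (h1 : P 1) (hm : ∀ x y, P x → P y → P (x * y))
    (hU : ∀ k, i ≤ k → k ≤ j → ∀ a ∈ U k, P a) {x : G} (hx : x ∈ W U i j) : P x := by
  unfold W at hx
  refine Subgroup.iSup_induction _ (C := P) hx (fun k y hy => ?_) h1 hm
  by_cases hk : k ∈ Set.Icc i j
  · rw [iSup_pos hk] at hy
    exact hU k hk.1 hk.2 y hy
  · rw [iSup_neg hk, Subgroup.mem_bot] at hy
    rw [hy]
    exact h1

theorem W_shift (c i j : ℤ) : W (fun k => U (k + c)) i j = W U (i + c) (j + c) := by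
  refine le_antisymm (W_le fun k a b => le_W (by omega) (by omega)) (W_le fun k a b => ?_)
  have := le_W (U := fun k => U (k + c)) (i := i) (j := j) (k := k - c) (by omega) (by omega)
  simpa using this

theorem W_rev (c i j : ℤ) : W (fun k => U (c - k)) i j = W U (c - j) (c - i) := by
  refine le_antisymm (W_le fun k a b => le_W (by omega) (by omega)) (W_le fun k a b => ?_)
  have := le_W (U := fun k => U (c - k)) (i := i) (j := j) (k := c - k) (by omega) (by omega)
  simpa using this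


theorem Bas.W_cj {i j : ℤ} {T : Subgroup G} {g x : G} (h : ∀ k, i ≤ k → k ≤ j → ∀ a ∈ U k, cj a g ∈ T)
    (hx : x ∈ W U i j) : cj x g ∈ T :=
  W_ind (P := fun x => cj x g ∈ T) (by rw [one_cj]; exact one_mem _)
    (fun x y a b => by rw [cj_mul]; exact mul_mem a b) h hx

theorem Bas.card_cj {A B : Subgroup G} {g : G} (h : ∀ x, x ∈ A ↔ cj x g ∈ B) : Nat.card A = Nat.card B :=
  Nat.card_congr
    { toFun := fun x => ⟨cj x g, (h _).1 x.2⟩
      invFun := fun y => ⟨cj y g⁻¹, (h _).2 (by rw [cj_inv_cj]; exact y.2)⟩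
      left_inv := fun x => Subtype.ext (cj_cj_inv _ _)
      right_inv := fun y => Subtype.ext (cj_inv_cj _ _) }

theorem Tr.cj {d j : ℤ} {g x : G} (h : Tr U d g) (hx : x ∈ U j) : cj x g ∈ U (j + d) :=
  (h j x).1 hx

theorem Rf.cj {c j : ℤ} {g x : G} (h : Rf U c g) (hx : x ∈ U j) : cj x g ∈ U (c - j) :=
  (h j x).1 hx

theorem Tr.W {d : ℤ} {g : G} (h : Tr U d g) (i j : ℤ) (x : G) : x ∈ W U i j ↔ FS.cj x g ∈ W U (i + d) (j + d) := by
  constructor
  · intro hx
    exact Bas.W_cj (fun k a b y hy => le_W (by omega) (by omega) (h.cj hy)) hx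
  · intro hx
    rw [← cj_cj_inv x g]
    refine Bas.W_cj (fun k a b y hy => le_W (k := k - d) (by omega) (by omega) ?_) hx
    rw [h, cj_inv_cj, sub_add_cancel]
    exact hy

theorem Rf.W {c : ℤ} {g : G} (h : Rf U c g) (i j : ℤ) (x : G) : x ∈ W U i j ↔ FS.cj x g ∈ W U (c - j) (c - i) := by
  constructor
  · intro hx
    exact Bas.W_cj (fun k a b y hy => le_W (by omega) (by omega) (h.cj hy)) hx
  · intro hx
    rw [← cj_cj_inv x g]
    refine Bas.W_cj (fun k a b y hy => le_W (k := c - k) (by omega) (by omega) ?_) hx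
    rw [h, cj_inv_cj, sub_sub_cancel]
    exact hy

theorem Tr.one : Tr U 0 1 := fun j x => by rw [cj_one, add_zero]

theorem Tr.inv {d : ℤ} {g : G} (h : Tr U d g) : Tr U (-d) g⁻¹ := fun j x => by
  rw [h (j + -d), cj_inv_cj, show j + -d + d = j by ring]

theorem Rf.inv {c : ℤ} {g : G} (h : Rf U c g) : Rf U c g⁻¹ := fun j x => by
  rw [h (c - j), cj_inv_cj, sub_sub_cancel]

theorem Tr.mul {d e : ℤ} {g k : G} (h : Tr U d g) (h' : Tr U e k) : Tr U (d + e) (g * k) := fun j x => by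
  rw [h, h', cj_cj, add_assoc]

theorem Rf.mul {c e : ℤ} {g k : G} (h : Rf U c g) (h' : Rf U e k) : Tr U (e - c) (g * k) := fun j x => by
  rw [h, h', cj_cj, show e - (c - j) = j + (e - c) by ring]

theorem Rf.mul_tr {c e : ℤ} {g k : G} (h : Rf U c g) (h' : Tr U e k) : Rf U (c + e) (g * k) := fun j x => by
  rw [h, h', cj_cj, show c - j + e = c + e - j by ring]

theorem Tr.mul_rf {d e : ℤ} {g k : G} (h : Tr U d g) (h' : Rf U e k) : Rf U (e - d) (g * k) := fun j x => by
  rw [h, h', cj_cj, show e - (j + d) = e - d - j by ring]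

theorem Tr.card {d : ℤ} {g : G} (h : Tr U d g) (j : ℤ) : Nat.card (U (j + d)) = Nat.card (U j) :=
  (Bas.card_cj (h j)).symm

theorem Rf.card {c : ℤ} {g : G} (h : Rf U c g) (j : ℤ) : Nat.card (U (c - j)) = Nat.card (U j) :=
  (Bas.card_cj (h j)).symm


namespace MP

variable (h : MP p n U)
include h

theorem per' (i k : ℤ) : U (i + 2 * n * k) = U i := by
  induction k using Int.induction_on with
  | zero => rw [mul_zero, add_zero]
  | succ k ih => rw [← ih, ← h.per (i + 2 * n * k)]; congr 1; ring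
  | pred k ih => rw [← ih, ← h.per (i + 2 * n * (-k - 1))]; congr 1; ring

theorem per_of {i j : ℤ} (e : (2 * n : ℤ) ∣ j - i) : U j = U i := by
  obtain ⟨k, hk⟩ := e
  rw [← h.per' i k, ← hk]
  congr 1
  ring

theorem W_per {i j k l : ℤ} (e : (2 * n : ℤ) ∣ k - i) (e' : l - k = j - i) : W U k l = W U i j := by
  refine le_antisymm (W_le fun r a b => ?_) (W_le fun r a b => ?_)
  · rw [h.per_of (i := r - (k - i)) (j := r) (by rwa [sub_sub_cancel])]
    exact le_W (by omega) (by omega)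
  · rw [← h.per_of (i := r) (j := r + (k - i)) (by rwa [add_sub_cancel_left])]
    exact le_W (by omega) (by omega)

theorem exists_shift (i j : ℤ) : ∃ (t : ℤ) (i' j' : ℕ), (2 * n : ℤ) ∣ t ∧ (i' : ℤ) = i + t ∧ (j' : ℤ) = j + t := by
  have h3 := h.three
  have e : ((i.natAbs + j.natAbs : ℕ) : ℤ) ≤ 2 * n * ((i.natAbs + j.natAbs : ℕ) : ℤ) :=
    le_mul_of_one_le_left (by positivity) (by omega)
  generalize ht : 2 * (n : ℤ) * ((i.natAbs + j.natAbs : ℕ) : ℤ) = t at e
  exact ⟨t, (i + t).toNat, (j + t).toNat, ⟨_, ht.symm⟩, by omega, by omega⟩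

/-- `comm` with integer indices -/
theorem cZ (i j : ℤ) (h1 : i < j) (h2 : j < i + n) (a : G) (ha : a ∈ U i) (b : G) (hb : b ∈ U j) :
    cm a b ∈ W U (i + 1) (j - 1) := by
  obtain ⟨t, i', j', d, e1, e2⟩ := h.exists_shift i j
  rw [← h.per_of (j := i') (by rwa [e1, add_sub_cancel_left])] at ha
  rw [← h.per_of (j := j') (by rwa [e2, add_sub_cancel_left])] at hb
  rw [← h.W_per (k := i' + 1) (l := j' - 1) (by rwa [e1, show i + t + 1 - (i + 1) = t by ring]) (by omega)]
  exact h.comm i' j' (by omega) (by omega) a ha b hb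

/-- `ind` with integer indices -/
theorem iZ (i k j : ℤ) (hj : j < i + n) (x : G) (h1 : x ∈ W U i k) (h2 : x ∈ W U (k + 1) j) : x = 1 := by
  obtain ⟨t, i', j', d, e1, e2⟩ := h.exists_shift i j
  rw [← h.W_per (k := i') (l := k + t) (by rwa [e1, add_sub_cancel_left]) (by omega)] at h1
  rw [← h.W_per (k := k + t + 1) (l := j') (by rwa [show k + t + 1 - (k + 1) = t by ring]) (by omega)] at h2
  exact h.ind i' (k + t) j' (by omega) x h1 h2

theorem shift (c : ℤ) : MP p n fun k => U (k + c) := by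
  refine ⟨h.prime, h.three, fun i => ?_, fun i j h1 h2 a ha b hb => ?_, fun i k j hj x h1 h2 => ?_,
    fun i a ha a1 => ?_, fun i => h.ne _, fun i => h.pg _⟩
  · show U _ = U _
    rw [show i + 2 * (n : ℤ) + c = i + c + 2 * n by ring, h.per]
  · rw [W_shift]
    exact W_mono (by omega) (by omega) (h.cZ (i + c) (j + c) (by omega) (by omega) a ha b hb)
  · rw [W_shift] at h1 h2
    exact h.iZ (i + c) (k + c) (j + c) (by omega) x h1 (W_mono (by omega) (by omega) h2)
  · obtain ⟨κ, hκ, l, hl, r⟩ := h.mu (i + c) a ha a1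
    have e : i + c + n = i + n + c := by ring
    rw [e] at hκ hl
    refine ⟨κ, hκ, l, hl, fun j x => ?_⟩
    show x ∈ U _ ↔ _ ∈ U _
    rw [r, show 2 * (i + c) + n - (j + c) = 2 * i + n - j + c by ring]

theorem rev (c : ℤ) : MP p n fun k => U (c - k) := by
  refine ⟨h.prime, h.three, fun i => ?_, fun i j h1 h2 a ha b hb => ?_, fun i k j hj x h1 h2 => ?_,
    fun i a ha a1 => ?_, fun i => h.ne _, fun i => h.pg _⟩
  · show U _ = U _
    rw [← h.per, show c - (i + 2 * (n : ℤ)) + 2 * n = c - i by ring]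
  · rw [W_rev, ← cm_inv]
    exact inv_mem (W_mono (by omega) (by omega) (h.cZ (c - j) (c - i) (by omega) (by omega) b hb a ha))
  · rw [W_rev] at h1 h2
    exact h.iZ (c - j) (c - (k + 1)) (c - i) (by omega) x h2 (W_mono (by omega) (by omega) h1)
  · obtain ⟨κ, hκ, l, hl, r⟩ := h.mu (c - i) a ha a1
    have e : U (c - i + n) = U (c - (i + n)) := by
      rw [← h.per (c - (i + n))]
      congr 1
      ring
    rw [e] at hκ hl
    refine ⟨κ, hκ, l, hl, fun j x => ?_⟩
    show x ∈ U _ ↔ _ ∈ U _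
    rw [r, ← h.per (c - (2 * i + n - j)), show c - (2 * i + n - j) + 2 * (n : ℤ) = 2 * (c - i) + n - (c - j) by ring]

theorem tr_per {d e : ℤ} {g : G} (t : Tr U d g) (hd : (2 * n : ℤ) ∣ e - d) : Tr U e g := fun j x => by
  rw [t, h.per_of (i := j + d) (j := j + e) (by rwa [add_sub_add_left_eq_sub])]

theorem rf_per {c e : ℤ} {g : G} (t : Rf U c g) (hd : (2 * n : ℤ) ∣ e - c) : Rf U e g := fun j x => by
  rw [t, h.per_of (i := c - j) (j := e - j) (by rwa [sub_sub_sub_cancel_right])]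


/-- neighbours commute -/
theorem comm_succ {i : ℤ} {a b : G} (ha : a ∈ U i) (hb : b ∈ U (i + 1)) : Commute a b := by
  have h3 := h.three
  exact cm_eq_one.1 (W_empty (by omega) (h.cZ i (i + 1) (by omega) (by omega) a ha b hb))


/-- `U_{[i+1,j]}`, `U_{[i,j-1]}`, `U_{[i+1,j-1]}` are normal in `U_{[i,j]}`: check on generators with `comm`
(`a ^ b = a [a, b]`). -/
theorem cj_mem {i j k l : ℤ} (hj : j < i + n) (h1 : i ≤ k) (h2 : k ≤ i + 1) (h3 : j - 1 ≤ l) (h4 : l ≤ j) {x g : G}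
    (hx : x ∈ W U k l) (hg : g ∈ W U i j) : cj x g ∈ W U k l := by
  refine W_ind (P := fun g => ∀ x ∈ W U k l, cj x g ∈ W U k l) (fun x hx => by rwa [cj_one])
    (fun g g' a b x hx => by rw [← cj_cj]; exact b _ (a _ hx)) (fun s s1 s2 b hb x hx => ?_) hg x hx
  refine Bas.W_cj (fun r r1 r2 a ha => ?_) hx
  have ha' : a ∈ W U k l := le_W r1 r2 ha
  rcases lt_trichotomy r s with e | e | e
  · rw [cj_eq]
    exact mul_mem ha' (W_mono (by omega) (by omega) (h.cZ r s e (by omega) a ha b hb))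
  · subst e
    have hb' : b ∈ W U k l := le_W r1 r2 hb
    exact mul_mem (mul_mem (inv_mem hb') ha') hb'
  · rw [cj_eq']
    exact mul_mem (W_mono (by omega) (by omega) (h.cZ s r e (by omega) b hb _ (inv_mem ha))) ha'


/-- Induction over both factors with `cm_mul_left/right` and `cj_mem`; generators `U r`, `U s` with `r < s`, `r = s`,
`r > s`. -/
theorem cm_mem {i j k l : ℤ} (hj : j < i + n) (hl : i < l) (hk : k < j) {a b : G} (ha : a ∈ W U i k)
    (hb : b ∈ W U l j) : cm a b ∈ W U (i + 1) (j - 1) := by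
  have N : ∀ x ∈ W U (i + 1) (j - 1), ∀ g ∈ W U i j, cj x g ∈ W U (i + 1) (j - 1) := fun x hx g hg =>
    h.cj_mem hj (by omega) le_rfl le_rfl (by omega) hx hg
  refine (W_ind (P := fun a => a ∈ W U i j ∧ cm a b ∈ W U (i + 1) (j - 1)) ⟨one_mem _, ?_⟩
    (fun x y hx hy => ⟨mul_mem hx.1 hy.1, ?_⟩) (fun r r1 r2 a ha => ⟨le_W r1 (by omega) ha, ?_⟩) ha).2
  · rw [cm_eq_one.2 (Commute.one_left b)]
    exact one_mem _
  · rw [cm_mul_left]
    exact mul_mem (N _ hx.2 _ hy.1) hy.2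
  refine (W_ind (P := fun b => b ∈ W U i j ∧ cm a b ∈ W U (i + 1) (j - 1)) ⟨one_mem _, ?_⟩
    (fun x y hx hy => ⟨mul_mem hx.1 hy.1, ?_⟩) (fun s s1 s2 b hb => ⟨le_W (by omega) s2 hb, ?_⟩) hb).2
  · rw [cm_eq_one.2 (Commute.one_right a)]
    exact one_mem _
  · rw [cm_mul_right]
    exact mul_mem hy.2 (N _ hx.2 _ hy.1)
  rcases lt_trichotomy r s with e | e | e
  · exact W_mono (by omega) (by omega) (h.cZ r s e (by omega) a ha b hb)
  · subst e
    have ha' : a ∈ W U (i + 1) (j - 1) := le_W (by omega) (by omega) ha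
    have hb' : b ∈ W U (i + 1) (j - 1) := le_W (by omega) (by omega) hb
    exact mul_mem (mul_mem (mul_mem (inv_mem ha') (inv_mem hb')) ha') hb'
  · rw [← cm_inv]
    exact inv_mem (W_mono (by omega) (by omega) (h.cZ s r e (by omega) b hb a ha))


theorem dec_bot {i j : ℤ} (hj : j < i + n) {x : G} (hx : x ∈ W U i j) : ∃ a ∈ U i, ∃ y ∈ W U (i + 1) j, x = a * y := by
  rcases lt_or_ge j i with e | e
  · exact ⟨1, one_mem _, 1, one_mem _, by rw [W_empty e hx, one_mul]⟩
  refine W_ind (P := fun x => ∃ a ∈ U i, ∃ y ∈ W U (i + 1) j, x = a * y) ⟨1, one_mem _, 1, one_mem _, (one_mul 1).symm⟩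
    ?_ (fun r r1 r2 a ha => ?_) hx
  · rintro _ _ ⟨a, ha, y, hy, rfl⟩ ⟨b, hb, z, hz, rfl⟩
    refine ⟨a * b, mul_mem ha hb, cj y b * z,
      mul_mem (h.cj_mem hj (by omega) le_rfl (by omega) le_rfl hy (le_W le_rfl e hb)) hz, ?_⟩
    unfold cj
    group
  · rcases r1.eq_or_lt with rfl | r1
    · exact ⟨a, ha, 1, one_mem _, (mul_one a).symm⟩
    · exact ⟨1, one_mem _, a, le_W (by omega) r2 ha, (one_mul a).symm⟩

theorem dec_top {i j : ℤ} (hj : j < i + n) {x : G} (hx : x ∈ W U i j) : ∃ y ∈ W U i (j - 1), ∃ a ∈ U j, x = y * a := by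
  rcases lt_or_ge j i with e | e
  · exact ⟨1, one_mem _, 1, one_mem _, by rw [W_empty e hx, one_mul]⟩
  refine W_ind (P := fun x => ∃ y ∈ W U i (j - 1), ∃ a ∈ U j, x = y * a) ⟨1, one_mem _, 1, one_mem _, (one_mul 1).symm⟩
    ?_ (fun r r1 r2 a ha => ?_) hx
  · rintro _ _ ⟨y, hy, a, ha, rfl⟩ ⟨z, hz, b, hb, rfl⟩
    refine ⟨y * cj z a⁻¹, mul_mem hy (h.cj_mem hj le_rfl (by omega) le_rfl (by omega) hz (le_W e le_rfl (inv_mem ha))),
      a * b, mul_mem ha hb, ?_⟩
    unfold cj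
    group
  · rcases r2.eq_or_lt with rfl | r2
    · exact ⟨1, one_mem _, a, ha, (one_mul a).symm⟩
    · exact ⟨a, le_W r1 (by omega) ha, 1, one_mem _, (mul_one a).symm⟩

theorem dec {i j : ℤ} (k : ℤ) (hj : j < i + n) {x : G} (hx : x ∈ W U i j) :
    ∃ y ∈ W U i k, ∃ z ∈ W U (k + 1) j, x = y * z := by
  have key : ∀ m : ℕ, ∀ i : ℤ, k + 1 - i ≤ m → j < i + n → ∀ x ∈ W U i j,
      ∃ y ∈ W U i k, ∃ z ∈ W U (k + 1) j, x = y * z := by
    intro m
    induction m with
    | zero => exact fun i e _ x hx => ⟨1, one_mem _, x, W_mono (by omega) le_rfl hx, (one_mul x).symm⟩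
    | succ m ih =>
      intro i e hj x hx
      rcases lt_or_ge k i with e' | e'
      · exact ⟨1, one_mem _, x, W_mono (by omega) le_rfl hx, (one_mul x).symm⟩
      obtain ⟨a, ha, y, hy, rfl⟩ := h.dec_bot hj hx
      obtain ⟨y', hy', z, hz, rfl⟩ := ih (i + 1) (by omega) (by omega) y hy
      exact ⟨a * y', mul_mem (le_W le_rfl e' ha) (W_mono (by omega) le_rfl hy'), z, hz, (mul_assoc _ _ _).symm⟩
  exact key (k + 1 - i).toNat i (by omega) hj x hx

/-- apply `dec` to `x⁻¹` -/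
theorem dec' {i j : ℤ} (k : ℤ) (hj : j < i + n) {x : G} (hx : x ∈ W U i j) :
    ∃ z ∈ W U (k + 1) j, ∃ y ∈ W U i k, x = z * y := by
  obtain ⟨y, hy, z, hz, e⟩ := h.dec k hj (inv_mem hx)
  exact ⟨z⁻¹, inv_mem hz, y⁻¹, inv_mem hy, by rw [← mul_inv_rev, ← e, inv_inv]⟩

theorem uniq {i j k : ℤ} (hj : j < i + n) {y z y' z' : G} (hy : y ∈ W U i k) (hz : z ∈ W U (k + 1) j)
    (hy' : y' ∈ W U i k) (hz' : z' ∈ W U (k + 1) j) (e : y * z = y' * z') : y = y' ∧ z = z' := by
  have e1 : y'⁻¹ * y = z' * z⁻¹ := by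
    rw [inv_mul_eq_iff_eq_mul, ← mul_assoc, ← e, mul_inv_cancel_right]
  have e2 := h.iZ i k j hj _ (mul_mem (inv_mem hy') hy) (by rw [e1]; exact mul_mem hz' (inv_mem hz))
  have e3 : y = y' := (inv_mul_eq_one.1 e2).symm
  subst e3
  exact ⟨rfl, mul_left_cancel e⟩

/-- intersections of subwindows of a window -/
theorem inf_mem {i j k l : ℤ} (hj : l < i + n) (hik : i ≤ k) (hjl : j ≤ l) {x : G} (h1 : x ∈ W U i j) (h2 : x ∈ W U k l) :
    x ∈ W U k j := by
  obtain ⟨y, hy, z, hz, rfl⟩ := h.dec (k - 1) (by omega) h1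
  rw [sub_add_cancel] at hz
  have : y = 1 := by
    refine h.iZ i (k - 1) l hj y hy ?_
    rw [sub_add_cancel, ← mul_inv_cancel_right y z]
    exact mul_mem h2 (inv_mem (W_mono le_rfl hjl hz))
  rwa [this, one_mul]

theorem exists_bot {i j : ℤ} (hj : j < i + n) {x : G} (hx : x ∈ W U i j) (x1 : x ≠ 1) :
    ∃ k, i ≤ k ∧ k ≤ j ∧ x ∈ W U k j ∧ x ∉ W U (k + 1) j := by
  by_contra hc
  push Not at hc
  have key : ∀ m : ℕ, x ∈ W U (i + m) j := by
    intro m
    induction m with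
    | zero => simpa using hx
    | succ m ih =>
      rcases lt_or_ge j (i + m) with e | e
      · exact absurd (W_empty e ih) x1
      · have := hc (i + m) (by omega) e ih
        rwa [show i + (m : ℤ) + 1 = i + ((m + 1 : ℕ) : ℤ) by push_cast; ring] at this
  exact x1 (W_empty (by omega) (key n))

theorem exists_top {i j : ℤ} (hj : j < i + n) {x : G} (hx : x ∈ W U i j) (x1 : x ≠ 1) :
    ∃ k, i ≤ k ∧ k ≤ j ∧ x ∈ W U i k ∧ x ∉ W U i (k - 1) := by
  by_contra hc
  push Not at hc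
  have key : ∀ m : ℕ, x ∈ W U i (j - m) := by
    intro m
    induction m with
    | zero => simpa using hx
    | succ m ih =>
      rcases lt_or_ge (j - m) i with e | e
      · exact absurd (W_empty e ih) x1
      · have := hc (j - m) e (by omega) ih
        rwa [show j - (m : ℤ) - 1 = j - ((m + 1 : ℕ) : ℤ) by push_cast; ring] at this
  exact x1 (W_empty (by omega) (key n))

theorem W_pg {i j : ℤ} (hj : j < i + n) : IsPGroup p (W U i j) := by
  have key : ∀ m : ℕ, ∀ i : ℤ, j + 1 - i ≤ m → j < i + n → IsPGroup p (W U i j) := by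
    have emp : ∀ i : ℤ, j < i → IsPGroup p (W U i j) := fun i e => by
      rw [(Subgroup.eq_bot_iff_forall _).2 fun x hx => W_empty e hx]
      exact IsPGroup.of_bot
    intro m
    induction m with
    | zero => exact fun i e _ => emp i (by omega)
    | succ m ih =>
      intro i e hj
      rcases lt_or_ge j i with e' | e'
      · exact emp i e'
      have e2 : W U i j = U i ⊔ W U (i + 1) j := by
        refine le_antisymm (W_le fun r r1 r2 => ?_) (sup_le (le_W le_rfl e') (W_mono (by omega) le_rfl))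
        rcases r1.eq_or_lt with rfl | r1
        · exact le_sup_left
        · exact le_sup_of_le_right (le_W (by omega) r2)
      rw [e2]
      refine IsPGroup.to_sup_of_normal_right' (h.pg i) (ih (i + 1) (by omega) (by omega)) fun g hg => ?_
      have N : ∀ g ∈ U i, ∀ x ∈ W U (i + 1) j, cj x g ∈ W U (i + 1) j := fun g hg x hx =>
        h.cj_mem hj (by omega) le_rfl (by omega) le_rfl hx (le_W le_rfl e' hg)
      rw [Subgroup.mem_normalizer_iff]
      intro x
      constructor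
      · intro hx
        have := N _ (inv_mem hg) x hx
        unfold cj at this
        rwa [inv_inv] at this
      · intro hx
        have := N _ hg _ hx
        unfold cj at this
        rwa [show g⁻¹ * (g * x * g⁻¹) * g = x by group] at this
  exact key (j + 1 - i).toNat i (by omega) hj

theorem card_W {i j : ℤ} (k : ℤ) (hj : j < i + n) (h1 : i ≤ k + 1) (h2 : k ≤ j) :
    Nat.card (W U i j) = Nat.card (W U i k) * Nat.card (W U (k + 1) j) := by
  rw [← Nat.card_prod]
  refine (Nat.card_eq_of_bijective (fun y : W U i k × W U (k + 1) j =>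
    (⟨y.1 * y.2, mul_mem (W_mono le_rfl h2 y.1.2) (W_mono h1 le_rfl y.2.2)⟩ : W U i j)) ⟨?_, ?_⟩).symm
  · rintro ⟨y, z⟩ ⟨y', z'⟩ e
    obtain ⟨e1, e2⟩ := h.uniq hj y.2 z.2 y'.2 z'.2 (congrArg Subtype.val e)
    exact Prod.ext (Subtype.ext e1) (Subtype.ext e2)
  · rintro ⟨x, hx⟩
    obtain ⟨y, hy, z, hz, rfl⟩ := h.dec k hj hx
    exact ⟨(⟨y, hy⟩, ⟨z, hz⟩), rfl⟩


/-- Lemma F.  Write `g = g₁ g₂`, `g₁ ∈ U_{[k+1,j]}`, `g₂ ∈ U_{[i,k]}` (`dec'`); then `x ^ g₁` lies in both halves. -/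
theorem lemF {i j k : ℤ} (hj : j < i + n) {x g : G} (hx : x ∈ W U (k + 1) j) (hg : g ∈ W U i j)
    (e : cj x g ∈ W U i k) : x = 1 := by
  obtain ⟨z, hz, y, hy, rfl⟩ := h.dec' k hj hg
  refine (cj_eq_one (g := z)).1 (h.iZ i k j hj _ ?_ (mul_mem (mul_mem (inv_mem hz) hx) hz))
  rw [← cj_cj_inv (cj x z) y, cj_cj x]
  exact mul_mem (mul_mem (inv_mem (inv_mem hy)) e) (inv_mem hy)


end MP

end CL.FS
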