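/-
S1144: the maps `κ, λ, μ`, the shift lemma, commutation bounds.
-/
import Cfsg.Agent.CHEV.FS.Bas

set_option autoImplicit false
set_option linter.unusedSectionVars false
set_option linter.unusedVariables false

namespace CL.FS

variable {G : Type*} [Group G] {p n : ℕ} {U : ℤ → Subgroup G}

theorem Ueq {i j : ℤ} {x : G} (hx : x ∈ U i) (e : i = j := by omega) : x ∈ U j := e ▸ hx

theorem Wle {i j k l : ℤ} {x : G} (hx : x ∈ W U i j) (h1 : k ≤ i := by omega) (h2 : j ≤ l := by omega) :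
    x ∈ W U k l := W_mono h1 h2 hx

theorem UW {i j k : ℤ} {x : G} (hx : x ∈ U k) (h1 : i ≤ k := by omega) (h2 : k ≤ j := by omega) :
    x ∈ W U i j := le_W h1 h2 hx

theorem cj_mem_of {T : Subgroup G} {x g : G} (hx : x ∈ T) (hg : g ∈ T) : cj x g ∈ T :=
  mul_mem (mul_mem (inv_mem hg) hx) hg

theorem Rf.eq {c e : ℤ} {g : G} (t : Rf U c g) (h : c = e := by omega) : Rf U e g := h ▸ t

namespace MP

variable (h : MP p n U)
include h

theorem up {i j : ℤ} {x : G} (hx : x ∈ U i) (e : j = i + 2 * n := by omega) : x ∈ U j :=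
  e ▸ (h.per i).symm ▸ hx

theorem down {i j : ℤ} {x : G} (hx : x ∈ U i) (e : i = j + 2 * n := by omega) : x ∈ U j :=
  h.per j ▸ e ▸ hx

theorem pres_top {i k t : ℤ} {x g : G} (hg : g ∈ U i) (hx : x ∈ W U k t) (ht : t < i + n := by omega)
    (e : k = i + 1 := by omega) : cj x g ∈ W U k t := by
  subst e
  by_cases k : t < i + 1
  · rw [W_empty k hx, one_cj]; exact one_mem _
  · exact h.cj_mem ht (by omega) le_rfl (by omega) le_rfl hx (UW hg)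

theorem pres_bot {j k t : ℤ} {x g : G} (hg : g ∈ U j) (hx : x ∈ W U t k) (ht : j < t + n := by omega)
    (e : k = j - 1 := by omega) : cj x g ∈ W U t k := by
  subst e
  by_cases k : j - 1 < t
  · rw [W_empty k hx, one_cj]; exact one_mem _
  · exact h.cj_mem ht le_rfl (by omega) le_rfl (by omega) hx (UW hg)

theorem ind' {i k l j : ℤ} {x : G} (h1 : x ∈ W U i k) (h2 : x ∈ W U l j) (hj : j < i + n := by omega)
    (e : k < l := by omega) : x = 1 := h.lemF hj (Wle h2) (one_mem _) ((cj_one x).symm ▸ h1)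

theorem commZ {i j : ℤ} {a b : G} (ha : a ∈ U i) (hb : b ∈ U j) (h1 : i < j := by omega)
    (h2 : j < i + n := by omega) : cm a b ∈ W U (i + 1) (j - 1) :=
  h.cm_mem (k := i) (l := j) h2 h1 h1 (UW ha) (UW hb)

theorem exists_mu {i : ℤ} {a : G} (ha : a ∈ U i) (a1 : a ≠ 1) : ∃ κ l, Mu n U i a κ l :=
  let ⟨κ, h1, l, h2, h3⟩ := h.mu i a ha a1
  ⟨κ, l, ha, a1, h1, h2, h3⟩

/-- If `1 ≠ a ∈ S = U_{[i+1,i+n]}` then `m = μ(a) ∈ S`; `m` normalises `U_{[i+2,i+n]}` (`cj_mem`) and maps `U (i+n-1)` to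
`U (i+1)`, contradicting `ind`, `ne`. -/
theorem not_mem_bot {i : ℤ} {a : G} (ha : a ∈ U i) (e : a ∈ W U (i + 1) (i + n)) : a = 1 := by_contra fun a1 => by
  obtain ⟨κ, l, m⟩ := h.exists_mu ha a1
  obtain ⟨x, hx, x1⟩ := h.ne (i + n - 1)
  have := h.three
  exact x1 (cj_eq_one.1 (h.ind' (i := i + 1) (k := i + 1) (UW (m.rf.cj hx)) (h.cj_mem (i := i + 1) (j := i + n)
    (k := i + 2) (by omega) (by omega) (by omega) (by omega) le_rfl (UW hx)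
      (mul_mem (mul_mem (UW m.κ_mem) e) (UW m.l_mem)))))
/-- mirror image (`rev`) -/
theorem not_mem_top {i : ℤ} {a : G} (ha : a ∈ U (i + n)) (e : a ∈ W U i (i + n - 1)) : a = 1 :=
  (h.rev (i + n)).not_mem_bot (i := 0) (Ueq (U := U) ha) (by rw [W_rev]; exact Wle e)

/-- If `a ≠ 1` normalises `S = U_{[i+1,i+n]}`, so does `μ(a)`, which maps `U (i+n)` onto `U i`: `not_mem_bot`. -/
theorem free_bot {i : ℤ} {a : G} (ha : a ∈ U i) (e : ∀ x ∈ W U (i + 1) (i + n), cj x a ∈ W U (i + 1) (i + n)) :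
    a = 1 := by_contra fun a1 => by
  obtain ⟨κ, l, m⟩ := h.exists_mu ha a1
  obtain ⟨x, hx, x1⟩ := h.ne (i + n)
  have := h.three
  refine x1 (cj_eq_one.1 (h.not_mem_bot (i := i) (Ueq (m.rf.cj hx)) ?_))
  rw [← cj_cj, ← cj_cj]
  exact cj_mem_of (e _ (cj_mem_of (UW hx) (UW m.κ_mem))) (UW m.l_mem)
theorem free_top {i : ℤ} {a : G} (ha : a ∈ U (i + n)) (e : ∀ x ∈ W U i (i + n - 1), cj x a ∈ W U i (i + n - 1)) :
    a = 1 :=
  (h.rev (i + n)).free_bot (i := 0) (Ueq (U := U) ha) fun x hx => by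
    rw [W_rev] at hx ⊢; exact Wle (e x (Wle hx))

theorem dvd_of_le {i d : ℤ} (e : W U (i + 1 + d) (i + n + d) ≤ W U (i + 1) (i + n)) : (2 * n : ℤ) ∣ d := by
  have := h.three
  have h1 := Int.emod_nonneg d (show (2 * n : ℤ) ≠ 0 by omega)
  have h2 := Int.emod_lt_of_pos d (show (0 : ℤ) < 2 * n by omega)
  rw [h.W_per (i := i + 1 + d % (2 * n)) (j := i + n + d % (2 * n))
    (by rw [add_sub_add_left_eq_sub]; exact Int.dvd_self_sub_emod) (by omega)] at e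
  refine Int.dvd_of_emod_eq_zero (by_contra fun r0 => ?_)
  generalize d % (2 * n) = r at *
  by_cases k : r ≤ n
  · obtain ⟨x, hx, x1⟩ := h.ne (i + 1 + n)
    exact x1 (h.not_mem_top hx (Wle (e (UW hx))))
  · obtain ⟨x, hx, x1⟩ := h.ne i
    exact x1 (h.not_mem_bot hx (e (UW (h.up (j := i + 2 * n) hx))))

/-- If `w` is a translation in `U_{[i+1,i+n]} = S` then `S = U_{[i+1+d,i+d+n]}`, so `2 n ∣ d` (else `U (i+n+1)` or `U i`
lies in `S`: `not_mem_top`, `not_mem_bot`); if `w ≠ 1` has bottom `k`, `w = a y`, then `w`, `y`, hence `a` normalise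
`U_{[k+1,k+n]}`: `free_bot`. -/
theorem tr_eq_one {i d : ℤ} {w : G} (hw : w ∈ W U (i + 1) (i + n)) (t : Tr U d w) : w = 1 ∧ (2 * n : ℤ) ∣ d := by
  have d0 := h.dvd_of_le (i := i) (d := d) fun x hx => by
    rw [← cj_inv_cj x w] at hx ⊢
    exact cj_mem_of ((t.W _ _ _).2 hx) hw
  refine ⟨by_contra fun w1 => ?_, d0⟩
  obtain ⟨k, k1, k2, h1, h2⟩ := h.exists_bot (by omega) hw w1
  obtain ⟨a, ha, y, hy, rfl⟩ := h.dec_bot (by omega) h1
  refine h2 ?_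
  rwa [h.free_bot ha fun x hx => by
    rw [← mul_inv_cancel_right a y, ← cj_cj]
    exact cj_mem_of (Wle (((h.tr_per t (e := 0) (by rwa [zero_sub, dvd_neg])).W _ _ _).1 hx))
      (inv_mem (Wle hy)), one_mul]
/-- As before `c - i - n ≡ i + 1`, so `w` maps `U (i+1)` to `U (i+n)`; but `x ^ w = x [x, w]` with `[x, w] ∈ U_{[i+2,i+n]}`
(`dec_bot` for `w`), so `x ∈ U_{[i+2,i+n]}`, `ind`. -/
theorem not_rf {i c : ℤ} {w : G} (hw : w ∈ W U (i + 1) (i + n)) : ¬ Rf U c w := fun t => by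
  have := h.three
  have d0 := h.dvd_of_le (i := i) (d := c - 2 * i - n - 1) fun x hx => by
    rw [← cj_inv_cj x w] at hx ⊢
    exact cj_mem_of ((t.W _ _ _).2 (Wle hx)) hw
  obtain ⟨x, hx, x1⟩ := h.ne (i + 1)
  obtain ⟨a, ha, y, hy, rfl⟩ := h.dec_bot (by omega) hw
  have h1 := t.cj hx
  rw [h.per_of (i := i + n) (by rwa [show c - (i + 1) - (i + n) = c - 2 * i - n - 1 by ring]), ← cj_cj, cj_eq] at h1
  have h2 := cj_mem_of hx ha
  exact x1 (cj_eq_one.1 (h.ind' (k := i + 1) (l := i + 2) (j := i + n) (UW h2 le_rfl) ((mul_mem_cancel_right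
    (Wle (h.cm_mem (i := i + 1) (k := i + 1) (by omega) (by omega) (by omega) (UW h2) hy))).1 (UW h1))))

theorem exists_rf (k : ℤ) : ∃ g ∈ ⨆ i, U i, Rf U (2 * k + n) g := by
  obtain ⟨a, ha, a1⟩ := h.ne k
  obtain ⟨κ, l, m⟩ := h.exists_mu ha a1
  exact ⟨_, mul_mem (mul_mem (le_iSup U _ m.κ_mem) (le_iSup U _ ha)) (le_iSup U _ m.l_mem), m.rf⟩
theorem exists_tr (k : ℤ) : ∃ g ∈ ⨆ i, U i, Tr U (2 * k) g := by
  obtain ⟨g, hg, t⟩ := h.exists_rf 0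
  obtain ⟨g', hg', t'⟩ := h.exists_rf k
  exact ⟨_, mul_mem hg hg', by simpa using t.mul t'⟩
theorem card_add_two_mul (i k : ℤ) : Nat.card (U (i + 2 * k)) = Nat.card (U i) :=
  let ⟨_, _, t⟩ := h.exists_tr k
  t.card i
theorem card_add_two (i : ℤ) : Nat.card (U (i + 2)) = Nat.card (U i) := by
  simpa using h.card_add_two_mul i 1
theorem card_opp (i : ℤ) : Nat.card (U (i + n)) = Nat.card (U i) := by
  obtain ⟨_, -, t⟩ := h.exists_rf i
  rw [← t.card i, show 2 * i + n - i = i + n by ring]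

end MP

namespace Mu

variable {i : ℤ} {a κ l : G}

theorem inv (m : Mu n U i a κ l) : Mu n U i a⁻¹ l⁻¹ κ⁻¹ :=
  ⟨inv_mem m.a_mem, inv_ne_one.2 m.a_ne, inv_mem m.l_mem, inv_mem m.κ_mem, by
    simpa [mul_assoc] using m.rf.inv⟩
theorem tr (m : Mu n U i a κ l) {d : ℤ} {g : G} (t : Tr U d g) : Mu n U (i + d) (cj a g) (cj κ g) (cj l g) :=
  ⟨t.cj m.a_mem, mt cj_eq_one.1 m.a_ne, Ueq (t.cj m.κ_mem), Ueq (t.cj m.l_mem), by
    rw [← cj_mul, ← cj_mul]; exact ((t.inv.mul_rf m.rf).mul_tr t).eq⟩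
theorem shift (c : ℤ) (m : Mu n U (i + c) a κ l) : Mu n (fun k => U (k + c)) i a κ l :=
  ⟨m.a_mem, m.a_ne, Ueq m.κ_mem, Ueq m.l_mem, fun j x => (m.rf (j + c) x).trans ⟨fun e => Ueq e, fun e => Ueq e⟩⟩
theorem of_shift (c : ℤ) (m : Mu n (fun k => U (k + c)) i a κ l) : Mu n U (i + c) a κ l :=
  ⟨m.a_mem, m.a_ne, Ueq (U := U) m.κ_mem, Ueq (U := U) m.l_mem, fun j x => by
    have := m.rf (j - c) x
    simp only [sub_add_cancel] at this
    exact this.trans ⟨fun e => Ueq e, fun e => Ueq e⟩⟩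

variable (h : MP p n U)
include h

theorem per (m : Mu n U i a κ l) {j : ℤ} (e : (2 * n : ℤ) ∣ j - i) : Mu n U j a κ l :=
  have e' : (2 * n : ℤ) ∣ j + n - (i + n) := by rwa [add_sub_add_right_eq_sub]
  ⟨h.per_of e ▸ m.a_mem, m.a_ne, h.per_of e' ▸ m.κ_mem, h.per_of e' ▸ m.l_mem,
    h.rf_per m.rf (by rw [add_sub_add_right_eq_sub, ← mul_sub]; exact e.mul_left 2)⟩
theorem rev (c : ℤ) (m : Mu n U (c - i) a κ l) : Mu n (fun k => U (c - k)) i a κ l :=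
  ⟨m.a_mem, m.a_ne, h.down m.κ_mem, h.down m.l_mem, fun j x =>
    (m.rf (c - j) x).trans ⟨fun e => h.down e, fun e => h.up e⟩⟩
theorem of_rev (c : ℤ) (m : Mu n (fun k => U (c - k)) i a κ l) : Mu n U (c - i) a κ l :=
  ⟨m.a_mem, m.a_ne, h.up m.κ_mem, h.up m.l_mem, fun j x => by
    have := m.rf (c - j) x
    simp only [sub_sub_cancel] at this
    exact this.trans ⟨fun e => h.up e, fun e => h.down e⟩⟩
theorem rf' (m : Mu n U i a κ l) {c : ℤ} {g : G} (t : Rf U c g) : Mu n U (c - i) (cj a g) (cj κ g) (cj l g) :=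
  ⟨t.cj m.a_mem, mt cj_eq_one.1 m.a_ne, h.up (t.cj m.κ_mem), h.up (t.cj m.l_mem), by
    rw [← cj_mul, ← cj_mul]; exact h.rf_per ((t.inv.mul m.rf).mul_rf t) ⟨1, by ring⟩⟩
theorem κ_mem' (m : Mu n U i a κ l) : κ ∈ U (i - n) := h.down m.κ_mem
theorem l_mem' (m : Mu n U i a κ l) : l ∈ U (i - n) := h.down m.l_mem
theorem rf_sub (m : Mu n U i a κ l) : Rf U (2 * i - n) (κ * a * l) := h.rf_per m.rf ⟨-1, by ring⟩
/-- If `l = 1` then `μ(a) = κ a` maps `S = U_{[i+1,i+n]}` to `S ^ a = T = U_{[i,i+n-1]}`, so `S = T`. -/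
theorem l_ne (m : Mu n U i a κ l) : l ≠ 1 := by
  rintro rfl
  obtain ⟨x, hx, x1⟩ := h.ne (i + n)
  have := h.three
  have k := cj_mem_of (Ueq (j := i) (m.rf.cj hx)) (inv_mem m.a_mem)
  rw [mul_one, ← cj_cj, cj_cj_inv] at k
  exact x1 (cj_eq_one.1 (h.not_mem_bot k (UW (cj_mem_of hx m.κ_mem))))
theorem κ_ne (m : Mu n U i a κ l) : κ ≠ 1 := inv_ne_one.1 (m.inv.l_ne h)
/-- `μ = a l κ^μ` -/
theorem la (m : Mu n U i a κ l) : Mu n U (i + n) l a (cj κ (κ * a * l)) :=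
  ⟨m.l_mem, m.l_ne h, h.up m.a_mem, h.up (m.rf.cj m.κ_mem), by
    rw [show a * l * cj κ (κ * a * l) = κ * a * l by simp [cj, mul_assoc]]
    exact h.rf_per m.rf ⟨1, by ring⟩⟩
/-- `μ = l^{μ⁻¹} κ a` -/
theorem ka (m : Mu n U i a κ l) : Mu n U (i + n) κ (cj l (κ * a * l)⁻¹) a :=
  ⟨m.κ_mem, m.κ_ne h, h.up (m.rf.inv.cj m.l_mem), h.up m.a_mem, by
    rw [show cj l (κ * a * l)⁻¹ * κ * a = κ * a * l by simp [cj, mul_assoc]]
    exact h.rf_per m.rf ⟨1, by ring⟩⟩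
theorem uniq_l (m : Mu n U i a κ l) {κ' l' : G} (m' : Mu n U i a κ' l') : l = l' := by
  have := h.three
  refine inv_mul_eq_one.1 (h.free_top (mul_mem (inv_mem m.l_mem) m'.l_mem) fun x hx => ?_)
  rw [show l⁻¹ * l' = (κ * a * l)⁻¹ * (κ * κ'⁻¹) * (κ' * a * l') by group, ← cj_cj, ← cj_cj x]
  refine Wle (i := 2 * i + n - (i + n)) (j := 2 * i + n - (i + 1)) ((m'.rf.W (i + 1) (i + n) _).1 (cj_mem_of (Wle ((m.rf.inv.W i (i + n - 1) _).1 hx))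
    (UW (mul_mem m.κ_mem (inv_mem m'.κ_mem)))))
/-- `S ^ a = T ^ {l⁻¹} = T ^ {l'⁻¹}`, so `l⁻¹ l'` normalises `T`: `free_top`; `κ` by `inv`. -/
theorem uniq (m : Mu n U i a κ l) {κ' l' : G} (m' : Mu n U i a κ' l') : κ = κ' ∧ l = l' :=
  ⟨inv_injective (m.inv.uniq_l h m'.inv), m.uniq_l h m'⟩
/-- `λ` is injective: `la` and `uniq` -/
theorem eq_of_l (m : Mu n U i a κ l) {a' κ' : G} (m' : Mu n U i a' κ' l) : a = a' := ((m.la h).uniq h (m'.la h)).1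
theorem eq_of_κ (m : Mu n U i a κ l) {a' l' : G} (m' : Mu n U i a' κ l') : a = a' := ((m.ka h).uniq h (m'.ka h)).2

/-- Shift lemma (i).  `b ^ a = c y b`, `κ` commutes with `b`, so `b ^ μ = (c y b) ^ l ∈ c U_{[i+2,i+n]}` lies in
`U (i+1)`; `uniq`. -/
theorem shift_bot (m : Mu n U i a κ l) {b c y : G} (hb : b ∈ U (i + n - 1)) (hc : c ∈ U (i + 1))
    (hy : y ∈ W U (i + 2) (i + n - 2)) (e : cm a b⁻¹ = c * y) : c = cj b (κ * a * l) ∧ cm c l⁻¹ = y * b := by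
  have := h.three
  have e1 : cj b (κ * a * l) = cj (c * (y * b)) l := by
    rw [← cj_cj, ← cj_cj, cj_eq_self.2 (h.comm_succ hb (Ueq m.κ_mem)), cj_eq' b, e, mul_assoc]
  have e2 := (h.uniq (i := i + 1) (k := i + 1) (j := i + n) (by omega) (UW hc) (mul_mem
    (Wle (h.commZ hc m.l_mem)) (cj_mem_of (mul_mem (Wle hy) (UW hb)) (UW m.l_mem)))
    (UW (m.rf.cj hb)) (one_mem _) (by rw [e1, cj_mul c, cj_eq c, mul_one, mul_assoc])).1
  refine ⟨e2, mul_left_cancel (a := c) ?_⟩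
  rw [← cj_eq, ← cj_cj_inv (c * (y * b)) l, ← e1, ← e2]

/-- Shift lemma (ii).  `b ^ {a⁻¹} = b y c`, `l` commutes with `b`, so `b ^ {μ⁻¹} = (b y c) ^ {κ⁻¹} ∈ U_{[i-n,i-2]} c`. -/
theorem shift_top (m : Mu n U i a κ l) {b c y : G} (hb : b ∈ U (i - n + 1)) (hc : c ∈ U (i - 1))
    (hy : y ∈ W U (i - n + 2) (i - 2)) (e : cm b a⁻¹ = y * c) : b = cj c (κ * a * l) ∧ cm κ c⁻¹ = b * y := by
  have := h.three
  have e1 : cj b (κ * a * l)⁻¹ = cj (b * y * c) κ⁻¹ := by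
    rw [mul_inv_rev, mul_inv_rev, ← cj_cj, ← cj_cj, cj_eq_self.2 (h.comm_succ (m.l_mem' h) hb).symm.inv_right,
      cj_eq b, e, mul_assoc]
  have e2 := (h.uniq (i := i - n) (k := i - 2) (j := i - 1) (by omega) (mul_mem
    (cj_mem_of (mul_mem (UW hb) (Wle hy)) (UW (inv_mem (m.κ_mem' h))))
    (Wle (h.commZ (inv_mem (m.κ_mem' h)) (inv_mem hc)))) (UW hc) (one_mem _)
    (UW ((m.rf_sub h).inv.cj hb)) (by rw [e1, cj_mul _ c, cj_eq' c, one_mul, mul_assoc])).2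
  refine ⟨by rw [e2, cj_inv_cj], mul_right_cancel (b := c) ?_⟩
  rw [← cj_eq', ← cj_inv_cj (b * y * c) κ, ← e1, ← e2]

omit h in
theorem cj_al (y : G) : cj (cj y κ⁻¹) (κ * a * l) = cj (cj y a) l := by
  rw [cj_cj, cj_cj, mul_assoc, inv_mul_cancel_left]

/-- `y ^ a = ((y ^ {κ⁻¹}) ^ μ) ^ {l⁻¹}`, and `l ∈ U (i - n)` preserves tops in `U_{[i-n+1,i-1]}` (`cj_mem`). -/
theorem tg_top (m : Mu n U i a κ l) {y : G} (hy : y ∈ W U (i - n + 1) (i - 1)) {t : ℤ} (ht : t ≤ i - 1) :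
    cj y a ∈ W U (i - n + 1) t ↔ cj y κ⁻¹ ∈ W U (2 * i - n - t) (i - 1) := by
  rw [(m.rf_sub h).W _ _ (cj y κ⁻¹), cj_al]
  exact ⟨fun e => Wle (h.pres_top (m.l_mem' h) e), fun e =>
    cj_cj_inv (cj y a) l ▸ h.pres_top (inv_mem (m.l_mem' h)) (Wle e)⟩
theorem tg_bot (m : Mu n U i a κ l) {y : G} (hy : y ∈ W U (i + 1) (i + n - 1)) {t : ℤ} (ht : i + 1 ≤ t) :
    cj y a ∈ W U t (i + n - 1) ↔ cj y κ⁻¹ ∈ W U (i + 1) (2 * i + n - t) := by
  rw [m.rf.W _ _ (cj y κ⁻¹), cj_al]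
  exact ⟨fun e => Wle (h.pres_bot m.l_mem e), fun e =>
    cj_cj_inv (cj y a) l ▸ h.pres_bot (inv_mem m.l_mem) (Wle e)⟩

/-- T2: `w ^ l = (w ^ {κ⁻¹}) ^ μ`; conjugation by `U (i - n)` preserves the top `t`. -/
theorem t2_top (m : Mu n U i a κ l) {w : G} {t : ℤ} (ht : t ≤ i - 1) (hw : w ∈ W U (i - n + 1) t)
    (c : Commute w a) : cj w l ∈ W U (2 * i - n - t) t ∧
      (w ∉ W U (i - n + 1) (t - 1) → cj w l ∉ W U (2 * i - n - t + 1) t) := by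
  have e : cj (cj w κ⁻¹) (κ * a * l) = cj w l := by rw [cj_al, cj_eq_self.2 c]
  refine ⟨h.inf_mem (l := i - 1) (by omega) (by omega) ht (h.pres_top (m.l_mem' h) hw) (e ▸ Wle
    (((m.rf_sub h).W _ _ _).1 (h.pres_top (inv_mem (m.κ_mem' h)) hw))), fun k k' => k ?_⟩
  exact cj_inv_cj w κ ▸ h.pres_top (m.κ_mem' h) (((m.rf_sub h).W _ _ _).2 (e.symm ▸ Wle k'))
theorem t2_bot (m : Mu n U i a κ l) {w : G} {t : ℤ} (ht : i + 1 ≤ t) (hw : w ∈ W U t (i + n - 1))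
    (c : Commute w a) : cj w l ∈ W U t (2 * i + n - t) ∧
      (w ∉ W U (t + 1) (i + n - 1) → cj w l ∉ W U t (2 * i + n - t - 1)) := by
  have e : cj (cj w κ⁻¹) (κ * a * l) = cj w l := by rw [cj_al, cj_eq_self.2 c]
  refine ⟨h.inf_mem (i := i + 1) (by omega) ht (by omega) (e ▸ Wle
    ((m.rf.W _ _ _).1 (h.pres_bot (inv_mem m.κ_mem) hw))) (h.pres_bot m.l_mem hw), fun k k' => k ?_⟩
  exact cj_inv_cj w κ ▸ h.pres_bot m.κ_mem ((m.rf.W _ _ _).2 (e.symm ▸ Wle k'))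

end Mu

namespace MP

variable (h : MP p n U)
include h

/-- `Mu.ka` at level `i + n` and periodicity -/
theorem exists_l {i : ℤ} {l : G} (hl : l ∈ U (i + n)) (l1 : l ≠ 1) : ∃ a κ, Mu n U i a κ l :=
  let ⟨_, _, m⟩ := h.exists_mu hl l1
  ⟨_, _, (m.ka h).per h ⟨-1, by ring⟩⟩
theorem exists_κ {i : ℤ} {κ : G} (hκ : κ ∈ U (i + n)) (κ1 : κ ≠ 1) : ∃ a l, Mu n U i a κ l :=
  let ⟨_, _, m⟩ := h.exists_mu hκ κ1
  ⟨_, _, (m.la h).per h ⟨-1, by ring⟩⟩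

/-- CB.  `z = a y`, `a = κ⁻¹ μ l⁻¹`: `g ^ {κ⁻¹ μ} = g ^ {y⁻¹ l}`; the left side lies in `U_{[k+1,2k+n-j]}`, the right side
is a conjugate of `g` inside the window `[k+1,k+n]`: `lemF`. -/
theorem cb_bot {k j : ℤ} {z g : G} (hz : z ∈ W U k (k + n - 1)) (hz' : z ∉ W U (k + 1) (k + n - 1)) (hkj : k < j)
    (hg : g ∈ W U j (k + n - 1)) (g1 : g ≠ 1) (c : Commute z g) : 2 * (j - k) ≤ n := by_contra fun lt => by
  obtain ⟨a, ha, y, hy, rfl⟩ := h.dec_bot (by omega) hz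
  obtain ⟨κ, l, m⟩ := h.exists_mu ha fun e => hz' (by rwa [e, one_mul])
  have := h.three
  have e := (m.rf.W _ _ _).1 (h.pres_bot (inv_mem m.κ_mem) hg)
  rw [Mu.cj_al, ← mul_inv_cancel_right a y, ← cj_cj, cj_eq_self.2 c.symm, cj_cj] at e
  exact g1 (h.lemF (i := k + 1) (j := k + n) (k := j - 1) (by omega) (Wle hg)
    (mul_mem (inv_mem (Wle hy)) (UW m.l_mem)) (Wle e))
theorem cb_top {k j : ℤ} {z g : G} (hz : z ∈ W U (k - n + 1) k) (hz' : z ∉ W U (k - n + 1) (k - 1)) (hkj : j < k)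
    (hg : g ∈ W U (k - n + 1) j) (g1 : g ≠ 1) (c : Commute z g) : 2 * (k - j) ≤ n := by
  have := (h.rev k).cb_bot (k := 0) (j := k - j) (by rw [W_rev]; exact Wle hz)
    (fun e => hz' (by rw [W_rev] at e; exact Wle e)) (by omega) (by rw [W_rev]; exact Wle hg) g1 c
  omega

/-- D': `cb_bot` for `j < i + n`.  For `j = i + n`: with `Mu j b κ l`, `T = U_{[i,i+n-1]}`, `S = U_{[i+1,i+n]}` one has
`T ^ b = S ^ {l⁻¹}`; `a` normalises `T`, so `l⁻¹ a l` normalises `S`: `free_bot`. -/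
theorem nc {i j : ℤ} (h1 : n < 2 * (j - i)) (h2 : j ≤ i + n) {a b : G} (ha : a ∈ U i) (hb : b ∈ U j)
    (c : Commute a b) : a = 1 ∨ b = 1 := by
  have := h.three
  refine or_iff_not_imp_right.2 fun b1 => ?_
  rcases h2.lt_or_eq with h2 | rfl
  · exact by_contra fun a1 => (h.cb_bot (UW ha) (fun e => a1 (h.not_mem_bot ha (Wle e))) (by omega) (UW hb) b1
      c).not_gt h1
  · obtain ⟨κ, l, m⟩ := h.exists_mu hb b1
    have r : Rf U (2 * i + n) (κ * b * l) := h.rf_per m.rf ⟨-1, by ring⟩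
    refine cj_eq_one.1 (h.free_bot (cj_mem_of ha (h.down m.l_mem)) fun x hx => ?_)
    rw [show cj a l = (κ * b * l)⁻¹ * cj a κ⁻¹ * (κ * b * l) from
      (cj_eq_self.2 c ▸ Mu.cj_al (κ := κ) (a := b) (l := l) a :).symm, ← cj_cj, ← cj_cj x]
    exact Wle (i := 2 * i + n - (i + n - 1)) (j := 2 * i + n - i) ((r.W i (i + n - 1) _).1 (cj_mem_of (Wle ((r.inv.W _ _ _).1 hx))
      (UW (cj_mem_of ha (inv_mem (h.down m.κ_mem))))))

/-- `tg_bot`: `b ^ {κ⁻¹}` has bottom `j`. -/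
theorem cj_not_mem_bot {i j : ℤ} (h1 : i < j) (h2 : j < i + n) {a b : G} (ha : a ∈ U i) (a1 : a ≠ 1) (hb : b ∈ U j)
    (b1 : b ≠ 1) : cj b a ∉ W U (2 * i + n - j + 1) (i + n - 1) := fun e => by
  obtain ⟨κ, l, m⟩ := h.exists_mu ha a1
  exact b1 (cj_eq_one.1 (h.ind' ((m.tg_bot h (UW hb) (by omega)).1 e)
    (h.pres_bot (t := j) (k := i + n - 1) (inv_mem m.κ_mem) (UW hb))))
theorem cj_not_mem_top {i j : ℤ} (h1 : j < i) (h2 : i - n < j) {a b : G} (ha : a ∈ U i) (a1 : a ≠ 1) (hb : b ∈ U j)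
    (b1 : b ≠ 1) : cj b a ∉ W U (i - n + 1) (2 * i - n - j - 1) := fun e => by
  obtain ⟨κ, l, m⟩ := h.exists_mu ha a1
  exact b1 (cj_eq_one.1 (h.ind' (h.pres_top (t := j) (k := i - n + 1) (inv_mem (m.κ_mem' h)) (UW hb))
    ((m.tg_top h (UW hb) (by omega)).1 e)))

/-- For `n = 2 m`: by `t2_top`, `a ^ l ∈ U i` for all `l ∈ U (i - m)` (`exists_l`), and `a ^ l = a [a, l]` with
`[a, l] ∈ U_{[i-m+1,i-1]}`. -/
theorem half {m : ℕ} (hn : n = 2 * m) {i : ℤ} {a : G} (ha : a ∈ U i) :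
    (∀ b ∈ U (i + m), Commute a b) ↔ ∀ b ∈ U (i - m), Commute a b := by
  have := h.three
  refine ⟨fun c l hl => by_contra fun k => k ?_, fun c l hl => by_contra fun k => k ?_⟩
  · obtain ⟨b, κ, μ⟩ := h.exists_l (i := i + m) (h.up hl) fun e => k (e ▸ Commute.one_right a)
    have e := (μ.t2_top h (t := i) (by omega) (UW ha) (c b μ.a_mem)).1
    rw [cj_eq, mul_mem_cancel_left (UW ha), ← cm_inv, inv_mem_iff] at e
    exact (cm_eq_one.1 (h.ind' (h.commZ hl ha) e)).symm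
  · obtain ⟨b, κ, μ⟩ := h.exists_l (i := i - m) (Ueq hl) fun e => k (e ▸ Commute.one_right a)
    have e := (μ.t2_bot h (t := i) (by omega) (UW ha) (c b μ.a_mem)).1
    rw [cj_eq, mul_mem_cancel_left (UW ha)] at e
    exact cm_eq_one.1 (h.ind' e (h.commZ ha hl))

end MP

end CL.FS
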