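/-
S1144: Bruhat decomposition, the torus, central elations.
-/
import Cfsg.Agent.CHEV.FS.Mu

set_option autoImplicit false
set_option linter.unusedSectionVars false
set_option maxHeartbeats 200000

namespace CL.FS

variable {G : Type*} [Group G] {p n : ℕ} {U : ℤ → Subgroup G}

theorem ind2 {P : ℤ → Prop} (i : ℤ) (h0 : P i) (h1 : P (i + 1)) (up : ∀ k, P k → P (k + 2))
    (dn : ∀ k, P k → P (k - 2)) (j : ℤ) : P j := by
  have : ∀ m : ℤ, P (i + m) ∧ P (i + m + 1) := fun m => by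
    induction m using Int.induction_on with
    | zero => simpa using ⟨h0, h1⟩
    | succ k ih => exact ⟨by convert ih.2 using 1; ring, by convert up _ ih.1 using 1; ring⟩
    | pred k ih => exact ⟨by convert dn _ ih.2 using 1; ring, by convert ih.1 using 1; ring⟩
  simpa using (this (j - i)).1

/-- `w` induces an element of the Weyl group -/
def NN (n : ℕ) (U : ℤ → Subgroup G) (w : G) : Prop := ∃ k : ℤ, Tr U (2 * k) w ∨ Rf U (2 * k + n) w

/-- `g ∈ S N S` -/
def BX (n : ℕ) (U : ℤ → Subgroup G) (S : Subgroup G) (g : G) : Prop :=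
  ∃ u ∈ S, ∃ u' ∈ S, ∃ w ∈ ⨆ j, U j, NN n U w ∧ g = u * w * u'

theorem NN.rf_mul {r : ℤ} {μ w : G} (m : Rf U (2 * r + n) μ) (hw : NN n U w) : NN n U (μ * w) := by
  obtain ⟨k, t | t⟩ := hw
  · exact ⟨r + k, Or.inr (by convert m.mul_tr t using 1; ring)⟩
  · exact ⟨k - r, Or.inl (by convert m.mul t using 1; ring)⟩

theorem Mu.mem_sup {i : ℤ} {a κ l : G} (m : Mu n U i a κ l) : κ * a * l ∈ ⨆ j, U j :=
  mul_mem (mul_mem (Subgroup.mem_iSup_of_mem _ m.κ_mem) (Subgroup.mem_iSup_of_mem _ m.a_mem))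
    (Subgroup.mem_iSup_of_mem _ m.l_mem)

theorem cent_cj {A B : Subgroup G} {g : G} (e : ∀ x, x ∈ A ↔ cj x g ∈ B) (a : G) :
    a ∈ Subgroup.centralizer (A : Set G) ↔ cj a g ∈ Subgroup.centralizer (B : Set G) := by
  simp only [Subgroup.mem_centralizer_iff, SetLike.mem_coe]
  refine ⟨fun c x hx => ?_, fun c x hx => cj_inj.1 (by rw [cj_mul, cj_mul]; exact c _ ((e x).1 hx))⟩
  rw [← cj_inv_cj x g, ← cj_mul, ← cj_mul, c _ ((e _).2 (by rwa [cj_inv_cj]))]

namespace MP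

variable (h : MP p n U)
include h

theorem gen (i : ℤ) : ⨆ j, U j ≤ W U i (i + n + 1) := by
  have h3 := h.three
  have mu : ∀ r, i ≤ r → r ≤ i + 1 → ∃ g ∈ W U i (i + n + 1), Rf U (2 * r + n) g := fun r h1 h2 => by
    obtain ⟨a, ha, a1⟩ := h.ne r
    obtain ⟨κ, l, m⟩ := h.exists_mu ha a1
    exact ⟨_, mul_mem (mul_mem (le_W (by omega) (by omega) m.κ_mem) (le_W (by omega) (by omega) ha))
      (le_W (by omega) (by omega) m.l_mem), m.rf⟩
  obtain ⟨g, hg, r⟩ := mu i le_rfl (by omega)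
  obtain ⟨g', hg', r'⟩ := mu (i + 1) (by omega) le_rfl
  have key : ∀ {d t}, t ∈ W U i (i + n + 1) → Tr U d t → ∀ k, U k ≤ W U i (i + n + 1) →
      U (k + d) ≤ W U i (i + n + 1) := fun {d t} ht tr k hk x hx => by
    have := hk ((tr k _).2 (by rwa [cj_inv_cj]) : cj x t⁻¹ ∈ U k)
    rw [← cj_inv_cj x t]
    exact mul_mem (mul_mem (inv_mem ht) this) ht
  refine iSup_le (ind2 i (le_W le_rfl (by omega)) (le_W (by omega) (by omega)) (fun k hk => ?_) fun k hk => ?_)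
  · convert key (mul_mem hg hg') (r.mul r') k hk using 2; ring
  · convert key (mul_mem hg' hg) (r'.mul r) k hk using 2; ring

theorem le_or (i j : ℤ) : U j ≤ W U (i + 1) (i + n) ∨ U (j + n) ≤ W U (i + 1) (i + n) := by
  have h3 := h.three
  have e := Int.emod_add_mul_ediv (j - i - 1) (2 * n)
  have a := Int.emod_nonneg (j - i - 1) (b := 2 * n) (by omega)
  have b := Int.emod_lt_of_pos (j - i - 1) (b := 2 * n) (by omega)
  generalize (j - i - 1) % (2 * n) = t at *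
  generalize (j - i - 1) / (2 * n) = s at *
  by_cases c : t < n
  · exact Or.inl (h.per_of (i := i + 1 + t) (j := j) ⟨s, by linarith⟩ ▸ le_W (by omega) (by omega))
  · exact Or.inr (h.per_of (i := i + 1 + t - n) (j := j + n) ⟨s + 1, by linarith⟩ ▸ le_W (by omega) (by omega))

theorem dich (i r : ℤ) {w : G} (hw : NN n U w) : (∀ x ∈ U (r + n), cj x w ∈ W U (i + 1) (i + n)) ∨
    ∀ x ∈ U r, cj x w ∈ W U (i + 1) (i + n) := by
  obtain ⟨j, h1, h2⟩ : ∃ j, (∀ x ∈ U r, cj x w ∈ U j) ∧ ∀ x ∈ U (r + n), cj x w ∈ U (j + n) := by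
    obtain ⟨k, t | t⟩ := hw
    · exact ⟨_, fun x => t.cj, fun x hx => by convert t.cj hx using 2; ring⟩
    · exact ⟨_, fun x => t.cj, fun x hx => by
        rw [h.per_of (i := 2 * k + n - (r + n)) ⟨1, by ring⟩]; exact t.cj hx⟩
  exact (h.le_or i j).symm.imp (fun k x hx => k (h2 x hx)) fun k x hx => k (h1 x hx)

theorem bx_one {S : Subgroup G} {r : ℤ} (hs : U (r + n) ≤ S) {w a u : G} (hw : w ∈ ⨆ j, U j) (nw : NN n U w)
    (c : ∀ x ∈ U (r + n), cj x w ∈ S) (ha : a ∈ U r) (hu : u ∈ S) : BX n U S (a * w * u) := by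
  by_cases a1 : a = 1
  · exact ⟨1, one_mem _, u, hu, w, hw, nw, by rw [a1]⟩
  obtain ⟨κ, l, m⟩ := h.exists_mu ha a1
  exact ⟨κ⁻¹, inv_mem (hs m.κ_mem), cj l⁻¹ w * u, mul_mem (c _ (inv_mem m.l_mem)) hu, _, mul_mem m.mem_sup hw,
    nw.rf_mul m.rf, by simp only [cj]; group⟩

theorem bx_mul {i r : ℤ} (hs : U (r + n) ≤ W U (i + 1) (i + n)) {a : G} (ha : a ∈ U r)
    (hd : ∀ u ∈ W U (i + 1) (i + n), ∃ y ∈ W U (i + 1) (i + n), ∃ b ∈ U (r + n), a * u = y * (a * b)) {x : G}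
    (hx : BX n U (W U (i + 1) (i + n)) x) : BX n U (W U (i + 1) (i + n)) (a * x) := by
  obtain ⟨u, hu, u', hu', w, hw, nw, rfl⟩ := hx
  obtain ⟨y, hy, b, hb, e⟩ := hd u hu
  suffices BX n U (W U (i + 1) (i + n)) (a * b * w * u') by
    obtain ⟨v, hv, v', hv', w', hw', nw', e'⟩ := this
    exact ⟨y * v, mul_mem hy hv, v', hv', w', hw', nw', by
      rw [← mul_assoc, ← mul_assoc, e, mul_assoc y, mul_assoc y, e']; group⟩
  rcases h.dich i r nw with c | c
  · convert h.bx_one hs hw nw c ha (mul_mem (c b hb) hu') using 1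
    simp only [cj]; group
  by_cases b1 : b = 1
  · exact ⟨1, one_mem _, _, mul_mem (c a ha) hu', w, hw, nw, by simp only [cj, b1]; group⟩
  obtain ⟨κ, l, m⟩ := h.exists_mu hb b1
  have p : U (r + n + n) = U r := h.per_of ⟨1, by ring⟩
  convert h.bx_one hs (mul_mem m.mem_sup hw) (nw.rf_mul m.rf) (fun x hx => by
    rw [← cj_cj]
    exact c _ (by rw [← p]; convert m.rf.cj hx using 2; ring)) (mul_mem ha (inv_mem (p ▸ m.κ_mem)))
    (mul_mem (c _ (inv_mem (p ▸ m.l_mem))) hu') using 1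
  simp only [cj]; group

/-- Bruhat decomposition (wlog `i = 0` by `shift`).  The set `X = U₊ N U₊` (`U₊ = U_{[1,n]}`) is stable under left
multiplication by `U₊`, by `U 0` and (mirror image `rev (n + 1)`) by `U (n + 1)`; these generate `⨆ U` since the group
they generate contains reflections `Rf n`, `Rf (n + 2)`.  For `a ∈ U 0`: `u = y b`, `y ∈ U_{[1,n-1]}`, `b ∈ U n`,
`a y = y' a`, so consider `a b w`.  Exactly as `w` acts on indices mod `2 n`, one of `U n ^ w`, `U 0 ^ w` is `U j` with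
`1 ≤ j ≤ n`.  First case: `a b w ∈ a w U₊`, `a = κ⁻¹ μ l⁻¹` with `κ, l ∈ U n`, `a w ∈ U₊ (μ w) U₊`.  Second case: if
`b = 1`, `a w ∈ w U₊`; else `b = κ⁻¹ μ l⁻¹` with `κ, l ∈ U 0`, `a b w ∈ (a κ⁻¹) (μ w) U₊` and `μ w` is in the first case. -/
theorem bruhat (i : ℤ) {g : G} (hg : g ∈ ⨆ j, U j) : ∃ u ∈ W U (i + 1) (i + n), ∃ u' ∈ W U (i + 1) (i + n), ∃ w ∈ ⨆ j, U j,
    (∃ k : ℤ, Tr U (2 * k) w ∨ Rf U (2 * k + n) w) ∧ g = u * w * u' := by
  have h3 := h.three
  suffices ∀ x, BX n U (W U (i + 1) (i + n)) x → BX n U (W U (i + 1) (i + n)) (g * x) by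
    exact mul_one g ▸ this 1 ⟨1, one_mem _, 1, one_mem _, 1, one_mem _, ⟨0, Or.inl (by simpa using Tr.one)⟩, by simp⟩
  refine W_ind (P := fun g => ∀ x, BX n U (W U (i + 1) (i + n)) x → BX n U (W U (i + 1) (i + n)) (g * x))
    (by simp) (fun a b ha hb x hx => mul_assoc a b x ▸ ha _ (hb x hx)) (fun k h1 h2 a ha x hx => ?_) (h.gen i hg)
  rcases eq_or_lt_of_le h1 with rfl | h1
  · refine h.bx_mul (le_W (by omega) le_rfl) ha (fun u hu => ?_) hx
    obtain ⟨y, hy, b, hb, rfl⟩ := h.dec_top (by omega) hu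
    exact ⟨cj y a⁻¹, W_mono le_rfl (by omega) (h.cj_mem (i := i) (j := i + n - 1) (by omega) (by omega) le_rfl (by omega)
      le_rfl hy (le_W le_rfl (by omega) (inv_mem ha))), b, hb, by simp only [cj]; group⟩
  rcases eq_or_lt_of_le h2 with rfl | h2
  · have p : U (i + n + 1 + n) = U (i + 1) := h.per_of ⟨1, by ring⟩
    refine h.bx_mul (p ▸ le_W le_rfl (by omega)) ha (fun u hu => ?_) hx
    obtain ⟨y, hy, b, hb, rfl⟩ := h.dec' (i + 1) (by omega) hu
    rw [W_self, ← p] at hb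
    exact ⟨cj y a⁻¹, W_mono (by omega) le_rfl (h.cj_mem (i := i + 1 + 1) (j := i + n + 1) (by omega) le_rfl (by omega)
      (by omega) (by omega) hy (le_W (by omega) le_rfl (inv_mem ha))), b, hb, by simp only [cj]; group⟩
  obtain ⟨u, hu, u', hu', w, hw, nw, rfl⟩ := hx
  exact ⟨a * u, mul_mem (le_W (by omega) (by omega) ha) hu, u', hu', w, hw, nw, by group⟩

/-- If `t` centralises `U i` it centralises `U (i + n)` (`Mu.tr`, `Mu.uniq`, `exists_l`) and all `μ(a)`, `a ∈ U i`;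
`μ(a)` maps `U (j)` to `U (2 i + n - j)`.  Wlog `i = 0`: the set of centralised indices contains `1, n` and is stable
under `j ↦ j + n`, `j ↦ 2 + n - j`, `j ↦ n - j`. -/
theorem central_of {i : ℤ} {t : G} (ht : Tr U 0 t) (h1 : ∀ a ∈ U (i + 1), Commute a t) (h2 : ∀ a ∈ U (i + n), Commute a t)
    (j : ℤ) : ∀ a ∈ U j, Commute a t := by
  have opp : ∀ k, (∀ a ∈ U k, Commute a t) → ∀ a ∈ U (k + n), Commute a t := fun k c l hl => by
    by_cases l1 : l = 1
    · simp [l1]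
    obtain ⟨a, κ, m⟩ := h.exists_l hl l1
    have m' := m.tr ht
    rw [add_zero, cj_eq_self.2 (c a m.a_mem)] at m'
    exact cj_eq_self.1 (m.uniq h m').2.symm
  have rf : ∀ r, (∀ a ∈ U r, Commute a t) → ∀ k, (∀ a ∈ U k, Commute a t) → ∀ a ∈ U (2 * r + n - k), Commute a t :=
    fun r c k ck x hx => by
      obtain ⟨a, ha, a1⟩ := h.ne r
      obtain ⟨κ, l, m⟩ := h.exists_mu ha a1
      have cμ := ((opp r c _ m.κ_mem).mul_left (c a ha)).mul_left (opp r c _ m.l_mem)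
      have := cj_eq_self.2 (ck _ (by convert m.rf.cj hx using 2; ring))
      rw [cj_cj, cμ.eq, ← cj_cj, cj_inj] at this
      exact cj_eq_self.1 this
  have h0 : ∀ a ∈ U i, Commute a t := h.per_of (i := i) (j := i + n + n) ⟨1, by ring⟩ ▸ opp _ h2
  refine ind2 (P := fun j => ∀ a ∈ U j, Commute a t) i h0 h1 (fun k c => ?_) (fun k c => ?_) j
  · convert rf _ h1 _ (rf _ h0 _ c) using 3; ring
  · convert rf _ h0 _ (rf _ h1 _ c) using 3; ring

/-- The torus `H = {t | Tr U 0 t}` embeds in `Aut (U 1) × Aut (U n)` if the centre is trivial; `bruhat`, with `w` determined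
modulo `H` by one of `2 n` actions on the indices (`n` translations `2 k`, `n` reflections). -/
theorem card_le_two [Finite G] (top : ⨆ j, U j = ⊤) (hZ : Subgroup.center G = ⊥) (h2 : ∀ j, Nat.card (U j) = 2) :
    Nat.card G ≤ 2 * n * (2 ^ n) ^ 2 := by
  have h3 := h.three
  have H : ∀ {d w w'}, Tr U d (w * w'⁻¹) → d = 0 → w = w' := fun {d w w'} t d0 => by
    subst d0
    rw [← mul_inv_eq_one, ← Subgroup.mem_bot, ← hZ, Subgroup.mem_center_iff]
    intro g
    refine Subgroup.iSup_induction U (C := fun g => Commute g (w * w'⁻¹)) (top ▸ Subgroup.mem_top g) (fun j a ha => ?_)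
      (Commute.one_left _) fun _ _ => Commute.mul_left
    by_cases a1 : a = 1
    · simp [a1]
    obtain ⟨y, -, hy⟩ := (Nat.card_eq_two_iff' (1 : U j)).1 (h2 j)
    have e1 := hy ⟨a, ha⟩ (by simpa using a1)
    have e2 := hy ⟨_, add_zero j ▸ t.cj ha⟩ (by simpa [cj_eq_one] using a1)
    exact cj_eq_self.1 (congrArg Subtype.val (e2.trans e1.symm))
  have cS : ∀ m : ℕ, m ≤ n → Nat.card (W U (0 + 1) (0 + m)) = 2 ^ m := fun m hm => by
    induction m with
    | zero => rw [(Subgroup.eq_bot_iff_forall _).2 fun x => W_empty (by omega)]; simp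
    | succ m ih =>
      rw [h.card_W (0 + m) (by omega) (by omega) (by omega), ih (by omega), pow_succ, Nat.cast_succ, ← add_assoc, W_self, h2]
  choose tr _ ht using h.exists_tr
  choose rf _ hr using h.exists_rf
  refine (Nat.card_le_card_of_surjective (fun x : W U (0 + 1) (0 + n) × (Fin n ⊕ Fin n) × W U (0 + 1) (0 + n) =>
    x.1.1 * x.2.1.elim (fun k => tr k.1) (fun k => rf k.1) * x.2.2.1) fun g => ?_).trans_eq (by
      rw [Nat.card_prod, Nat.card_prod, Nat.card_sum, cS n le_rfl, Nat.card_fin]; ring)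
  obtain ⟨u, hu, u', hu', w, -, ⟨k, t⟩, rfl⟩ := h.bruhat 0 (top ▸ Subgroup.mem_top g)
  have e := Int.emod_add_mul_ediv k n
  have a := Int.emod_nonneg k (b := n) (by omega)
  have b := Int.emod_lt_of_pos k (b := n) (by omega)
  obtain ⟨s, hs⟩ := Int.eq_ofNat_of_zero_le a
  rw [hs] at e b
  rcases t with t | t
  · exact ⟨(⟨u, hu⟩, .inl ⟨s, by omega⟩, ⟨u', hu'⟩), by
      simp only [Sum.elim_inl, H ((h.tr_per t (e := 2 * s) ⟨-(k / n), by linarith⟩).mul (ht s).inv) (by ring)]⟩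
  · exact ⟨(⟨u, hu⟩, .inr ⟨s, by omega⟩, ⟨u', hu'⟩), by
      simp only [Sum.elim_inr, H ((h.rf_per t (e := 2 * s + n) ⟨-(k / n), by linarith⟩).mul (hr s).inv) (by ring)]⟩

theorem cb_lo {m : ℕ} (hn : n = 2 * m) {s e : ℤ} (he : e < s + n) {z : G} (hz : z ∈ W U s e)
    (c : ∀ g ∈ U e, Commute z g) : z ∈ W U (e - m) e := by
  by_cases z1 : z = 1
  · exact z1 ▸ one_mem _
  obtain ⟨k, h1, h2, a, b⟩ := h.exists_bot he hz z1
  obtain ⟨g, hg, g1⟩ := h.ne e
  refine W_mono ?_ le_rfl a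
  by_contra lt
  have := h.cb_bot (j := e) (W_mono le_rfl (by omega) a) (fun k' => b (h.inf_mem (by omega) (by omega) (by omega) a k'))
    (by omega) (le_W le_rfl (by omega) hg) g1 (c g hg)
  omega

theorem cb_hi {m : ℕ} (hn : n = 2 * m) {s e : ℤ} (he : e < s + n) {z : G} (hz : z ∈ W U s e)
    (c : ∀ g ∈ U s, Commute z g) : z ∈ W U s (s + m) := by
  by_cases z1 : z = 1
  · exact z1 ▸ one_mem _
  obtain ⟨k, h1, h2, a, b⟩ := h.exists_top he hz z1
  obtain ⟨g, hg, g1⟩ := h.ne s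
  refine W_mono le_rfl ?_ a
  by_contra lt
  have := h.cb_top (j := s) (W_mono (by omega) le_rfl a) (fun k' => b (h.inf_mem (by omega) (by omega) (by omega) k' a))
    (by omega) (le_W (by omega) le_rfl hg) g1 (c g hg)
  omega

/-- Theorem Z: `cb_bot` with `g ∈ U (i + m)` and `cb_top` with `g ∈ U (i - m + 1)` (`exists_bot`, `exists_top`). -/
theorem center_mem {m : ℕ} (hn : n = 2 * m) {i : ℤ} {z : G} (hz : z ∈ W U (i - m + 1) (i + m))
    (c : ∀ x ∈ W U (i - m + 1) (i + m), Commute z x) : z ∈ W U i (i + 1) := by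
  have h3 := h.three
  have a := h.cb_lo hn (by omega) hz fun g hg => c g (le_W (by omega) le_rfl hg)
  have b := h.cb_hi hn (by omega) hz fun g hg => c g (le_W le_rfl (by omega) hg)
  convert h.inf_mem (by omega) (by omega) (by omega) b a using 2 <;> ring

theorem mem_V {m : ℕ} {i : ℤ} {a : G} : a ∈ V U m i ↔ a ∈ U i ∧ ∀ k, i - m ≤ k → k ≤ i + m → ∀ b ∈ U k, Commute a b := by
  refine and_congr_right fun _ => ⟨fun c k h1 h2 b hb => (c b (le_W h1 h2 hb)).symm, fun c b hb => ?_⟩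
  exact (W_ind (P := fun b => Commute a b) (Commute.one_right _) (fun _ _ => Commute.mul_right) c hb).symm.eq
theorem V_tr {m : ℕ} {i d : ℤ} {g a : G} (t : Tr U d g) : a ∈ V U m i ↔ cj a g ∈ V U m (i + d) :=
  and_congr (t i a)
    (cent_cj (fun x => by convert t.W (i - m) (i + m) x using 3 <;> ring) a)
theorem V_rf {m : ℕ} {i c : ℤ} {g a : G} (t : Rf U c g) : a ∈ V U m i ↔ cj a g ∈ V U m (c - i) :=
  and_congr (t i a)
    (cent_cj (fun x => by convert t.W (i - m) (i + m) x using 3 <;> ring) a)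
theorem V_per {m : ℕ} {i j : ℤ} (e : (2 * n : ℤ) ∣ j - i) : V U m j = V U m i := by
  rw [V, V, h.per_of e, h.W_per (i := i - m) (j := i + m) (by convert e using 1; ring) (by ring)]
theorem V_shift (m : ℕ) (c i : ℤ) : V (fun k => U (k + c)) m i = V U m (i + c) := by
  simp only [V, W_shift]; congr 4 <;> ring
theorem V_rev (m : ℕ) (c i : ℤ) : V (fun k => U (c - k)) m i = V U m (c - i) := by
  simp only [V, W_rev]; congr 4 <;> ring

/-- the centre of a window -/
def ZW (U : ℤ → Subgroup G) (i j : ℤ) : Subgroup G := W U i j ⊓ Subgroup.centralizer (W U i j : Set G)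

omit h in
theorem ZW_comm {i j k : ℤ} {z b : G} (hz : z ∈ ZW U i j) (h1 : i ≤ k) (h2 : k ≤ j) (hb : b ∈ U k) : Commute z b :=
  (hz.2 b (le_W h1 h2 hb)).symm

omit h in
theorem mem_ZW {i j : ℤ} {z : G} (hz : z ∈ W U i j) (c : ∀ k, i ≤ k → k ≤ j → ∀ b ∈ U k, Commute z b) :
    z ∈ ZW U i j := ⟨hz, fun b hb =>
  (W_ind (P := fun b => Commute z b) (Commute.one_right _) (fun _ _ => Commute.mul_right) c hb).symm.eq⟩

theorem ZW_ne [Finite G] {i j : ℤ} (h1 : i ≤ j) (h2 : j < i + n) : ∃ z ∈ ZW U i j, z ≠ 1 := by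
  obtain ⟨a, ha, a1⟩ := h.ne i
  have := Fact.mk h.prime
  have : Nontrivial (W U i j) := ⟨⟨⟨a, le_W le_rfl h1 ha⟩, 1, by simpa using a1⟩⟩
  have := (h.W_pg h2).center_nontrivial
  obtain ⟨⟨z, hz⟩, z1⟩ := exists_ne (1 : Subgroup.center (W U i j))
  exact ⟨z, ⟨z.2, fun b hb => congrArg Subtype.val (Subgroup.mem_center_iff.1 hz ⟨b, hb⟩)⟩, by simpa using z1⟩

section Bad

variable {m : ℕ} (hn : n = 2 * m) (bad : ∀ i, ∀ a ∈ V U m i, a = 1)
include hn bad

theorem bad0 {i : ℤ} {z : G} (hz : z ∈ ZW U (i - m + 1) (i + m)) (hi : z ∈ U i) : z = 1 :=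
  bad i z (h.mem_V.2 ⟨hi, fun k h1 h2 b hb => by
    rcases eq_or_lt_of_le h1 with rfl | h1
    · exact (h.half hn hi).1 (fun b hb => ZW_comm hz (by have := h.three; omega) le_rfl hb) b hb
    · exact ZW_comm hz (by omega) h2 hb⟩)

theorem bad1 {i : ℤ} {z : G} (hz : z ∈ ZW U (i - m + 1) (i + m)) (hi : z ∈ U (i + 1)) : z = 1 :=
  bad _ z (h.mem_V.2 ⟨hi, fun k h1 h2 b hb => by
    rcases eq_or_lt_of_le h2 with rfl | h2
    · exact (h.half hn hi).2 (fun b hb => ZW_comm hz (by omega) (by have := h.three; omega) hb) b hb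
    · exact ZW_comm hz (by omega) (by omega) hb⟩)

omit bad in
theorem cm_R {i e : ℤ} {r l : G} (hr : r ∈ ZW U (i - m + 1) (i + m - 1)) (h0 : i - 1 ≤ e) (he : e ≤ i + 1)
    (h1 : r ∈ W U (i - 1) e) (hl : l ∈ U (i - m)) :
    cm r l ∈ ZW U (i - m + 1) (i + m - 1) ∧ cm r l ∈ W U (i - 1) (e - 1) := by
  have h3 := h.three
  have hl' : l ∈ W U (i - m) (i + m - 1) := le_W le_rfl (by omega) hl
  have nm : ∀ x, x ∈ W U (i - m + 1) (i + m - 1) ↔ cj x l ∈ W U (i - m + 1) (i + m - 1) := fun x =>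
    ⟨fun hx => h.cj_mem (by omega) (by omega) le_rfl (by omega) le_rfl hx hl', fun hx => cj_cj_inv x l ▸
      h.cj_mem (by omega) (by omega) le_rfl (by omega) le_rfl hx (inv_mem hl')⟩
  have a : cm r l ∈ ZW U (i - m + 1) (i + m - 1) := by
    rw [show cm r l = r⁻¹ * cj r l by rw [cj_eq, inv_mul_cancel_left]]
    exact mul_mem (inv_mem hr) ⟨(nm r).1 hr.1, (cent_cj nm r).1 hr.2⟩
  have b := h.cb_lo hn (by omega) a.1 fun g hg => ZW_comm a (by omega) le_rfl hg
  have c := inv_mem (h.cm_mem (i := i - m) (j := e) (k := i - m) (by omega) (by omega) (by omega) (le_W le_rfl le_rfl hl) h1)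
  rw [cm_inv] at c
  exact ⟨a, by convert h.inf_mem (by omega) (by omega) (by omega) c b using 2; ring⟩

theorem R_le {i : ℤ} {r : G} (hr : r ∈ ZW U (i - m + 1) (i + m - 1)) (h1 : r ∈ W U (i - 1) i) :
    r ∈ ZW U (i - 1 - m + 1) (i - 1 + m) := by
  have h3 := h.three
  have key : ∀ {s}, s ∈ ZW U (i - m + 1) (i + m - 1) → (∀ l ∈ U (i - m), cm s l = 1) →
      s ∈ ZW U (i - 1 - m + 1) (i - 1 + m) := fun {s} hs c =>
    mem_ZW (W_mono (by omega) (by omega) hs.1) fun k h1 h2 b hb => by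
      by_cases e : k = i - m
      · exact cm_eq_one.1 (c b (e ▸ hb))
      · exact ZW_comm hs (by omega) (by omega) hb
  refine key hr fun l hl => ?_
  obtain ⟨a, b⟩ := h.cm_R hn hr (by omega) (by omega) h1 hl
  exact h.bad0 hn bad (key a fun l' hl' => W_empty (by omega) (h.cm_R hn a le_rfl (by omega) b hl').2) (W_self (U := U) _ ▸ b)

theorem le_Z [Finite G] (i : ℤ) : Nat.card (U (i - m)) ≤ Nat.card (ZW U (i - 1 - m + 1) (i - 1 + m)) := by
  have h3 := h.three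
  obtain ⟨z, hz, z1⟩ := h.ZW_ne (i := i - m + 1) (j := i + m) (by omega) (by omega)
  have w := h.center_mem hn hz.1 fun x hx => (hz.2 x hx).symm
  have hr : z ∈ ZW U (i - m + 1) (i + m - 1) :=
    mem_ZW (W_mono (by omega) (by omega) w) fun k h1 h2 b hb => ZW_comm hz h1 (by omega) hb
  refine Nat.card_le_card_of_injective (fun l => ⟨cm z l.1, ?_⟩) fun l l' e => ?_
  · obtain ⟨a, b⟩ := h.cm_R hn hr (by omega) le_rfl (W_mono (by omega) le_rfl w) l.2
    exact h.R_le hn bad a (by simpa using b)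
  have e' : cj z (l.1 * l'.1⁻¹) = z := by
    rw [← cj_cj, cj_eq z l.1, show cm z l.1 = cm z l'.1 from congrArg Subtype.val e, ← cj_eq, cj_cj_inv]
  by_contra ne
  obtain ⟨a, κ, mu⟩ := h.exists_l (i := i + m) (l := l.1 * l'.1⁻¹)
    (by rw [h.per_of (i := i - m) ⟨1, by omega⟩]; exact mul_mem l.2 (inv_mem l'.2))
    fun k => ne (Subtype.ext (mul_inv_eq_one.1 k))
  refine (mu.t2_top h (t := i + 1) (by omega) (W_mono (by omega) le_rfl w) (ZW_comm hz (by omega) le_rfl mu.a_mem)).2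
    (fun k => z1 (h.bad0 hn bad hz ?_)) (e'.symm ▸ W_mono (by omega) le_rfl w)
  rw [← W_self (U := U) i]
  convert h.inf_mem (by omega) (by omega) (by omega) k w using 2; ring

theorem proj [Finite G] : (∀ i, Nat.card (ZW U (i - m + 1) (i + m)) ≤ Nat.card (U i)) ∧
    ∀ i, Nat.card (U i) ≤ Nat.card (ZW U (i - m + 1) (i + m)) →
      ∀ a ∈ U i, ∃ b ∈ U (i + 1), a * b ∈ ZW U (i - m + 1) (i + m) := by
  have h3 := h.three
  rw [← forall_and]
  intro i
  have : ∀ z : ZW U (i - m + 1) (i + m), ∃ a : U i, ∃ b ∈ U (i + 1), z.1 = a * b := fun z => by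
    obtain ⟨a, ha, b, hb, e⟩ := h.dec_bot (by omega) (h.center_mem hn z.2.1 fun x hx => (z.2.2 x hx).symm)
    exact ⟨⟨a, ha⟩, b, W_self (U := U) _ ▸ hb, e⟩
  choose f hf using this
  have inj : Function.Injective f := fun z z' e => by
    obtain ⟨b, hb, e1⟩ := hf z
    obtain ⟨b', hb', e2⟩ := hf z'
    have := h.bad1 hn bad (mul_mem (inv_mem z.2) z'.2) (by rw [e1, e2, e]; simpa using mul_mem (inv_mem hb) hb')
    exact Subtype.ext (inv_mul_eq_one.1 this)
  refine ⟨Nat.card_le_card_of_injective f inj, fun le a ha => ?_⟩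
  obtain ⟨z, hz⟩ := (inj.bijective_of_nat_card_le le).2 ⟨a, ha⟩
  obtain ⟨b, hb, e⟩ := hf z
  exact ⟨b, hb, by rw [hz] at e; exact e ▸ z.2⟩

end Bad

/-- Central elations exist.  Let `Z i` be the centre of `U_{[i-m+1,i+m]}` (a non-trivial `p`-group, so `Z i ≠ 1`),
`Z i ≤ U i U (i+1)`.  If `1 ≠ z ∈ Z i ∩ U i` then `z ∈ V i` (`half`); likewise for `U (i+1)`.  So assume (bad case)
`Z i ∩ U i = Z i ∩ U (i+1) = 1` for all `i`; then `Z i` projects injectively to `U i` and to `U (i+1)`.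
Let `Q = U_{[i-m+1,i+m-1]}`, `R = Z(Q) ≤ U_{[i-1,i+1]}` (`cb_bot`, `cb_top`), normalised by `U (i ± m)`.
`s ∈ R ∩ U (i-1)` has `[s, U (i-m)] ≤ R ∩ U_{[i-m+1,i-2]} = 1`, so `s ∈ Z (i-1) ∩ U (i-1) = 1`; hence
`R ∩ U_{[i-1,i]} ≤ Z (i-1)`.  For `1 ≠ z ∈ Z i` (top `i+1`), `l ↦ [z, l]` maps `U (i-m)` into `R ∩ U_{[i-1,i]} ≤ Z (i-1)`,
is multiplicative and injective (`t2_top` with `exists_l`: `z ^ l` has bottom `i - 1`, `z` has bottom `i`).  So
`|Z (i-1)| ≥ |U (i-m)|`; mirror: `|Z i| ≥ |U (i+m)|`.  With `card_add_two_mul`, `|Z i| ≥ |U j|` for all `j`, so every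
`a ∈ U i` is the first component of some `z = a b ∈ Z i`.  Induction on `r ≤ m`: `[U j, U (j+r)] = 1` for all `j`
(`z` and `b` commute with `U (i+r+1)`), also for `r = 0`.  Then `V i = U i`. -/
theorem exists_V [Finite G] {m : ℕ} (hn : n = 2 * m) : ∃ i, ∃ a ∈ V U m i, a ≠ 1 := by
  by_contra bad
  push Not at bad
  have h3 := h.three
  obtain ⟨p1, p2⟩ := h.proj hn bad
  have sur : ∀ i, ∀ a ∈ U i, ∃ b ∈ U (i + 1), a * b ∈ ZW U (i - m + 1) (i + m) := fun i => p2 i (by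
    have a := (h.le_Z hn bad (i + m)).trans (p1 _)
    have b := h.le_Z hn bad (i + 1)
    rw [← h.card_add_two_mul _ (m - 1), add_sub_cancel_right] at b
    rw [add_sub_cancel_right] at a
    exact a.trans (by rwa [show i + 1 - m + 2 * (m - 1) = i + m - 1 by ring] at b))
  have key : ∀ r : ℕ, r ≤ m → ∀ j, ∀ a ∈ U j, ∀ c ∈ U (j + r), Commute a c := fun r hr => by
    have st : ∀ j k : ℤ, j - m + 1 ≤ k → k ≤ j + m → ∀ c ∈ U k, (∀ b ∈ U (j + 1), Commute b c) → ∀ a ∈ U j, Commute a c :=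
      fun j k h1 h2 c hc cb a ha => by
        obtain ⟨b, hb, z⟩ := sur j a ha
        simpa using (ZW_comm z h1 h2 hc).mul_left (cb b hb).inv_left
    induction r with
    | zero =>
      exact fun j a ha c hc => st j _ (by omega) (by omega) c hc
        (fun b hb => (h.comm_succ (by simpa using hc) hb).symm) a ha
    | succ r ih =>
      exact fun j a ha c hc => st j _ (by omega) (by omega) c hc
        (fun b hb => ih (by omega) _ b hb c (by convert hc using 2; push_cast; ring)) a ha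
  obtain ⟨a, ha, a1⟩ := h.ne 0
  refine a1 (bad 0 a (h.mem_V.2 ⟨ha, fun k h1 h2 b hb => ?_⟩))
  rcases le_total 0 k with l | l
  · exact key k.toNat (by omega) 0 a ha b (by convert hb using 2; omega)
  · exact (key (-k).toNat (by omega) k b hb a (by convert ha using 2; omega)).symm

end MP

end CL.FS
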