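/-
S1144: a Moufang polygon is determined by its positive root group sequence.
-/
import Cfsg.Agent.CHEV.FS.Bru

set_option autoImplicit false
set_option linter.unusedSectionVars false

namespace CL.FS

universe u

variable {G G' : Type*} [Group G] [Group G'] {p p' n : ℕ} {U : ℤ → Subgroup G} {U' : ℤ → Subgroup G'}

/-- `Y i, …, Y (i + n - 1)` are graphs closed under commutators -/
structure Win (n : ℕ) (U : ℤ → Subgroup G) (U' : ℤ → Subgroup G') (Y : ℤ → Subgroup (G × G')) (i : ℤ) : Prop where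
  gr : ∀ j, i ≤ j → j < i + n → Gr (U j) (U' j) (Y j)
  comm : ∀ j k, i ≤ j → j < k → k < i + n → ∀ a ∈ Y j, ∀ b ∈ Y k, cm a b ∈ W Y (j + 1) (k - 1)

/-- the pairs in `U j × U' j` normalising `Y_{[j-n+1,j-1]}` -/
def nxt (n : ℕ) (U : ℤ → Subgroup G) (U' : ℤ → Subgroup G') (Y : ℤ → Subgroup (G × G')) (j : ℤ) : Subgroup (G × G') :=
  (U j).prod (U' j) ⊓ Subgroup.normalizer (W Y (j - n + 1) (j - 1) : Set (G × G'))

theorem mem_norm_of {X : Type*} [Group X] {T : Subgroup X} {g : X} (fin : IsOfFinOrder g)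
    (H : ∀ x ∈ T, cj x g ∈ T) : g ∈ Subgroup.normalizer (T : Set X) := by
  have hp : ∀ k : ℕ, ∀ x ∈ T, cj x (g ^ k) ∈ T := fun k => by
    induction k with
    | zero => simp [cj_one]
    | succ k ih => exact fun x hx => by rw [pow_succ, ← cj_cj]; exact H _ (ih x hx)
  refine Subgroup.mem_normalizer_iff''.2 fun x => ⟨H x, fun hx => ?_⟩
  obtain ⟨k, k0, e⟩ := fin.exists_pow_eq_one
  obtain ⟨k, rfl⟩ := Nat.exists_eq_add_of_lt k0
  have := hp k _ hx
  change cj (cj x g) _ ∈ T at this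
  rwa [cj_cj, ← pow_succ', show k + 1 = 0 + k + 1 by ring, e, cj_one] at this

theorem cj_of_norm {X : Type*} [Group X] {T : Subgroup X} {g x : X} (hg : g ∈ Subgroup.normalizer (T : Set X))
    (hx : x ∈ T) : cj x g ∈ T := (Subgroup.mem_normalizer_iff''.1 hg x).1 hx

theorem cj_W {X : Type*} [Group X] {Z : ℤ → Subgroup X} {T : Subgroup X} {i j : ℤ} {g : X}
    (H : ∀ k, i ≤ k → k ≤ j → ∀ a ∈ Z k, cj a g ∈ T) {x : X} (hx : x ∈ W Z i j) : cj x g ∈ T :=
  W_ind (P := fun x => cj x g ∈ T) (by rw [one_cj]; exact one_mem _)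
    (fun x y a b => by rw [cj_mul]; exact mul_mem a b) H hx

theorem Gr.eq {A : Subgroup G} {A' : Subgroup G'} {Y : Subgroup (G × G')} (g : Gr A A' Y) {y z : G × G'} (hy : y ∈ Y)
    (hz : z ∈ Y) (e : y.1 = z.1) : y = z := by
  have := (g.inj _ (mul_mem (inv_mem hy) hz)).1 (by simp [e])
  exact Prod.ext e (by simpa [inv_mul_eq_one] using this)

theorem Gr.eq_of_le {A : Subgroup G} {A' : Subgroup G'} {Y Z : Subgroup (G × G')} (g : Gr A A' Y) (g' : Gr A A' Z)
    (e : Y ≤ Z) : Y = Z := le_antisymm e fun z hz => by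
  obtain ⟨x', hx⟩ := g.onto _ (g'.le z hz).1
  rwa [← g'.eq (e hx) hz rfl]

theorem Win.cj_bot {Y : ℤ → Subgroup (G × G')} {i : ℤ} (w : Win n U U' Y i) {j k : ℤ} (h1 : i ≤ j) (h2 : k < i + n)
    {a z : G × G'} (ha : a ∈ Y j) (hz : z ∈ W Y (j + 1) k) : cj z a ∈ W Y (j + 1) k :=
  cj_W (fun r r1 r2 b hb => by
    rw [cj_eq, ← cm_inv]
    exact mul_mem (le_W r1 r2 hb) (inv_mem (W_mono le_rfl (by omega) (w.comm j r h1 (by omega) (by omega) a ha b hb)))) hz

theorem Win.cj_top {Y : ℤ → Subgroup (G × G')} {i : ℤ} (w : Win n U U' Y i) {j k : ℤ} (h1 : i ≤ j) (h2 : k < i + n)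
    {a z : G × G'} (ha : a ∈ Y k) (hz : z ∈ W Y j (k - 1)) : cj z a ∈ W Y j (k - 1) :=
  cj_W (fun r r1 r2 b hb => by
    rw [cj_eq]
    exact mul_mem (le_W r1 r2 hb) (W_mono (by omega) le_rfl (w.comm r k (by omega) (by omega) h2 b hb a ha))) hz

theorem Win.dec {Y : ℤ → Subgroup (G × G')} {i : ℤ} (w : Win n U U' Y i) {j k : ℤ} (h1 : i ≤ j) (h2 : k < i + n)
    {y : G × G'} (hy : y ∈ W Y j k) : ∃ a ∈ Y j, ∃ z ∈ W Y (j + 1) k, y = a * z := by
  refine W_ind (P := fun y => ∃ a ∈ Y j, ∃ z ∈ W Y (j + 1) k, y = a * z) ⟨1, one_mem _, 1, one_mem _, by simp⟩ ?_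
    (fun r r1 r2 b hb => ?_) hy
  · rintro _ _ ⟨a, ha, z, hz, rfl⟩ ⟨a', ha', z', hz', rfl⟩
    exact ⟨a * a', mul_mem ha ha', cj z a' * z', mul_mem (w.cj_bot h1 h2 ha' hz) hz', by simp [cj, mul_assoc]⟩
  · rcases r1.eq_or_lt with rfl | r1
    · exact ⟨b, hb, 1, one_mem _, by simp⟩
    · exact ⟨1, one_mem _, b, le_W r1 r2 hb, by simp⟩

theorem Win.le {Y : ℤ → Subgroup (G × G')} {i : ℤ} (w : Win n U U' Y i) {j k : ℤ} (h1 : i ≤ j) (h2 : k < i + n)
    {y : G × G'} (hy : y ∈ W Y j k) : y.1 ∈ W U j k ∧ y.2 ∈ W U' j k :=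
  W_ind (P := fun y => y.1 ∈ W U j k ∧ y.2 ∈ W U' j k) ⟨one_mem _, one_mem _⟩
    (fun _ _ a b => ⟨mul_mem a.1 b.1, mul_mem a.2 b.2⟩)
    (fun r r1 r2 b hb => have := (w.gr r (by omega) (by omega)).le b hb; ⟨le_W r1 r2 this.1, le_W r1 r2 this.2⟩) hy

theorem MP.ind0 (h : MP p n U) {i k j : ℤ} (hj : j < i + n) {x : G} (h1 : x ∈ W U i k) (h2 : x ∈ W U (k + 1) j) :
    x = 1 :=
  (h.uniq hj h1 (one_mem _) (one_mem _) h2 (by simp)).1

/-- `b ^ {l⁻¹}` is the unique element of `b U_{[k+1,i+n-1]}` whose conjugate by `a⁻¹` lies in `U_{[2i+n-k,i+n-1]}` -/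
theorem Mu.char (h : MP p n U) {i k : ℤ} {a κ l b : G} (m : Mu n U i a κ l) (h1 : i < k) (h2 : k < i + n) (hb : b ∈ U k) :
    b⁻¹ * cj b l⁻¹ ∈ W U (k + 1) (i + n - 1) ∧ cj (cj b l⁻¹) a⁻¹ ∈ W U (2 * i + n - k) (i + n - 1) := by
  constructor
  · rw [cj_eq, inv_mul_cancel_left]
    exact h.cm_mem (k := k) (l := i + n) (by omega) h2 h2 (by rwa [W_self]) (by rw [W_self]; exact inv_mem m.l_mem)
  · have e : cj (cj b l⁻¹) a⁻¹ = cj (cj b (κ * a * l)⁻¹) κ := by simp [cj, mul_assoc]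
    rw [e]
    exact h.cj_mem (i := 2 * i + n - k) (j := i + n) (by omega) le_rfl (by omega) le_rfl (by omega)
      (le_W le_rfl (by omega) (m.rf.inv.cj hb)) (le_W (by omega) le_rfl m.κ_mem)

theorem Mu.char_uniq (h : MP p n U) {i k : ℤ} {a κ l y : G} (m : Mu n U i a κ l) (h1 : i < k) (h2 : k < i + n)
    (hy : y ∈ W U (k + 1) (i + n - 1)) (e : cj y a⁻¹ ∈ W U (2 * i + n - k) (i + n - 1)) : y = 1 := by
  have := (m.inv.tg_bot h (W_mono (by omega) le_rfl hy) (by omega)).1 e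
  rw [inv_inv, show 2 * i + n - (2 * i + n - k) = k by ring] at this
  exact h.lemF (i := i + 1) (j := i + n) (by omega) (W_mono le_rfl (by omega) hy) (le_W (by omega) le_rfl m.l_mem) this

variable (h : MP p n U) (h' : MP p' n U') {Y : ℤ → Subgroup (G × G')}
include h h'

/-- Induction on the length as for `dec_bot` (`Y j` normalises `Y_{[j+1,k]}`): every element is a product `y_j ⋯ y_k`;
`inj` from `ind`. -/
theorem Win.grW {i : ℤ} (w : Win n U U' Y i) {j k : ℤ} (h1 : i ≤ j) (h2 : k < i + n) :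
    Gr (W U j k) (W U' j k) (W Y j k) := by
  have key : ∀ m : ℕ, ∀ j, i ≤ j → k < j + m → ∀ y ∈ W Y j k, y.1 = 1 ∨ y.2 = 1 → y = 1 := fun m => by
    induction m with
    | zero => exact fun j _ e y hy _ => W_empty (by omega) hy
    | succ m ih =>
      intro j j1 e y hy y1
      by_cases c : k < j
      · exact W_empty c hy
      obtain ⟨a, ha, z, hz, rfl⟩ := w.dec j1 h2 hy
      have g := w.gr j j1 (by omega)
      have z1 := w.le (by omega) h2 hz
      have a1 : a.1 = 1 ∧ a.2 = 1 := by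
        rcases y1 with y1 | y1
        · have := h.ind0 (i := j) (j := k) (by omega) (by rw [W_self]; exact (g.le a ha).1)
            (by rw [eq_inv_of_mul_eq_one_left y1]; exact inv_mem z1.1)
          exact ⟨this, (g.inj a ha).1 this⟩
        · have := h'.ind0 (i := j) (j := k) (by omega) (by rw [W_self]; exact (g.le a ha).2)
            (by rw [eq_inv_of_mul_eq_one_left y1]; exact inv_mem z1.2)
          exact ⟨(g.inj a ha).2 this, this⟩
      obtain rfl : a = 1 := Prod.ext a1.1 a1.2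
      rw [one_mul] at y1 ⊢
      exact ih (j + 1) (by omega) (by push_cast at e; omega) z hz y1
  refine ⟨fun y hy => w.le h1 h2 hy, fun x hx => ?_, fun x hx => ?_, fun y hy => ?_⟩
  · refine W_ind (P := fun x => ∃ x', (x, x') ∈ W Y j k) ⟨1, one_mem _⟩ ?_ (fun r r1 r2 b hb => ?_) hx
    · rintro x y ⟨x', a⟩ ⟨y', b⟩
      exact ⟨x' * y', mul_mem a b⟩
    · exact ((w.gr r (by omega) (by omega)).onto b hb).imp fun _ e => le_W r1 r2 e
  · refine W_ind (P := fun x' => ∃ x, (x, x') ∈ W Y j k) ⟨1, one_mem _⟩ ?_ (fun r r1 r2 b hb => ?_) hx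
    · rintro x y ⟨x', a⟩ ⟨y', b⟩
      exact ⟨x' * y', mul_mem a b⟩
    · exact ((w.gr r (by omega) (by omega)).onto' b hb).imp fun _ e => le_W r1 r2 e
  · have := key (k - j + 1).toNat j h1 (by omega) y hy
    exact ⟨fun e => by rw [this (Or.inl e)]; rfl, fun e => by rw [this (Or.inr e)]; rfl⟩

/-- two elements of the graph `Y_{[i,i+n-1]}` with the same first component are equal -/
theorem Win.mem {i : ℤ} (w : Win n U U' Y i) {j k j' k' : ℤ} (h1 : i ≤ j) (h2 : k < i + n) (h3 : i ≤ j') (h4 : k' < i + n)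
    {y : G × G'} (hy : y ∈ W Y j k) (e : y.1 ∈ W U j' k') : y ∈ W Y j' k' := by
  obtain ⟨x', hx⟩ := (w.grW h h' h3 h4).onto _ e
  rwa [(w.grW h h' (j := i) (k := i + n - 1) le_rfl (by omega)).eq (W_mono h1 (by omega) hy)
    (W_mono h3 (by omega) hx) rfl]

/-- Uniqueness of the Bruhat decomposition of automorphisms of `Q' = U'_{[i+1,i+n-1]}`.  Let `φ : Q ≃ Q'` have graph
`Y_{[i+1,i+n-1]}`; conjugation by `a`, `a'` correspond under `φ`.  Call an automorphism of `Q'` upper if it maps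
`x ∈ U' j` into `x U'_{[j+1,i+n-1]}`; these form a group (they preserve `U'_{[j,i+n-1]}`) containing the conjugations by
`κ', l'` and the transported conjugations `κ₀, l₀` by `κ, l`.  `m₀ = κ₀ a' l₀` and `m' = κ' a' l'` (applied from the left
to the right) map `U' j` onto `U' (2 i + n - j)`.  With the upper `t = κ' κ₀⁻¹`, `s = l'⁻¹ l₀` one has
`t m₀ = m' s`... i.e. `(m'⁻¹ m₀) (m₀⁻¹ t m₀) = s`, where the first factor preserves every `U' j` and the second is lower;
comparing components (`ind`) all three fix every `x ∈ U' j`.  So `(κ, κ')`, `(l, l')` normalise the graph. -/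
theorem Win.mu {i : ℤ} (w : Win n U U' Y i) {a κ l : G} {a' κ' l' : G'} (ha : (a, a') ∈ Y i) (m : Mu n U i a κ l)
    (m' : Mu n U' i a' κ' l') : (κ, κ') ∈ nxt n U U' Y (i + n) ∧ (l, l') ∈ nxt n U U' Y (i + n) := by
  have key : ∀ {a κ l : G} {a' κ' l' : G'}, (a, a') ∈ Y i → Mu n U i a κ l → Mu n U' i a' κ' l' →
      (l, l') ∈ nxt n U U' Y (i + n) := fun {a κ l a' κ' l'} ha m m' => by
    have hn := h.three
    refine Subgroup.mem_inf.2 ⟨⟨m.l_mem, m'.l_mem⟩, ?_⟩
    rw [show i + n - n + 1 = i + 1 by ring, ← inv_mem_iff]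
    refine mem_norm_of (IsOfFinOrder.inv (IsOfFinOrder.prod_mk ?_ ?_)) fun x hx => cj_W (fun k k1 k2 b hb => ?_) hx
    · obtain ⟨e, he⟩ := h.pg _ ⟨l, m.l_mem⟩
      exact isOfFinOrder_iff_pow_eq_one.2 ⟨_, pow_pos h.prime.pos e, congrArg Subtype.val he⟩
    · obtain ⟨e, he⟩ := h'.pg _ ⟨l', m'.l_mem⟩
      exact isOfFinOrder_iff_pow_eq_one.2 ⟨_, pow_pos h'.prime.pos e, congrArg Subtype.val he⟩
    have g := (w.gr k (by omega) (by omega)).le b hb
    obtain ⟨c1, c2⟩ := m.char h (k := k) (by omega) (by omega) g.1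
    obtain ⟨d1, d2⟩ := m'.char h' (k := k) (by omega) (by omega) g.2
    obtain ⟨x', hx'⟩ := (w.grW h h' (j := k + 1) (k := i + n - 1) (by omega) (by omega)).onto _ c1
    have e1 : b * (b.1⁻¹ * cj b.1 l⁻¹, x') ∈ W Y (i + 1) (i + n - 1) :=
      mul_mem (le_W k1 k2 hb) (W_mono (by omega) le_rfl hx')
    have e2 := w.mem h h' (by omega) (by omega) (j' := 2 * i + n - k) (k' := i + n - 1) (by omega) (by omega)
      (w.cj_bot le_rfl (by omega) (inv_mem ha) e1) (by simpa [cj, mul_assoc] using c2)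
    have e3 := (w.le (by omega) (by omega) e2).2
    have e4 := m'.char_uniq h' (k := k) (by omega) (by omega)
      (mul_mem (inv_mem (w.le (by omega) (by omega) hx').2) d1) (by
        have := mul_mem (inv_mem e3) d2
        simpa [cj, mul_assoc] using this)
    have e5 : cj b (l, l')⁻¹ = b * (b.1⁻¹ * cj b.1 l⁻¹, x') := by
      refine Prod.ext (by simp [cj]) ?_
      rw [inv_mul_eq_one] at e4
      simp only at e4
      simp [e4, cj]
    rwa [e5]
  exact ⟨by simpa using inv_mem (key (inv_mem ha) m.inv m'.inv), key ha m m'⟩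

/-- `onto`: `exists_l` and `Win.mu`; `inj`: if `(1, x')` normalises the graph then `x'` centralises `U' (i + 1)`: `nc`;
commutators: `Win.mem`. -/
theorem Win.succ {i : ℤ} (w : Win n U U' Y i) (e : Y (i + n) = nxt n U U' Y (i + n)) : Win n U U' Y (i + 1) := by
  have hn := h.three
  have nm : ∀ y ∈ Y (i + n), ∀ z ∈ W Y (i + 1) (i + n - 1), cj z y ∈ W Y (i + 1) (i + n - 1) := fun y hy z hz => by
    rw [e] at hy
    have := hy.2
    rw [show i + n - n + 1 = i + 1 by ring] at this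
    exact cj_of_norm this hz
  have le : ∀ y ∈ Y (i + n), y.1 ∈ U (i + n) ∧ y.2 ∈ U' (i + n) := fun y hy => by rw [e] at hy; exact hy.1
  have g0 := w.gr i le_rfl (by omega)
  have g1 := w.gr (i + 1) (by omega) (by omega)
  have gW := w.grW h h' (j := i + 1) (k := i + n - 1) (by omega) (by omega)
  refine ⟨fun j j1 j2 => ?_, fun j k j1 jk k2 a ha b hb => ?_⟩
  · by_cases c : j < i + n
    · exact w.gr j (by omega) c
    obtain rfl : j = i + n := by omega
    refine ⟨le, fun x hx => ?_, fun x hx => ?_, fun y hy => ⟨fun y1 => ?_, fun y1 => ?_⟩⟩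
    · by_cases x1 : x = 1
      · exact ⟨1, x1 ▸ one_mem _⟩
      obtain ⟨a, κ, m⟩ := h.exists_l hx x1
      obtain ⟨a', ha⟩ := g0.onto a m.a_mem
      obtain ⟨κ', l', m'⟩ := h'.exists_mu (g0.le _ ha).2 fun e => m.a_ne ((g0.inj _ ha).2 e)
      exact ⟨l', e ▸ (w.mu h h' ha m m').2⟩
    · by_cases x1 : x = 1
      · exact ⟨1, x1 ▸ one_mem _⟩
      obtain ⟨a', κ', m'⟩ := h'.exists_l hx x1
      obtain ⟨a, ha⟩ := g0.onto' a' m'.a_mem
      obtain ⟨κ, l, m⟩ := h.exists_mu (g0.le _ ha).1 fun e => m'.a_ne ((g0.inj _ ha).1 e)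
      exact ⟨l, e ▸ (w.mu h h' ha m m').2⟩
    · obtain ⟨b', hb', b1⟩ := h'.ne (i + 1)
      obtain ⟨b, hb⟩ := g1.onto' b' hb'
      have hb2 : (b, b') ∈ W Y (i + 1) (i + n - 1) := le_W le_rfl (by omega) hb
      have := congrArg Prod.snd (gW.eq (nm y hy _ hb2) hb2 (by simp [cj, y1]))
      exact (h'.nc (by omega) (by omega) hb' (le y hy).2 (cj_eq_self.1 this)).resolve_left b1
    · obtain ⟨b, hb', b1⟩ := h.ne (i + 1)
      obtain ⟨b', hb⟩ := g1.onto b hb'
      have hb2 : (b, b') ∈ W Y (i + 1) (i + n - 1) := le_W le_rfl (by omega) hb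
      have := (gW.inj _ (mul_mem (inv_mem hb2) (nm y hy _ hb2))).2 (by simp [cj, y1])
      exact (h.nc (by omega) (by omega) hb' (le y hy).1
        (cj_eq_self.1 (inv_mul_eq_one.1 this).symm)).resolve_left b1
  · by_cases c : k < i + n
    · exact w.comm j k (by omega) jk c a ha b hb
    obtain rfl : k = i + n := by omega
    have a2 : a ∈ W Y (i + 1) (i + n - 1) := le_W j1 (by omega) ha
    have := mul_mem (inv_mem a2) (nm b hb a a2)
    rw [cj_eq, inv_mul_cancel_left] at this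
    exact w.mem h h' (by omega) (by omega) (by omega) (by omega) this
      (h.commZ ((w.gr j (by omega) (by omega)).le a ha).1 (le b hb).1)

omit h h' in
theorem W_congr {X : Type*} [Group X] {Z Z' : ℤ → Subgroup X} {i j d : ℤ} (e : ∀ k, i ≤ k → k ≤ j → Z k = Z' (k + d)) :
    W Z i j = W Z' (i + d) (j + d) :=
  le_antisymm (W_le fun k a b => (e k a b).le.trans (le_W (by omega) (by omega))) (W_le fun k a b => by
    rw [show k = k - d + d by ring, ← e _ (by omega) (by omega)]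
    exact le_W (by omega) (by omega))

theorem Win.congr {Z : ℤ → Subgroup (G × G')} {i j : ℤ} (w : Win n U U' Y i) (d : (2 * n : ℤ) ∣ i - j)
    (e : ∀ k, j ≤ k → k < j + n → Z k = Y (k + (i - j))) : Win n U U' Z j := by
  refine ⟨fun k k1 k2 => ?_, fun k l k1 kl l2 a ha b hb => ?_⟩
  · rw [e k k1 k2, ← h.per_of (i := k) (j := k + (i - j)) (by simpa using d),
      ← h'.per_of (i := k) (j := k + (i - j)) (by simpa using d)]
    exact w.gr _ (by omega) (by omega)
  · rw [e _ k1 (by omega)] at ha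
    rw [e _ (by omega) l2] at hb
    rw [W_congr (Z' := Y) (d := i - j) fun r r1 r2 => e r (by omega) (by omega)]
    exact W_mono (by omega) (by omega) (w.comm _ _ (by omega) (by omega) (by omega) a ha b hb)

theorem nxt_congr {Z : ℤ → Subgroup (G × G')} {i j : ℤ} (d : (2 * n : ℤ) ∣ i - j)
    (e : ∀ k, j - n < k → k < j → Z k = Y (k + (i - j))) : nxt n U U' Z j = nxt n U U' Y i := by
  rw [nxt, nxt, h.per_of d, h'.per_of d, W_congr (Z' := Y) (d := i - j) fun r r1 r2 => e r (by omega) (by omega)]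
  congr 4 <;> ring

/-- Extend `Y` recursively by `Y j = nxt Y j` for `j > n` (strong recursion on `ℕ`, or iterate `Function.update`); all
windows `i ≥ 1` are good.  `Y (i + 2 n) = Y i` for `i ≥ 1`: for `(a, a') ∈ Y i`, `(l, l') ∈ Y (i + n)` and `Mu.la`,
`Win.mu` give `(a, a') ∈ Y (i + 2 n)`; a graph contained in a graph of the same groups is equal to it.  Make `Y`
periodic on `ℤ`. -/
theorem Win.extend (w : Win n U U' Y 1) : ∃ Z : ℤ → Subgroup (G × G'), (∀ i, Z (i + 2 * n) = Z i) ∧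
    (∀ i, Win n U U' Z i) ∧ ∀ j, Z j = nxt n U U' Z j := by
  classical
  have hn := h.three
  let F : ℕ → ℤ → Subgroup (G × G') := fun m =>
    Nat.rec Y (fun m Z => Function.update Z (1 + m + n) (nxt n U U' Z (1 + m + n))) m
  have F1 : ∀ m, F (m + 1) = Function.update (F m) (1 + m + n) (nxt n U U' (F m) (1 + m + n)) := fun _ => rfl
  have st : ∀ (m k : ℕ) (j : ℤ), j ≤ m + n → F (m + k) j = F m j := fun m k j hj => by
    induction k with
    | zero => rfl
    | succ k ih => rw [← add_assoc, F1, Function.update_of_ne (by push_cast; omega), ih]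
  let T : ℤ → Subgroup (G × G') := fun j => F j.toNat j
  have TF : ∀ (m : ℕ) (j : ℤ), j ≤ m + n → T j = F m j := fun m j hj => by
    rcases le_total m j.toNat with c | c
    · obtain ⟨k, hk⟩ := Nat.exists_eq_add_of_le c
      exact (congrArg (F · j) hk).trans (st m k j hj)
    · obtain ⟨k, rfl⟩ := Nat.exists_eq_add_of_le c
      exact (st _ k j (by omega)).symm
  have Tn : ∀ j : ℤ, n < j → T j = nxt n U U' T j := fun j hj => by
    obtain ⟨m, rfl⟩ : ∃ m : ℕ, j = 1 + m + n := ⟨(j - 1 - n).toNat, by omega⟩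
    rw [TF (m + 1) _ (by push_cast; omega), F1, Function.update_self]
    exact nxt_congr h h' (by simp) fun k _ _ => by rw [sub_self, add_zero, TF m k (by omega)]
  have Tw : ∀ m : ℕ, Win n U U' T (1 + m) := fun m => by
    induction m with
    | zero => exact w.congr h h' (by simp) fun k _ _ => by rw [TF 0 k (by push_cast at *; omega)]; simp [F]
    | succ m ih => simpa [add_assoc] using ih.succ h h' (Tn _ (by omega))
  have Tw' : ∀ i : ℤ, 1 ≤ i → Win n U U' T i := fun i hi => by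
    have := Tw (i - 1).toNat
    rwa [show 1 + ((i - 1).toNat : ℤ) = i by omega] at this
  have Tp : ∀ i : ℤ, 1 ≤ i → T (i + 2 * n) = T i := fun i hi => by
    have g := (Tw' i hi).gr i le_rfl (by omega)
    have g' := (Tw' (i + 2 * n) (by omega)).gr _ le_rfl (by omega)
    rw [h.per, h'.per] at g'
    refine (g.eq_of_le g' fun y hy => ?_).symm
    by_cases y1 : y.1 = 1
    · rw [show y = 1 from Prod.ext y1 ((g.inj y hy).1 y1)]; exact one_mem _
    obtain ⟨κ, l, m⟩ := h.exists_mu (g.le y hy).1 y1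
    obtain ⟨κ', l', m'⟩ := h'.exists_mu (g.le y hy).2 fun e => y1 ((g.inj y hy).2 e)
    have e1 := ((Tw' i hi).mu h h' hy m m').2
    rw [← Tn _ (by omega)] at e1
    have e2 := ((Tw' (i + n) (by omega)).mu h h' e1 (m.la h) (m'.la h')).1
    rwa [← Tn _ (by omega), show i + n + n = i + 2 * n by ring] at e2
  have Tq : ∀ (k : ℕ) (i : ℤ), 1 ≤ i → T (i + 2 * n * k) = T i := fun k i hi => by
    induction k with
    | zero => simp
    | succ k ih => rw [← ih, ← Tp (i + 2 * n * k) (by nlinarith)]; congr 1; push_cast; ring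
  have Tr : ∀ i j : ℤ, 1 ≤ i → 1 ≤ j → (2 * n : ℤ) ∣ j - i → T j = T i := fun i j hi hj ⟨k, e⟩ => by
    rcases le_total 0 k with c | c
    · rw [← Tq k.toNat i hi]; congr 1; rw [Int.toNat_of_nonneg c]; omega
    · rw [← Tq (-k).toNat j hj]; congr 1; rw [Int.toNat_of_nonneg (by omega)]; linarith
  have h0 : (0 : ℤ) < 2 * n := by omega
  have md : ∀ j : ℤ, 0 ≤ j % (2 * n) ∧ (2 * n : ℤ) ∣ j % (2 * n) + 2 * n - j := fun j =>
    ⟨Int.emod_nonneg _ h0.ne', 1 - j / (2 * n), by linear_combination Int.emod_add_mul_ediv j (2 * n)⟩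
  have ZT : ∀ j k : ℤ, 1 ≤ k → (2 * n : ℤ) ∣ k - j → T (j % (2 * n) + 2 * n) = T k := fun j k hk d =>
    Tr _ _ hk (by have := (md j).1; omega) (by simpa using dvd_sub (md j).2 d)
  refine ⟨fun j => T (j % (2 * n) + 2 * n), fun i => by simp, fun i => ?_, fun j => ?_⟩
  · have := (md i).1
    exact (Tw' _ (by omega)).congr h h' (md i).2 fun k _ _ => ZT _ _ (by omega) (by simpa using (md i).2)
  · have := (md j).1
    exact (Tn _ (by omega)).trans
      (nxt_congr h h' (md j).2 fun k _ _ => ZT _ _ (by omega) (by simpa using (md j).2)).symm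

/-- `mu`: `(μ, μ')` normalises `Z_{[i+1,i+n-1]}`, so it maps `Z j` to `Z (2 i + n - j)` for `i < j < i + n` (`Win.mem`).
Mirror description: `Z j` consists of all pairs in `U j × U' j` normalising `Z_{[j+1,j+n-1]}` (graph and `nc`).  Induction
on `j ≥ i + n`: conjugation maps `nxt Z j` to the pairs normalising `Z_{[2i+n-j+1,2i+2n-j-1]}`.  Periodicity. -/
theorem mp_graph {Z : ℤ → Subgroup (G × G')} (hp : ∀ i, Z (i + 2 * n) = Z i) (hw : ∀ i, Win n U U' Z i)
    (hn : ∀ j, Z j = nxt n U U' Z j) : MP p n Z := by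
  have h3 := h.three
  have gr : ∀ j, Gr (U j) (U' j) (Z j) := fun j => (hw j).gr j le_rfl (by omega)
  have per : ∀ i k : ℤ, Z (i + 2 * n * k) = Z i := fun i k => by
    induction k using Int.induction_on with
    | zero => simp
    | succ k ih => rw [← ih, ← hp (i + 2 * n * k)]; congr 1; ring
    | pred k ih => rw [← ih, ← hp (i + 2 * n * (-k - 1))]; congr 1; ring
  have mir : ∀ j (y : G × G'), y.1 ∈ U j → y.2 ∈ U' j →
      (∀ z ∈ W Z (j + 1) (j + n - 1), cj z y ∈ W Z (j + 1) (j + n - 1)) → y ∈ Z j := fun j y y1 y2 H => by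
    obtain ⟨x', hx⟩ := (gr j).onto _ y1
    obtain ⟨b', hb', b1⟩ := h'.ne (j + n - 1)
    obtain ⟨b, hb⟩ := (gr _).onto' b' hb'
    have hb2 : (b, b') ∈ W Z (j + 1) (j + n - 1) := le_W (by omega) le_rfl hb
    have := congrArg Prod.snd (((hw j).grW h h' (by omega) (by omega)).eq
      (H _ ((hw j).cj_bot le_rfl (by omega) (inv_mem hx) hb2)) hb2 (by simp [cj, mul_assoc]))
    have c : cj b' (x'⁻¹ * y.2) = b' := by simpa [cj, mul_assoc] using this
    have e := (h'.nc (by omega) (by omega) (mul_mem (inv_mem ((gr j).le _ hx).2) y2) hb'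
      (cj_eq_self.1 c).symm).resolve_right b1
    rwa [show x' = y.2 from inv_mul_eq_one.1 e] at hx
  have rf : ∀ i (g : G × G'), Rf U (2 * i + n) g.1 → Rf U' (2 * i + n) g.2 →
      (∀ z ∈ W Z (i + 1) (i + n - 1), cj z g ∈ W Z (i + 1) (i + n - 1)) → Rf Z (2 * i + n) g := fun i g r1 r2 nQ => by
    have back : ∀ s, (∀ x ∈ Z s, cj x g ∈ Z (2 * i + n - s)) → ∀ x, cj x g ∈ Z (2 * i + n - s) → x ∈ Z s :=
      fun s H x hx => by
        obtain ⟨x', hx'⟩ := (gr s).onto x.1 ((r1 s _).2 ((gr _).le _ hx).1)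
        rwa [cj_inj.1 ((gr _).eq hx (H _ hx') rfl)]
    have fw : ∀ t : ℕ, ∀ j, i < j → j < i + n + t → ∀ x ∈ Z j, cj x g ∈ Z (2 * i + n - j) := fun t => by
      induction t with
      | zero =>
        intro j j1 j2 x hx
        rw [← W_self (U := Z)]
        exact (hw i).mem h h' (by omega) (by omega) (by omega) (by omega) (nQ x (le_W j1 (by omega) hx))
          (by rw [W_self]; exact r1.cj ((gr j).le x hx).1)
      | succ t ih =>
        intro j j1 j2 x hx
        by_cases c : j < i + n + t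
        · exact ih j j1 c x hx
        refine mir _ _ (r1.cj ((gr j).le x hx).1) (r2.cj ((gr j).le x hx).2) fun z hz => ?_
        rw [show cj z (cj x g) = cj (cj (cj z g⁻¹) x) g by simp [cj, mul_assoc]]
        refine cj_W (i := j - n + 1) (j := j - 1) (fun k k1 k2 a ha => le_W (by omega) (by omega)
          (ih k (by omega) (by push_cast at j2; omega) a ha)) (cj_of_norm (hn j ▸ hx :).2 (cj_W (fun k k1 k2 a ha => ?_) hz))
        refine le_W (k := 2 * i + n - k) (by omega) (by omega)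
          (back _ (ih _ (by omega) (by push_cast at j2; omega)) _ ?_)
        rwa [cj_inv_cj, sub_sub_cancel]
    have fw' : ∀ j, ∀ x ∈ Z j, cj x g ∈ Z (2 * i + n - j) := fun j x hx => by
      have h0 : (0 : ℤ) < 2 * n := by omega
      have e := Int.emod_add_mul_ediv (j - i - 1) (2 * n)
      have e1 := Int.emod_nonneg (j - i - 1) h0.ne'
      have e2 := Int.emod_lt_of_pos (j - i - 1) h0
      generalize (j - i - 1) % (2 * n) = r at e e1 e2
      generalize (j - i - 1) / (2 * n) = k at e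
      rw [show j = i + 1 + r + 2 * n * k by linarith, per] at hx
      rw [← per _ k, show 2 * i + n - j + 2 * n * k = 2 * i + n - (i + 1 + r) by linarith]
      exact fw (n + 1) _ (by omega) (by push_cast; omega) x hx
    exact fun j x => ⟨fw' j x, back j (fw' j) x⟩
  refine ⟨h.prime, h3, hp, fun i j ij jn a ha b hb => (hw i).comm i j le_rfl (by omega) (by omega) a ha b hb,
    fun i k j jn x h1 h2 => ?_, fun i a ha a1 => ?_, fun i => ?_, fun i y => ?_⟩
  · by_cases c : k < i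
    · exact W_empty c h1
    by_cases c' : j ≤ k
    · exact W_empty (by omega) h2
    have e := h.ind0 (j := j) (by omega) ((hw i).le le_rfl (by omega) h1).1 ((hw i).le (by omega) (by omega) h2).1
    exact Prod.ext e ((((hw i).grW h h' le_rfl (by omega)).inj x h1).1 e)
  · have a2 : a.1 ≠ 1 := fun e => a1 (Prod.ext e (((gr i).inj a ha).1 e))
    obtain ⟨κ, l, m⟩ := h.exists_mu ((gr i).le a ha).1 a2
    obtain ⟨κ', l', m'⟩ := h'.exists_mu ((gr i).le a ha).2 fun e => a2 (((gr i).inj a ha).2 e)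
    obtain ⟨e1, e2⟩ := (hw i).mu h h' ha m m'
    rw [← hn] at e1 e2
    refine ⟨_, e1, _, e2, rf i _ m.rf m'.rf fun z hz => ?_⟩
    rw [← cj_cj, ← cj_cj]
    exact (hw (i + 1)).cj_top le_rfl (by omega) e2
      ((hw i).cj_bot le_rfl (by omega) ha ((hw (i + 1)).cj_top le_rfl (by omega) e1 hz))
  · obtain ⟨a, ha, a1⟩ := h.ne i
    obtain ⟨a', ha'⟩ := (gr i).onto a ha
    exact ⟨_, ha', fun e => a1 (congrArg Prod.fst e)⟩
  · obtain ⟨k, e⟩ := h.pg i ⟨y.1.1, ((gr i).le _ y.2).1⟩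
    have e' : (y.1 ^ p ^ k).1 = 1 := congrArg Subtype.val e
    exact ⟨k, Subtype.ext (Prod.ext e' (((gr i).inj _ (pow_mem y.2 _)).1 e'))⟩

/-- `Γ = ⨆ Z` projects onto both factors.  If `(1, g') = u w u' ∈ Γ` (`bruhat` for `Z`) then `w.1 ∈ U_{[1,n]}` acts on
the `U j` as `w` on the `Z j`, so `w.1 = 1`, `w` is a translation by a multiple of `2 n` (`tr_eq_one`, `not_rf`),
`u u' = 1` (`grW`), and `g' = w.2` centralises every `U' j`.  Symmetrically for `(g, 1)`; `Z(G) = 1`, so `Γ ≃ G'`. -/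
theorem uniq (top : ⨆ i, U i = ⊤) (top' : ⨆ i, U' i = ⊤) (hZ : Subgroup.center G = ⊥) (w : Win n U U' Y 1) :
    ∃ f : G' →* G, Function.Surjective f ∧ f.ker ≤ Subgroup.center G' := by
  obtain ⟨Z, hp, hw, hn⟩ := w.extend h h'
  have hZ' := mp_graph h h' hp hw hn
  have h3 := h.three
  have gr : ∀ j, Gr (U j) (U' j) (Z j) := fun j => (hw j).gr j le_rfl (by omega)
  have gW := (hw (0 + 1)).grW h h' (j := 0 + 1) (k := 0 + n) le_rfl (by omega)
  let Γ : Subgroup (G × G') := ⨆ j, Z j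
  have act : ∀ {g : G × G'} {π : ℤ → ℤ}, (∀ j x, x ∈ Z j ↔ cj x g ∈ Z (π j)) →
      (∀ j x, x ∈ U j ↔ cj x g.1 ∈ U (π j)) ∧ ∀ j x, x ∈ U' j ↔ cj x g.2 ∈ U' (π j) := fun {g π} H => by
    refine ⟨fun j x => ⟨fun hx => ?_, fun hx => ?_⟩, fun j x => ⟨fun hx => ?_, fun hx => ?_⟩⟩
    · obtain ⟨x', e⟩ := (gr j).onto x hx
      exact ((gr _).le _ ((H j _).1 e)).1
    · obtain ⟨x', e⟩ := (gr _).onto _ hx
      exact ((gr j).le (x, cj x' g.2⁻¹) ((H j _).2 (by convert e using 1; ext <;> simp [cj, mul_assoc]))).1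
    · obtain ⟨x', e⟩ := (gr j).onto' x hx
      exact ((gr _).le _ ((H j _).1 e)).2
    · obtain ⟨x', e⟩ := (gr _).onto' _ hx
      exact ((gr j).le (cj x' g.1⁻¹, x) ((H j _).2 (by convert e using 1; ext <;> simp [cj, mul_assoc]))).2
  have ker : ∀ g ∈ Γ, g.1 = 1 ∨ g.2 = 1 → Tr Z 0 g := fun g hg g1 => by
    obtain ⟨u, hu, u', hu', v, -, ⟨k, hv⟩, rfl⟩ := hZ'.bruhat 0 hg
    have e : v = u⁻¹ * (u * v * u') * u'⁻¹ := by group
    rcases g1 with g1 | g1
    · have hv1 : v.1 ∈ W U (0 + 1) (0 + n) := by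
        rw [e, Prod.fst_mul, Prod.fst_mul, g1, mul_one]
        exact mul_mem (inv_mem (gW.le u hu).1) (inv_mem (gW.le u' hu').1)
      obtain ⟨v1, d⟩ := h.tr_eq_one hv1 (act (hv.resolve_right fun r => h.not_rf hv1 (act r).1)).1
      have t := hZ'.tr_per (e := 0) (hv.resolve_right fun r => h.not_rf hv1 (act r).1) (by simpa using d)
      have : u * u' = 1 := by
        have e1 : (u * u').1 = 1 := by simpa [v1] using g1
        exact Prod.ext e1 ((gW.inj _ (mul_mem hu hu')).1 e1)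
      have e2 : u * v * u' = v := by
        have c : ∀ x ∈ W Z (0 + 1) (0 + n), cj x v = x := fun x hx =>
          gW.eq (by simpa using (t.W _ _ x).1 hx) hx (by simp [cj, v1])
        rw [← (cj_eq_self.1 (c u hu)).symm.eq, mul_assoc, this, mul_one]
      rwa [e2]
    · have hv1 : v.2 ∈ W U' (0 + 1) (0 + n) := by
        rw [e, Prod.snd_mul, Prod.snd_mul, g1, mul_one]
        exact mul_mem (inv_mem (gW.le u hu).2) (inv_mem (gW.le u' hu').2)
      obtain ⟨v1, d⟩ := h'.tr_eq_one hv1 (act (hv.resolve_right fun r => h'.not_rf hv1 (act r).2)).2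
      have t := hZ'.tr_per (e := 0) (hv.resolve_right fun r => h'.not_rf hv1 (act r).2) (by simpa using d)
      have : u * u' = 1 := by
        have e1 : (u * u').2 = 1 := by simpa [v1] using g1
        exact Prod.ext ((gW.inj _ (mul_mem hu hu')).2 e1) e1
      have e2 : u * v * u' = v := by
        have c : ∀ x ∈ W Z (0 + 1) (0 + n), cj x v = x := fun x hx => by
          have e3 : (x⁻¹ * cj x v).2 = 1 := by simp [cj, v1]
          have hx' := mul_mem (inv_mem hx) (by simpa using (t.W _ _ x).1 hx : cj x v ∈ W Z (0 + 1) (0 + n))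
          exact (inv_mul_eq_one.1 (Prod.ext ((gW.inj _ hx').2 e3) e3)).symm
        rw [← (cj_eq_self.1 (c u hu)).symm.eq, mul_assoc, this, mul_one]
      rwa [e2]
  have c1 : ∀ g ∈ Γ, g.2 = 1 → g.1 = 1 := fun g hg g1 => by
    rw [← Subgroup.mem_bot, ← hZ, Subgroup.mem_center_iff]
    intro x
    refine Subgroup.iSup_induction U (C := fun x => Commute x g.1) (top.ge (Subgroup.mem_top x)) (fun j a ha => ?_)
      (Commute.one_left _) fun _ _ => Commute.mul_left
    obtain ⟨a', e⟩ := (gr j).onto a ha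
    have e' := by simpa using (ker g hg (Or.inr g1)).cj e
    have := ((gr j).inj _ (mul_mem (inv_mem e) e')).2 (by simp [cj, g1])
    exact cj_eq_self.1 (inv_mul_eq_one.1 this).symm
  have c2 : ∀ g ∈ Γ, g.1 = 1 → g.2 ∈ Subgroup.center G' := fun g hg g1 => by
    rw [Subgroup.mem_center_iff]
    intro x
    refine Subgroup.iSup_induction U' (C := fun x => Commute x g.2) (top'.ge (Subgroup.mem_top x)) (fun j a ha => ?_)
      (Commute.one_left _) fun _ _ => Commute.mul_left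
    obtain ⟨a', e⟩ := (gr j).onto' a ha
    have e' := by simpa using (ker g hg (Or.inl g1)).cj e
    exact cj_eq_self.1 (congrArg Prod.snd ((gr j).eq e' e (by simp [cj, g1])))
  have s1 : ∀ x : G, ∃ x', (x, x') ∈ Γ := fun x => by
    refine Subgroup.iSup_induction U (C := fun x => ∃ x', (x, x') ∈ Γ) (top.ge (Subgroup.mem_top x))
      (fun j a ha => ((gr j).onto a ha).imp fun _ e => Subgroup.mem_iSup_of_mem j e) ⟨1, one_mem _⟩ ?_
    rintro x y ⟨x', a⟩ ⟨y', b⟩
    exact ⟨x' * y', mul_mem a b⟩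
  have s2 : ∀ x' : G', ∃ x, (x, x') ∈ Γ := fun x => by
    refine Subgroup.iSup_induction U' (C := fun x' => ∃ x, (x, x') ∈ Γ) (top'.ge (Subgroup.mem_top x))
      (fun j a ha => ((gr j).onto' a ha).imp fun _ e => Subgroup.mem_iSup_of_mem j e) ⟨1, one_mem _⟩ ?_
    rintro x y ⟨x', a⟩ ⟨y', b⟩
    exact ⟨x' * y', mul_mem a b⟩
  choose f hf using s2
  have un : ∀ {x x'}, (x, x') ∈ Γ → f x' = x := fun {x x'} e =>
    (inv_mul_eq_one.1 (c1 _ (mul_mem (inv_mem e) (hf x')) (by simp))).symm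
  refine ⟨MonoidHom.mk' f fun a b => un (mul_mem (hf a) (hf b)), fun x => (s1 x).imp fun _ e => un e, fun x hx => ?_⟩
  exact c2 _ (hf x) hx

end CL.FS
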