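/-
S1144: a simple group with a Moufang polygon has trivial centre; comparison with a model.
-/
import Cfsg.Agent.CHEV.FS.Uniq

set_option autoImplicit false

namespace CL.FS

universe u

theorem MP.center_eq_bot {G : Type*} [Group G] [IsSimpleGroup G] {p n : ℕ} {U : ℤ → Subgroup G} (h : MP p n U) :
    Subgroup.center G = ⊥ := by
  refine (Subgroup.Normal.eq_bot_or_eq_top (inferInstance : (Subgroup.center G).Normal)).resolve_right fun e => ?_
  obtain ⟨a, ha, a1⟩ := h.ne 0
  obtain ⟨b, hb, b1⟩ := h.ne (0 + n)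
  have := h.three
  exact (h.nc (by omega) le_rfl ha hb (Subgroup.mem_center_iff.1 (e.ge (Subgroup.mem_top b)) a)).elim a1 b1

/-- To prove `IsL G` it suffices to produce graphs for the model, after a shift of both sequences. -/
theorem MdP.isL {G : Type u} [Group G] [IsSimpleGroup G] {p n a b : ℕ} {U : ℤ → Subgroup G} (h : MP p n U)
    (top : ⨆ i, U i = ⊤) (md : MdP.{u} n a b)
    (H : ∀ (M : Type) [Group M] [Finite M] (p' : ℕ) (U' : ℤ → Subgroup M), MP p' n U' → Nat.card (U' 0) = a →
      Nat.card (U' 1) = b → ∃ (c c' : ℤ) (Y : ℤ → Subgroup (G × M)),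
        Win n (fun i => U (i + c)) (fun i => U' (i + c')) Y 1) : TB.IsL G := by
  obtain ⟨M, _, _, p', U', h', top', ha, hb, fin⟩ := md
  obtain ⟨c, c', Y, w⟩ := H M p' U' h' ha hb
  obtain ⟨f, hf, hk⟩ := uniq (h.shift c) (h'.shift c')
    (by rw [← top]; exact (Equiv.addRight c).surjective.iSup_comp U)
    (by rw [← top']; exact (Equiv.addRight c').surjective.iSup_comp U') h.center_eq_bot w
  exact fin G f hf hk

end CL.FS
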