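/-
S1144, hexagons: definitions.  The odd root groups are the long ones.
-/
import Cfsg.Agent.CHEV.FS.Def

set_option autoImplicit false

namespace CL.FS.Hx

variable {G : Type*} [Group G]

/-- `m = μ(a)` -/
def IsMu (U : ℤ → Subgroup G) (i : ℤ) (a m : G) : Prop := ∃ κ l, Mu 6 U i a κ l ∧ m = κ * a * l

/-- the shape of the commutator relations -/
structure Sh (p : ℕ) (U : ℤ → Subgroup G) : Prop extends MP p 6 U where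
  cen : ∀ i j, Odd i → i - 3 ≤ j → j ≤ i + 3 → ∀ a ∈ U i, ∀ b ∈ U j, Commute a b
  tri : ∀ i, Odd i → ∀ a m, IsMu U i a m → ∀ b ∈ U (i + 4), cj b a = cj b m * b
  tri' : ∀ i, Odd i → ∀ a m, IsMu U i a m → ∀ b ∈ U (i - 4), cj b a = cj b m * b
  ab : ∀ i, ∀ a ∈ U i, ∀ b ∈ U i, Commute a b

/-- the field of the long roots and the vector space of the short roots -/
structure Co (U : ℤ → Subgroup G) (F J : Type*) [Field F] [AddCommGroup J] [Module F J] where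
  x1 : F → G
  x6 : J → G
  m1 : G
  p1 : Pm (U 1) x1
  p6 : Pm (U 6) x6
  a1 : ∀ s t, x1 (s + t) = x1 s * x1 t
  a6 : ∀ s t, x6 (s + t) = x6 s * x6 t
  hm : IsMu U 1 (x1 1) m1
  key : ∀ s m, IsMu U 1 (x1 s) m → ∀ b, cj (x6 b) m = cj (x6 (s • b)) m1

/-- anisotropic cubic norm structures -/
structure CN (F J : Type*) [Field F] [AddCommGroup J] [Module F J] where
  e : J
  sh : J → J
  N : J → F
  X : J →ₗ[F] J →ₗ[F] J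
  T : J →ₗ[F] J →ₗ[F] F
  sh_smul : ∀ (t : F) a, sh (t • a) = t ^ 2 • sh a
  sh_add : ∀ a b, sh (a + b) = sh a + sh b + X a b
  N_smul : ∀ (t : F) a, N (t • a) = t ^ 3 * N a
  N_add : ∀ a b, N (a + b) = N a + N b + T b (sh a) + T (sh b) a
  N_ne : ∀ a, a ≠ 0 → N a ≠ 0
  sh_sh : ∀ a, sh (sh a) = N a • a
  sh_e : sh e = e
  N_e : N e = 1
  X_e : ∀ b, X e b = T b e • e - b
  X_X : ∀ a b, X (sh a) (X a b) = N a • b + T b (sh a) • a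

/-- `n(s) = y x(s) y`, `y = x(s⁻¹) ^ m` -/
def nu {K : Type*} [Field K] (x : K → G) (m : G) (s : K) : G := cj (x s⁻¹) m * x s * cj (x s⁻¹) m

/-- both fields -/
structure Fr (U : ℤ → Subgroup G) (E F : Type*) [Field E] [Field F] [Algebra F E] where
  x1 : F → G
  x6 : E → G
  m1 : G
  m6 : G
  ν : E → F
  p1 : Pm (U 1) x1
  p6 : Pm (U 6) x6
  a1 : ∀ s t, x1 (s + t) = x1 s * x1 t
  a6 : ∀ s t, x6 (s + t) = x6 s * x6 t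
  mu1 : ∀ s, s ≠ 0 → Mu 6 U 1 (x1 s) (cj (x1 s⁻¹) m1) (cj (x1 s⁻¹) m1)
  mu6 : ∀ c, c ≠ 0 → Mu 6 U 6 (x6 c) (cj (x6 c⁻¹) m6) (cj (x6 c⁻¹) m6)
  e1 : m1 = nu x1 m1 1
  e6 : m6 = nu x6 m6 1
  c11 : ∀ s, s ≠ 0 → ∀ u, cj (x1 u) (nu x1 m1 s) = cj (x1 (s⁻¹ ^ 2 * u)) m1
  c16 : ∀ s, s ≠ 0 → ∀ b, cj (x6 b) (nu x1 m1 s) = cj (x6 (s • b)) m1
  c66 : ∀ c, c ≠ 0 → ∀ b, cj (x6 b) (nu x6 m6 c) = cj (x6 (c⁻¹ ^ 2 * b)) m6
  c61 : ∀ c, c ≠ 0 → ∀ t, cj (x1 t) (nu x6 m6 c) = cj (x1 (ν c * t)) m6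
  ν_neg : ν (-1) = -1
  c15 : ∀ t, cj (cj (x1 t) m6) (m1 * m1) = cj (x1 (-t)) m6
  tor : ∀ β, β ≠ 0 → ∃ g, Tr U 0 g ∧ (∀ b, cj (x6 b) g = x6 b) ∧ ∀ t, cj (x1 t) g = x1 (β * t)

end CL.FS.Hx
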