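/-
S1144, hexagons: the shape of the commutator relations.
-/
import Cfsg.Agent.CHEV.FS.HDef
import Cfsg.Agent.CHEV.FS.Bru

set_option autoImplicit false
set_option linter.unusedSectionVars false

namespace CL.FS.Hx

variable {G : Type*} [Group G] {p : ℕ} {U : ℤ → Subgroup G}

theorem Veq {m : ℕ} {i j : ℤ} {x : G} (hx : x ∈ V U m i) (e : i = j := by omega) : x ∈ V U m j := e ▸ hx

theorem IsMu.eq {i j : ℤ} {a m : G} (k : IsMu U i a m) (e : i = j := by omega) : IsMu U j a m := e ▸ k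

theorem IsMu.mem {i : ℤ} {a m : G} (k : IsMu U i a m) : a ∈ U i := let ⟨_, _, μ, _⟩ := k; μ.a_mem

theorem IsMu.ne {i : ℤ} {a m : G} (k : IsMu U i a m) : a ≠ 1 := let ⟨_, _, μ, _⟩ := k; μ.a_ne

theorem IsMu.rf {i : ℤ} {a m : G} (k : IsMu U i a m) : Rf U (2 * i + 6) m :=
  let ⟨_, _, μ, e⟩ := k; e ▸ μ.rf.eq

theorem IsMu.inv {i : ℤ} {a m : G} (k : IsMu U i a m) : IsMu U i a⁻¹ m⁻¹ :=
  let ⟨_, _, μ, e⟩ := k; ⟨_, _, μ.inv, by rw [e]; group⟩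

theorem IsMu.rev (h : MP p 6 U) (c : ℤ) {i : ℤ} {a m : G} (k : IsMu U (c - i) a m) :
    IsMu (fun k => U (c - k)) i a m := let ⟨_, _, μ, e⟩ := k; ⟨_, _, μ.rev h c, e⟩

theorem IsMu.uniq (h : MP p 6 U) {i : ℤ} {a m m' : G} (k : IsMu U i a m) (k' : IsMu U i a m') : m = m' := by
  obtain ⟨κ, l, μ, rfl⟩ := k
  obtain ⟨κ', l', μ', rfl⟩ := k'
  obtain ⟨rfl, rfl⟩ := μ.uniq h μ'
  rfl

theorem IsMu.tr {i d : ℤ} {a m g : G} (k : IsMu U i a m) (t : Tr U d g) : IsMu U (i + d) (cj a g) (cj m g) :=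
  let ⟨_, _, μ, e⟩ := k; ⟨_, _, μ.tr t, by rw [e, cj_mul, cj_mul]⟩

theorem exists_isMu (h : MP p 6 U) {i : ℤ} {a : G} (ha : a ∈ U i) (a1 : a ≠ 1) : ∃ m, IsMu U i a m :=
  let ⟨κ, l, μ⟩ := h.exists_mu ha a1; ⟨_, κ, l, μ, rfl⟩

/-- `v ^ κ = v`, so `v ^ a = (v ^ μ) ^ {l⁻¹} = v ^ μ y`, `y = [v ^ μ, l⁻¹] ∈ U_{[i+3,i+5]}` (`comm`), `v ^ μ ∈ V (i+2)` (`V_rf`).
Also `v ^ a = c v`, `c = [a, v⁻¹] ∈ U_{[i+1,i+3]}` (`cj_eq'`), and `c = v ^ μ y v⁻¹ ∈ U_{[i+2,i+5]}`, so `c ∈ U_{[i+2,i+3]}`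
(`inf_mem`), `c = c' d` (`dec_bot`, `W_self`), `c' = v ^ μ` by `uniq` in the window `[i+2,i+5]`. -/
theorem v_cj (h : MP p 6 U) {i : ℤ} {a m v : G} (hm : IsMu U i a m) (hv : v ∈ V U 3 (i + 4)) :
    cj v m ∈ V U 3 (i + 2) ∧ ∃ d ∈ U (i + 3), cj v a = cj v m * d * v := by
  obtain ⟨κ, l, μ, rfl⟩ := hm
  have hv' := h.mem_V.1 hv
  have c0 : cj v (κ * a * l) ∈ V U 3 (i + 2) := Veq ((h.V_rf μ.rf).1 hv)
  have c1 := (h.mem_V.1 c0).1
  have e1 : cj v a = cj v (κ * a * l) * cm (cj v (κ * a * l)) l⁻¹ := by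
    rw [← cj_eq, cj_cj, mul_inv_cancel_right, ← cj_cj,
      cj_eq_self.2 (hv'.2 (i + (6 : ℕ)) (by omega) (by omega) κ μ.κ_mem)]
  have hy : cm (cj v (κ * a * l)) l⁻¹ ∈ W U (i + 2 + 1) (i + 5) := Wle (h.commZ c1 (inv_mem μ.l_mem))
  have hc : cm a v⁻¹ ∈ W U (i + 1) (i + 3) := Wle (h.commZ μ.a_mem (inv_mem hv'.1))
  have hc' : cm a v⁻¹ ∈ W U (i + 2) (i + 5) := by
    rw [eq_mul_inv_of_mul_eq ((cj_eq' v a).symm.trans e1)]
    exact mul_mem (mul_mem (UW c1) (Wle hy)) (inv_mem (UW hv'.1))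
  obtain ⟨c, k1, d, k2, k3⟩ := h.dec_bot (by omega) (h.inf_mem (by omega) (by omega) (by omega) hc hc')
  have k2' : d ∈ U (i + 3) := (W_self (i + 3)).le (Wle k2)
  refine ⟨c0, d, k2', ?_⟩
  have e2 : cj v a = c * (d * v) := by rw [cj_eq', k3, mul_assoc]
  rw [← (h.uniq (i := i + 2) (j := i + 5) (k := i + 2) (by omega) (UW k1) (mul_mem (UW k2') (UW hv'.1)) (UW c1) hy
    (e2.symm.trans e1)).1, e2, mul_assoc]

/-- mirror image of `v_cj` (`MP.rev (2 * i)`, `Mu.rev`, `V_rev`) -/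
theorem v_cj' (h : MP p 6 U) {i : ℤ} {a m v : G} (hm : IsMu U i a m) (hv : v ∈ V U 3 (i - 4)) :
    cj v m ∈ V U 3 (i - 2) ∧ ∃ d ∈ U (i - 3), cj v a = cj v m * d * v := by
  obtain ⟨k1, d, k2, k3⟩ := v_cj (h.rev (2 * i)) (i := i) (IsMu.rev h _ hm.eq)
    (show v ∈ _ by rw [h.V_rev]; exact Veq hv)
  rw [h.V_rev] at k1
  exact ⟨Veq k1, d, Ueq (U := U) k2, k3⟩

theorem vv_cj (h : MP p 6 U) {i : ℤ} {u m v : G} (hm : IsMu U i u m) (hu : u ∈ V U 3 i) (hv : v ∈ V U 3 (i + 4)) :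
    cj v u = cj v m * v := by
  by_cases v1 : v = 1
  · rw [v1, one_cj, one_cj, one_mul]
  obtain ⟨k1, d, k2, k3⟩ := v_cj h hm hv
  obtain ⟨m', hm'⟩ := exists_isMu h (inv_mem (h.mem_V.1 hv).1) (inv_ne_one.2 v1)
  obtain ⟨j1, d', j2, j3⟩ := v_cj' h hm' (v := u) (Veq hu)
  have e : d = (cj v m)⁻¹ * cj (cj u m' * d') u := by
    have : cj (cj u m' * d') u = cj v u * v⁻¹ := by
      rw [cj, mul_assoc, ← j3]; simp only [cj]; group
    rw [this, k3]; group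
  have d1 : d = 1 := h.ind' (i := i + 1) (k := i + 2) (l := i + 3) (j := i + 3) (by
    rw [e]
    exact mul_mem (inv_mem (UW (h.mem_V.1 k1).1))
      (h.pres_top hm.mem (mul_mem (UW (h.mem_V.1 j1).1) (UW j2)))) (UW k2)
  rw [k3, d1, mul_one]

theorem vv_cj' (h : MP p 6 U) {i : ℤ} {u m v : G} (hm : IsMu U i u m) (hu : u ∈ V U 3 i) (hv : v ∈ V U 3 (i - 4)) :
    cj v u = cj v m * v :=
  vv_cj (h.rev (2 * i)) (i := i) (IsMu.rev h _ hm.eq) (by rw [h.V_rev]; exact Veq hu) (by rw [h.V_rev]; exact Veq hv)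

/-- For `u ∈ V i`, `v ∈ V (i+4)` the element `θ u = v ^ u v⁻¹ = u⁻¹ u ^ {v⁻¹}` lies in `U_{[i+2,i+3]}` (`v_cj`) and in
`U_{[i+1,i+2]}` (`v_cj'` at level `i + 4` for `v⁻¹`; `u` commutes with `U (i+1)`, `U (i+2)`), so `θ u = v ^ {μ(u)} ∈ V (i+2)`.
`θ : V i → V (i+2)` is multiplicative (`u'` commutes with `θ u`) and injective for `v ≠ 1` (`nc`), hence onto: `exists_tr 1` and `V_tr`
give `|V i| = |V (i+2)|` (and `V (i+4) ≠ 1`).  For `a ∈ U i`, `a ≠ 1`: `v ^ a = c d v` (`v_cj`); take `u ∈ V i` with `θ u = c⁻¹`;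
then `v ^ (a u) = c d (θ u) v = d v ∈ U_{[i+3,i+5]}`, so `a u = 1` (`cj_not_mem_bot`). -/
theorem V_eq [Finite G] (h : MP p 6 U) {i : ℤ} {w : G} (hw : w ∈ V U 3 i) (w1 : w ≠ 1) : V U 3 i = U i := by
  obtain ⟨g1, -, t1⟩ := h.exists_tr 1
  obtain ⟨g2, -, t2⟩ := h.exists_tr 2
  obtain ⟨v, hv, v1⟩ : ∃ v ∈ V U 3 (i + 4), v ≠ 1 := ⟨cj w g2, Veq ((h.V_tr t2).1 hw), mt cj_eq_one.1 w1⟩
  have hv' := h.mem_V.1 hv
  have hθ : ∀ u ∈ V U 3 i, cj v u * v⁻¹ ∈ V U 3 (i + 2) := fun u hu => by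
    by_cases u1 : u = 1
    · rw [u1, cj_one, mul_inv_cancel]; exact one_mem _
    · obtain ⟨m, hm⟩ := exists_isMu h (h.mem_V.1 hu).1 u1
      rw [vv_cj h hm hu hv, mul_inv_cancel_right]
      exact (v_cj h hm hv).1
  let θ : V U 3 i → V U 3 (i + 2) := fun u => ⟨_, hθ u u.2⟩
  have inj : Function.Injective θ := fun u u' e => by
    have e' : cj v u = cj v u' := mul_right_cancel (congrArg Subtype.val e)
    have c : Commute v (u * (u' : G)⁻¹) := cj_eq_self.1 (by rw [← cj_cj, e', cj_cj_inv])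
    refine Subtype.ext (mul_inv_eq_one.1 ((h.nc (i := i) (j := i + 4) (by omega) (by omega)
      (mul_mem (h.mem_V.1 u.2).1 (inv_mem (h.mem_V.1 u'.2).1)) hv'.1 c.symm).resolve_right v1))
  have card : Nat.card (V U 3 i) = Nat.card (V U 3 (i + 2)) :=
    Bas.card_cj (g := g1) fun x => (h.V_tr t1).trans (by rw [mul_one])
  have srj := (inj.bijective_of_nat_card_le card.ge).2
  refine le_antisymm inf_le_left fun a ha => ?_
  by_cases a1 : a = 1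
  · rw [a1]; exact one_mem _
  obtain ⟨m, hm⟩ := exists_isMu h ha a1
  obtain ⟨k1, d, k2, k3⟩ := v_cj h hm hv
  obtain ⟨⟨u, hu⟩, e⟩ := srj ⟨_, inv_mem k1⟩
  have e' : cj v u = (cj v m)⁻¹ * v := eq_mul_of_mul_inv_eq (congrArg Subtype.val e)
  have hu' := h.mem_V.1 hu
  have k1' := h.mem_V.1 k1
  have au : a * u = 1 := by_contra fun au => by
    refine h.cj_not_mem_bot (i := i) (j := i + 4) (by omega) (by omega) (mul_mem ha hu'.1) au hv'.1 v1 ?_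
    rw [← cj_cj, k3, cj_mul, cj_mul, e', cj_eq_self.2 (hu'.2 (i + 2) (by omega) (by omega) _ k1'.1).symm,
      cj_eq_self.2 (hu'.2 (i + 3) (by omega) (by omega) _ k2).symm, (k1'.2 (i + 3) (by omega) (by omega) _ k2).eq,
      mul_assoc, mul_inv_cancel_left]
    exact mul_mem (UW k2) (UW hv'.1)
  rw [eq_inv_of_mul_eq_one_left au]
  exact inv_mem hu

/-- `b ^ a = b ^ {μ(a)} y b` -/
theorem cj_five (h : MP p 6 U) {i : ℤ} {a m b : G} (hm : IsMu U i a m) (hb : b ∈ U (i + 5)) :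
    ∃ y ∈ W U (i + 2) (i + 4), cj b a = cj b m * y * b := by
  obtain ⟨κ, l, μ, rfl⟩ := hm
  obtain ⟨c, hc, y, hy, e⟩ := h.dec_bot (by omega) (h.commZ μ.a_mem (inv_mem hb))
  exact ⟨y, Wle hy, by rw [cj_eq', e, ← (μ.shift_bot h (Ueq hb) hc (Wle hy) e).1]⟩

theorem sh_of [Finite G] (h : MP p 6 U) {i : ℤ} (hi : Odd i) {w : G} (hw : w ∈ V U 3 i) (w1 : w ≠ 1) : Sh p U := by
  have hV : ∀ j, Odd j → ∀ a ∈ U j, a ∈ V U 3 j := fun j hj a ha => by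
    obtain ⟨r, hr⟩ := hi
    obtain ⟨s, hs⟩ := hj
    obtain ⟨g, -, t⟩ := h.exists_tr (s - r)
    rwa [V_eq h (i := j) (Veq ((h.V_tr t).1 hw)) (mt cj_eq_one.1 w1)]
  have cen : ∀ i j, Odd i → i - 3 ≤ j → j ≤ i + 3 → ∀ a ∈ U i, ∀ b ∈ U j, Commute a b :=
    fun i j hi h1 h2 a ha b hb => (h.mem_V.1 (hV i hi a ha)).2 j h1 h2 b hb
  have tri : ∀ i, Odd i → ∀ a m, IsMu U i a m → ∀ b ∈ U (i + 4), cj b a = cj b m * b := fun i hi a m hm b hb =>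
    vv_cj h hm (hV i hi a hm.mem) (hV _ (hi.add_even ⟨2, rfl⟩) b hb)
  refine ⟨h, cen, tri, fun i hi a m hm b hb =>
    vv_cj' h hm (hV i hi a hm.mem) (hV _ (hi.sub_even ⟨2, rfl⟩) b hb), fun j => ?_⟩
  rcases Int.even_or_odd j with e | e
  swap
  · exact cen j j e (by omega) (by omega)
  obtain ⟨i, rfl⟩ : ∃ i, j = i + 5 := ⟨j - 5, by ring⟩
  have hi : Odd i := by
    have := e.sub_odd (show Odd (5 : ℤ) from ⟨2, rfl⟩)
    rwa [add_sub_cancel_right] at this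
  obtain ⟨a, ha, a1⟩ := h.ne i
  obtain ⟨m, hm⟩ := exists_isMu h ha a1
  have key : ∀ b ∈ U (i + 5), cj b m * cj b m⁻¹ = 1 := fun b hb => by
    obtain ⟨y, hy, e1⟩ := cj_five h hm hb
    obtain ⟨y', hy', e2⟩ := cj_five h hm.inv hb
    have c1 : cj b m ∈ U (i + 1) := Ueq (hm.rf.cj hb)
    have c2 : cj b m⁻¹ ∈ U (i + 1) := Ueq (hm.inv.rf.cj hb)
    have y2 : cj y a⁻¹ ∈ W U (i + 2) (i + 4) := Bas.W_cj (fun k k1 k2 x hx => by
      by_cases k4 : k = i + 4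
      · subst k4
        rw [tri i hi _ _ hm.inv x hx]
        exact mul_mem (UW (hm.inv.rf.cj hx)) (UW hx)
      · rw [cj_eq_self.2 (cen i k hi (by omega) (by omega) _ (inv_mem ha) x hx).symm]
        exact UW hx) hy
    have e3 : b = cj b m * cj y a⁻¹ * (cj b m⁻¹ * y' * b) := by
      rw [← e2, ← cj_eq_self.2 (cen i _ hi (by omega) (by omega) _ (inv_mem ha) _ c1).symm, ← cj_mul, ← cj_mul, ← e1,
        cj_cj_inv]
    have e4 : cj b m * cj b m⁻¹ = (cj (cj y a⁻¹) (cj b m⁻¹) * y')⁻¹ := by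
      generalize cj b m = c at e3 ⊢
      generalize cj b m⁻¹ = c' at e3 ⊢
      generalize cj y a⁻¹ = z at e3 ⊢
      rw [eq_inv_iff_mul_eq_one, ← mul_right_cancel_iff (a := b), one_mul]
      conv_rhs => rw [e3]
      simp only [cj]; group
    refine h.ind' (i := i + 1) (k := i + 1) (l := i + 2) (j := i + 4) (UW (mul_mem c1 c2)) ?_
    rw [e4]
    exact inv_mem (mul_mem (h.pres_top c2 y2) hy')
  intro b hb b' hb'
  have e1 := key _ (mul_mem hb hb')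
  rw [cj_mul, cj_mul, eq_inv_of_mul_eq_one_right (key b hb), eq_inv_of_mul_eq_one_right (key b' hb'), ← mul_inv_rev,
    mul_inv_eq_one, ← cj_mul, ← cj_mul, cj_inj] at e1
  exact e1

/-- `exists_V` with `m = 3`; shift by one if the index is even; `V_tr` along `exists_tr` gives `V i = U i` for all odd `i`.
`cen`: `mem_V`.  `tri`, `tri'`: the first sentence of `V_eq` (`d ∈ U (i+3) ∩ U_{[i+1,i+2]}`).
`ab` for even indices: for `1 ≠ a ∈ U i` (`i` odd) and `b ∈ U (i+5)` write `[a, b⁻¹] = φ_a(b) y`, `φ_a(b) ∈ U (i+1)`,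
`y ∈ U_{[i+2,i+4]}`; `φ_a(b) = b ^ {μ(a)}` (`shift_bot`).  Apply this to `a` and `a⁻¹` (`μ(a⁻¹) = μ(a)⁻¹`, `Mu.inv`):
`b = (b ^ a) ^ {a⁻¹} = (φ_a(b) y b) ^ {a⁻¹} ∈ φ_a(b) U_{[i+2,i+4]} φ_{a⁻¹}(b) U_{[i+2,i+5]}` (`a` commutes with `U (i+1), U (i+2),
U (i+3)` and `tri`), so `b ^ {μ(a)⁻¹} = (b ^ {μ(a)})⁻¹` for all `b`: both sides are homomorphisms in `b`, so `U (i+1)` is abelian. -/
theorem exists_sh [Finite G] (h : MP p 6 U) : Sh p U ∨ Sh p fun k => U (k + 1) := by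
  obtain ⟨i, a, ha, a1⟩ := h.exists_V (m := 3) rfl
  rcases Int.even_or_odd i with e | e
  · exact Or.inr (sh_of (h.shift 1) (i := i - 1) (e.sub_odd odd_one) (show a ∈ _ by rw [h.V_shift]; exact Veq ha) a1)
  · exact Or.inl (sh_of h e ha a1)

end CL.FS.Hx
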