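/-
S1144, hexagons: the field of the long roots.
-/
import Cfsg.Agent.CHEV.FS.HDef
import Cfsg.Agent.CHEV.FS.Bru

set_option autoImplicit false
set_option linter.unusedSectionVars false

namespace CL.FS.Hx

universe u

variable {G : Type u} [Group G] {p : ℕ} {U : ℤ → Subgroup G}

namespace H2

/-- `c = φ_a(b)` -/
def Ph (U : ℤ → Subgroup G) (a b c : G) : Prop := c ∈ U 2 ∧ ∃ y ∈ W U 3 5, cj b a = c * (y * b)

variable (S : Sh p U) {a a' b c c' κ l : G}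
include S

theorem ph_uniq (hb : b ∈ U 6) (h1 : Ph U a b c) (h2 : Ph U a b c') : c = c' :=
  let ⟨hc, y, hy, e⟩ := h1
  let ⟨hc', y', hy', e'⟩ := h2
  (S.toMP.uniq (i := 2) (k := 2) (j := 6) (by omega) (UW hc) (mul_mem (Wle hy) (UW hb)) (UW hc')
    (mul_mem (Wle hy') (UW hb)) (e.symm.trans e')).1

theorem ph_mu (m : Mu 6 U 1 a κ l) (hb : b ∈ U 6) : Ph U a b (cj b (κ * a * l)) := by
  obtain ⟨c, hc, y, hy, e⟩ := S.toMP.dec_bot (by omega) (S.toMP.commZ m.a_mem (inv_mem hb))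
  rw [← (m.shift_bot S.toMP (Ueq hb) hc (Wle hy) e).1]
  exact ⟨hc, y, Wle hy, by rw [cj_eq', e, mul_assoc]⟩

theorem cj5 (ha : a ∈ U 1) (hb : b ∈ U 5) : cj b a * b⁻¹ ∈ U 3 := by
  by_cases a1 : a = 1
  · rw [a1, cj_one, mul_inv_cancel]; exact one_mem _
  obtain ⟨κ, l, m⟩ := S.toMP.exists_mu ha a1
  rw [S.tri 1 odd_one a _ ⟨κ, l, m, rfl⟩ b hb, mul_inv_cancel_right]
  exact Ueq (m.rf.cj hb)

theorem ph_mul (ha : a' ∈ U 1) (h1 : Ph U a b c) (h2 : Ph U a' b c') : Ph U (a * a') b (c * c') := by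
  obtain ⟨hc, y, hy, e⟩ := h1
  obtain ⟨hc', y', hy', e'⟩ := h2
  have k : cj y a' ∈ W U 3 5 := Bas.W_cj (fun k k1 k2 x hx => by
    by_cases k5 : k = 5
    · exact (mul_mem_cancel_right (inv_mem (UW hx))).1 (UW (cj5 S ha (k5 ▸ hx)))
    · rw [cj_eq_self.2 (S.cen 1 k odd_one (by omega) (by omega) _ ha _ hx).symm]; exact UW hx) hy
  refine ⟨mul_mem hc hc', _, mul_mem (S.toMP.pres_top hc' k) hy', ?_⟩
  rw [← cj_cj, e, cj_mul, cj_mul, e', cj_eq_self.2 (S.cen 1 2 odd_one (by omega) (by omega) _ ha _ hc).symm]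
  simp [cj, mul_assoc]

theorem cen10 (m : Mu 6 U 1 a κ l) (hb : b ∈ U 10) : Commute (κ * a * l) b :=
  ((S.cen 7 10 (by decide) (by omega) (by omega) _ m.κ_mem _ hb).mul_left
    (S.cen 13 10 (by decide) (by omega) (by omega) _ (S.toMP.up m.a_mem) _ hb)).mul_left
    (S.cen 7 10 (by decide) (by omega) (by omega) _ m.l_mem _ hb)

theorem prod [Finite G] {g : G} (r : Rf U 8 g) (hg : ∀ b ∈ U 10, Commute g b) :
    ∃ a κ l, Mu 6 U 1 a κ l ∧ ∀ b ∈ U 6, cj b g = cj b (κ * a * l) := by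
  have h := S.toMP
  obtain ⟨e, he, e1⟩ := h.ne 5
  obtain ⟨κ5, l5, m5⟩ := h.exists_mu he e1
  obtain ⟨⟨a, ha⟩, k⟩ := ((Nat.bijective_iff_injective_and_card
    (fun a : U 1 => (⟨_, cj5 S a.2 he⟩ : U 3))).2 ⟨fun a a' k => Subtype.ext (mul_inv_eq_one.1
      ((h.nc (i := 1) (j := 5) (by omega) (by omega) (mul_mem a.2 (inv_mem a'.2)) he (cj_eq_self.1 (by
        rw [← cj_cj, mul_right_cancel (congrArg Subtype.val k), cj_cj_inv])).symm).resolve_right e1)),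
      (h.card_add_two 1).symm⟩).2 ⟨_, r.cj he⟩
  replace k : cj e a * e⁻¹ = cj e g := congrArg Subtype.val k
  obtain ⟨κ, l, m⟩ := h.exists_mu ha fun a1 => e1 (cj_eq_one.1 (by rw [← k, a1, cj_one, mul_inv_cancel]))
  rw [S.tri 1 odd_one a _ ⟨κ, l, m, rfl⟩ e he, mul_inv_cancel_right] at k
  have t : Tr U 0 (g * (κ * a * l)⁻¹) := by simpa using r.mul m.rf.inv
  have c : cj e (g * (κ * a * l)⁻¹) = e := by rw [← cj_cj, ← k, cj_cj_inv]
  have m' := m5.tr t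
  rw [add_zero, c] at m'
  obtain ⟨c1, c2⟩ := m'.uniq h m5
  have c3 := ((cj_eq_self.1 c1).mul_left (cj_eq_self.1 c)).mul_left (cj_eq_self.1 c2)
  refine ⟨a, κ, l, m, fun b hb => ?_⟩
  have hx : cj b (κ5 * e * l5)⁻¹ ∈ U 10 := Ueq (m5.rf.inv.cj hb)
  have := cj_eq_self.2 ((hg _ hx).mul_left (cen10 S m hx).inv_left).symm
  rw [cj_cj, c3.inv_left.eq, ← cj_cj, cj_inj, ← cj_cj] at this
  rw [← cj_inv_cj (cj b g) (κ * a * l), this]

end H2

/-- `J = Additive (U 6)` (commutative by `ab`).  Fix `1 ≠ e₁ ∈ U 1`, `m₁ = μ(e₁)`.  For `a ∈ U 1`, `b ∈ U 6` write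
`b ^ a = φ_a(b) y b`, `φ_a(b) ∈ U 2`, `y ∈ U_{[3,5]}`; `φ_a(b) = b ^ {μ(a)}` for `a ≠ 1` (`shift_bot`), `φ_{a a'}(b) = φ_a(b) φ_{a'}(b)`
(`a'` commutes with `U 2, U 3, U 4`, and `[U 1, U 5] ≤ U 3` by `tri`).  `ρ(a) = (b ↦ φ_a(b) ^ {m₁⁻¹}) ∈ End J` is additive in `a`,
`ρ(e₁) = 1`, and for `a ≠ 1` it is the conjugation by `h(a) = μ(a) m₁⁻¹`, a bijection; so `ρ` is injective.
The image is closed under products: fix `1 ≠ e₅ ∈ U 5`, `m₅ = μ(e₅)`.  `a ↦ e₅ ^ a e₅⁻¹` (`= e₅ ^ {μ(a)}`, `tri`) is an injective map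
`U 1 → U 3` (`nc`), so bijective (`card_add_two`).  For `a, a' ≠ 1` choose `a''` with `e₅ ^ {h(a') μ(a)} = e₅ ^ {μ(a'')}`.  Then
`g = h(a') μ(a) μ(a'')⁻¹` (`Tr U 0 g`) centralises `e₅`, hence `m₅` (`Mu.tr`, `Mu.uniq`); `g` centralises `U 10` (a product of elements of
`U 1`, `U 7`: `cen`, `per`), and `m₅` maps `U 10` onto `U 6`; so `g` centralises `U 6`, i.e. `ρ(a) ρ(a') = ρ(a'')`.
`F` = the image of `ρ`, a finite subring of `End J` whose non-zero elements are injective: a finite domain, so a field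
(`Finite.isDomain_to_isField`, `IsField.toField`); `x1` = the inverse of `ρ`. -/
theorem exists_co [Finite G] (S : Sh p U) :
    ∃ (F J : Type u) (_ : Field F) (_ : AddCommGroup J) (_ : Module F J), Nonempty (Co U F J) := by
  have h := S.toMP
  let _ : CommGroup (U 6) := { (inferInstance : Group (U 6)) with
    mul_comm := fun a b => Subtype.ext (S.ab 6 _ a.2 _ b.2) }
  obtain ⟨e, he, e1⟩ := h.ne 1
  obtain ⟨κ1, l1, m1⟩ := h.exists_mu he e1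
  let R : G → AddMonoid.End (Additive (U 6)) → Prop := fun a f =>
    a ∈ U 1 ∧ ∀ b, H2.Ph U a (b.toMul : U 6) (cj ((f b).toMul : U 6) (κ1 * e * l1))
  have R0 : R 1 0 := ⟨one_mem _, fun b => ⟨by simp [one_cj], 1, one_mem _, by simp [one_cj, cj_one]⟩⟩
  have Rmu : ∀ {a κ l f}, Mu 6 U 1 a κ l →
      (R a f ↔ ∀ b, cj ((f b).toMul : U 6).1 (κ1 * e * l1) = cj (b.toMul : U 6).1 (κ * a * l)) := fun m =>
    ⟨fun r b => H2.ph_uniq S b.toMul.2 (r.2 b) (H2.ph_mu S m b.toMul.2),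
      fun r => ⟨m.a_mem, fun b => r b ▸ H2.ph_mu S m b.toMul.2⟩⟩
  have Rex : ∀ a ∈ U 1, ∃ f, R a f := fun a ha => by
    by_cases a1 : a = 1
    · exact ⟨0, a1 ▸ R0⟩
    obtain ⟨κ, l, m⟩ := h.exists_mu ha a1
    exact ⟨AddMonoidHom.mk' (fun b => Additive.ofMul ⟨_, Ueq ((m.rf.mul m1.rf.inv).cj b.toMul.2)⟩)
      fun b c => Subtype.ext (cj_mul _ _ _), (Rmu m).2 fun b => by
        rw [← cj_inv_cj (cj _ (κ * a * l)) (κ1 * e * l1), cj_cj _ (κ * a * l)]; rfl⟩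
  have Rfun : ∀ {a f f'}, R a f → R a f' → f = f' := fun r r' => AddMonoidHom.ext fun b =>
    Subtype.ext (cj_inj.1 (H2.ph_uniq S b.toMul.2 (r.2 b) (r'.2 b)))
  have Radd : ∀ {a a' f f'}, R a f → R a' f' → R (a * a') (f + f') := fun r r' =>
    ⟨mul_mem r.1 r'.1, fun b => by
      have := H2.ph_mul S r'.1 (r.2 b) (r'.2 b)
      rwa [← cj_mul] at this⟩
  have Rneg : ∀ {a f}, R a f → R a⁻¹ (-f) := fun {a f} r => by
    obtain ⟨f', r'⟩ := Rex _ (inv_mem r.1)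
    rwa [neg_eq_of_add_eq_zero_right (Rfun (mul_inv_cancel a ▸ Radd r r') R0)]
  have Rinj : ∀ {a f}, R a f → a ≠ 1 → Function.Injective f := fun r a1 b c k => by
    obtain ⟨κ, l, m⟩ := h.exists_mu r.1 a1
    exact Subtype.ext (cj_inj.1 (((Rmu m).1 r b).symm.trans (k ▸ (Rmu m).1 r c)))
  obtain ⟨b6, h6, b1⟩ := h.ne 6
  have Req : ∀ {a a' f}, R a f → R a' f → a = a' := fun {a a' f} r r' => mul_inv_eq_one.1 (by_contra fun a1 =>
    b1 (congrArg Subtype.val (Rinj (add_neg_cancel f ▸ Radd r (Rneg r')) a1 (a₁ := .ofMul ⟨b6, h6⟩) (a₂ := 0) rfl)))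
  have R1 : R e 1 := (Rmu m1).2 fun b => rfl
  let F : Subring (AddMonoid.End (Additive (U 6))) :=
    { carrier := {f | ∃ a, R a f}
      one_mem' := ⟨e, R1⟩
      zero_mem' := ⟨1, R0⟩
      add_mem' := fun ⟨_, r⟩ ⟨_, r'⟩ => ⟨_, Radd r r'⟩
      neg_mem' := fun ⟨_, r⟩ => ⟨_, Rneg r⟩
      mul_mem' := fun {f f'} ⟨a, r⟩ ⟨a', r'⟩ => by
        by_cases a1 : a = 1
        · exact ⟨1, by rw [Rfun (f := f) (a1 ▸ r) R0, zero_mul]; exact R0⟩
        by_cases a2 : a' = 1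
        · exact ⟨1, by rw [Rfun (f := f') (a2 ▸ r') R0, mul_zero]; exact R0⟩
        obtain ⟨κ, l, m⟩ := h.exists_mu r.1 a1
        obtain ⟨κ', l', m'⟩ := h.exists_mu r'.1 a2
        obtain ⟨a₂, κ₂, l₂, m₂, k⟩ := H2.prod S (g := κ' * a' * l' * (κ1 * e * l1)⁻¹ * (κ * a * l))
          ((m'.rf.mul m1.rf.inv).mul_rf m.rf).eq fun b hb =>
            ((H2.cen10 S m' hb).mul_left (H2.cen10 S m1 hb).inv_left).mul_left (H2.cen10 S m hb)
        exact ⟨a₂, (Rmu m₂).2 fun b => by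
          rw [← k _ b.toMul.2, ← cj_cj b.toMul.1, ← cj_cj b.toMul.1, ← (Rmu m').1 r' b, cj_cj_inv, ← (Rmu m).1 r]
          rfl⟩ }
  choose x hx using fun f : F => f.2
  have xi : Function.Injective x := fun f f' k => Subtype.ext (Rfun (hx f) (k ▸ hx f'))
  have : Finite F := .of_injective x xi
  have : Nontrivial F := ⟨1, 0, fun k => e1 (Req R1 ((show (0 : AddMonoid.End _) = 1 from (congrArg Subtype.val k).symm) ▸ R0))⟩
  have : NoZeroDivisors F := ⟨fun {f f'} k => or_iff_not_imp_left.2 fun f0 => Subtype.ext (AddMonoidHom.ext fun b =>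
    Rinj (hx f) (fun a1 => f0 (Subtype.ext (Rfun (a1 ▸ hx f) R0)))
      ((DFunLike.congr_fun (congrArg Subtype.val k) b).trans (map_zero f.1).symm))⟩
  have := NoZeroDivisors.to_isDomain F
  let M : Module F (Additive (U 6)) := inferInstance
  let _ := (Finite.isDomain_to_isField F).toField
  refine ⟨F, Additive (U 6), _, inferInstance, M,
    ⟨x, fun b => (b.toMul : U 6), κ1 * e * l1, ⟨fun g => ⟨fun hg => ?_, fun ⟨f, k⟩ => k ▸ (hx f).1⟩, xi⟩,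
      ⟨fun g => ⟨fun hg => ⟨.ofMul ⟨g, hg⟩, rfl⟩, fun ⟨b, k⟩ => k ▸ b.toMul.2⟩, fun _ _ k => Subtype.ext k⟩,
      fun s t => Req (hx _) (Radd (hx s) (hx t)), fun _ _ => rfl, ?_, ?_⟩⟩
  · obtain ⟨f, r⟩ := Rex g hg
    exact ⟨⟨f, g, r⟩, Req r (hx _)⟩
  · rw [Req (hx 1) R1]
    exact ⟨κ1, l1, m1, rfl⟩
  · rintro s _ ⟨κ, l, m, rfl⟩ b
    exact ((Rmu m).1 (hx s) b).symm

end CL.FS.Hx
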