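/-
S1144, hexagons: coordinates and the split torus.
-/
import Cfsg.Agent.CHEV.FS.HDef
import Cfsg.Agent.CHEV.FS.Bru

set_option autoImplicit false
set_option linter.unusedSectionVars false

namespace CL.FS.Hx

variable {G : Type*} [Group G] {p : ℕ} {U : ℤ → Subgroup G}

theorem cjc (y m g : G) : cj (cj y m) g = cj (cj y g) (cj m g) := by simp only [cj]; group

theorem cj_sw {x y g : G} (h : cj x g = y) : cj y g⁻¹ = x := by rw [← h, cj_cj_inv]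

namespace IsMu

variable {i : ℤ} {a m m' : G}

theorem rf3 (h : IsMu U i a m) : Rf U (2 * i + 6) m := by
  obtain ⟨κ, l, M, rfl⟩ := h
  exact M.rf.eq

theorem inv3 (h : IsMu U i a m) : IsMu U i a⁻¹ m⁻¹ := by
  obtain ⟨κ, l, M, rfl⟩ := h
  exact ⟨_, _, M.inv, by group⟩

theorem tr3 (h : IsMu U i a m) {g : G} (t : Tr U 0 g) : IsMu U i (cj a g) (cj m g) := by
  obtain ⟨κ, l, M, rfl⟩ := h
  exact ⟨_, _, add_zero i ▸ M.tr t, by rw [cj_mul, cj_mul]⟩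

theorem uniq3 (S : MP p 6 U) (h : IsMu U i a m) (h' : IsMu U i a m') : m = m' := by
  obtain ⟨κ, l, M, rfl⟩ := h
  obtain ⟨κ', l', M', rfl⟩ := h'
  obtain ⟨rfl, rfl⟩ := M.uniq S M'
  rfl

theorem fix3 (h : IsMu U i a m) {z : G} (h1 : ∀ y ∈ U i, Commute z y) (h2 : ∀ y ∈ U (i + 6), Commute z y) :
    cj z m = z := by
  obtain ⟨κ, l, M, rfl⟩ := h
  exact cj_eq_self.2 (((h2 _ (Ueq M.κ_mem)).mul_right (h1 _ M.a_mem)).mul_right (h2 _ (Ueq M.l_mem)))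

end IsMu

theorem ex_mu3 (S : MP p 6 U) {i : ℤ} {a : G} (ha : a ∈ U i) (a1 : a ≠ 1) : ∃ m, IsMu U i a m :=
  let ⟨κ, l, M⟩ := S.exists_mu ha a1
  ⟨_, κ, l, M, rfl⟩

theorem kap_eq (S : MP p 6 U) {i : ℤ} {g : G} (t : Tr U 0 g) (h1 : ∀ y ∈ U i, cj y g = y⁻¹)
    (h2 : ∀ y ∈ U (i + 6), cj y g = y⁻¹) {a κ l : G} (M : Mu 6 U i a κ l) : κ = l := by
  have M' := M.tr t
  rw [add_zero, h1 _ M.a_mem, h2 _ (Ueq M.κ_mem), h2 _ (Ueq M.l_mem)] at M'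
  exact inv_injective (M'.uniq S M.inv).1

theorem inv_mu (S : MP p 6 U) {i : ℤ} {g : G} (t : Tr U 0 g) (h1 : ∀ y ∈ U i, cj y g = y⁻¹)
    (h2 : ∀ y ∈ U (i + 6), cj y g = y⁻¹) {a m : G} (M : IsMu U i a m) :
    Mu 6 U i a (cj a m) (cj a m) ∧ m = cj a m * a * cj a m ∧ ∀ y ∈ U i, cj y m⁻¹ = cj y m := by
  have R := M.rf3
  obtain ⟨κ, l, M, e⟩ := M
  obtain rfl := kap_eq S t h1 h2 M
  have e2 : a = cj κ m := e ▸ kap_eq S t (i := i + (6 : ℕ)) (fun y hy => h2 y (Ueq hy))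
    (fun y hy => h1 y (S.down hy)) (M.la S)
  have e3 : cj m g = m⁻¹ := by
    rw [e, cj_mul, cj_mul, h1 _ M.a_mem, h2 _ (Ueq M.κ_mem)]; group
  have e4 : ∀ y ∈ U i, cj y m⁻¹ = cj y m := fun y hy => by
    have := cjc y⁻¹ m g
    rw [e3, h1 _ (inv_mem hy), inv_inv, h2 _ (Ueq (R.cj (inv_mem hy))), cj_inv, inv_inv] at this
    exact this.symm
  have e5 : cj a m = κ := by rw [← e4 a M.a_mem]; exact cj_sw e2.symm
  rw [e5]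
  exact ⟨M, e, e4⟩

namespace Co

variable {F J : Type*} [Field F] [AddCommGroup J] [Module F J] (C : Co U F J)

theorem x1_zero : C.x1 0 = 1 := by simpa using C.a1 0 0
theorem x6_zero : C.x6 0 = 1 := by simpa using C.a6 0 0
theorem x1_neg (t : F) : C.x1 (-t) = (C.x1 t)⁻¹ := eq_inv_of_mul_eq_one_left (by rw [← C.a1, neg_add_cancel, x1_zero])
theorem x6_neg (t : J) : C.x6 (-t) = (C.x6 t)⁻¹ := eq_inv_of_mul_eq_one_left (by rw [← C.a6, neg_add_cancel, x6_zero])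
theorem mem1 (t : F) : C.x1 t ∈ U 1 := (C.p1.mem _).2 ⟨t, rfl⟩
theorem mem6 (t : J) : C.x6 t ∈ U 6 := (C.p6.mem _).2 ⟨t, rfl⟩
theorem ne1 {t : F} (h : t ≠ 0) : C.x1 t ≠ 1 := fun e => h (C.p1.inj (e.trans C.x1_zero.symm))
theorem ne6 {t : J} (h : t ≠ 0) : C.x6 t ≠ 1 := fun e => h (C.p6.inj (e.trans C.x6_zero.symm))

open Classical in
/-- `μ(x₁(s))` -/
noncomputable def n1 (s : F) : G := if h : ∃ m, IsMu U 1 (C.x1 s) m then h.choose else 1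
open Classical in
/-- `μ(x₆(a))` -/
noncomputable def n6 (a : J) : G := if h : ∃ m, IsMu U 6 (C.x6 a) m then h.choose else 1
/-- coordinates -/
def x2 (b : J) : G := cj (C.x6 b) C.m1

theorem r1 : Rf U 8 C.m1 := C.hm.rf3.eq
theorem mem2 (b : J) : C.x2 b ∈ U 2 := Ueq (C.r1.cj (C.mem6 b))
theorem inj2 {a b : J} (h : C.x2 a = C.x2 b) : a = b := C.p6.inj (cj_inj.1 h)
theorem x2_neg (b : J) : C.x2 (-b) = (C.x2 b)⁻¹ := by rw [x2, x6_neg, cj_inv, x2]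
theorem ex2 {y : G} (h : y ∈ U 2) : ∃ b, y = C.x2 b := by
  obtain ⟨b, e⟩ := (C.p6.mem _).1 (Ueq (C.r1.inv.cj h))
  exact ⟨b, by rw [x2, ← e, cj_inv_cj]⟩

/-- the principle (P) -/
theorem pp {g : G} (t : Tr U 0 g) {s : F} {b b' : J} (h1 : cj (C.x1 1) g = C.x1 s) (h6 : cj (C.x6 b) g = C.x6 b') :
    cj (C.x2 b) g = C.x2 (s • b') := by
  rw [x2, cjc, h6, C.key s _ (h1 ▸ C.hm.tr3 t), x2]

variable (S : Sh p U)
include S

theorem mu1 {s : F} (h : s ≠ 0) : IsMu U 1 (C.x1 s) (C.n1 s) := by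
  have := ex_mu3 S.toMP (C.mem1 s) (C.ne1 h)
  rw [n1, dif_pos this]; exact this.choose_spec
theorem mu6 {a : J} (h : a ≠ 0) : IsMu U 6 (C.x6 a) (C.n6 a) := by
  have := ex_mu3 S.toMP (C.mem6 a) (C.ne6 h)
  rw [n6, dif_pos this]; exact this.choose_spec
theorem n1_one : C.n1 1 = C.m1 := (C.mu1 S one_ne_zero).uniq3 S.toMP C.hm
theorem n1_neg {s : F} (h : s ≠ 0) : C.n1 (-s) = (C.n1 s)⁻¹ :=
  (C.mu1 S (neg_ne_zero.2 h)).uniq3 S.toMP (C.x1_neg s ▸ (C.mu1 S h).inv3)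
theorem n6_neg {s : J} (h : s ≠ 0) : C.n6 (-s) = (C.n6 s)⁻¹ :=
  (C.mu6 S (neg_ne_zero.2 h)).uniq3 S.toMP (C.x6_neg s ▸ (C.mu6 S h).inv3)
theorem rn1 {s : F} (h : s ≠ 0) : Rf U 8 (C.n1 s) := (C.mu1 S h).rf3.eq
theorem rn6 {s : J} (h : s ≠ 0) : Rf U 6 (C.n6 s) := S.toMP.rf_per (C.mu6 S h).rf3 ⟨-1, by norm_num⟩
theorem n1_cj {g : G} (t : Tr U 0 g) {s s' : F} (h : s ≠ 0) (e : cj (C.x1 s) g = C.x1 s') : cj (C.n1 s) g = C.n1 s' := by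
  have h' : s' ≠ 0 := by
    rintro rfl
    exact C.ne1 h (cj_eq_one.1 (e.trans C.x1_zero))
  exact (e ▸ (C.mu1 S h).tr3 t).uniq3 S.toMP (C.mu1 S h')
theorem n6_cj {g : G} (t : Tr U 0 g) {s s' : J} (h : s ≠ 0) (e : cj (C.x6 s) g = C.x6 s') : cj (C.n6 s) g = C.n6 s' := by
  have h' : s' ≠ 0 := by
    rintro rfl
    exact C.ne6 h (cj_eq_one.1 (e.trans C.x6_zero))
  exact (e ▸ (C.mu6 S h).tr3 t).uniq3 S.toMP (C.mu6 S h')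

include C in
theorem exJ : ∃ b : J, b ≠ 0 := by
  obtain ⟨a, ha, a1⟩ := S.ne 6
  obtain ⟨b, rfl⟩ := (C.p6.mem _).1 ha
  exact ⟨b, fun e => a1 (e ▸ C.x6_zero)⟩

theorem k6 {s : F} (h : s ≠ 0) (b : J) : cj (C.x6 b) (C.n1 s) = C.x2 (s • b) := C.key s _ (C.mu1 S h) b
theorem k6' {s : F} (h : s ≠ 0) (b : J) : cj (C.x6 b) (C.n1 s)⁻¹ = C.x2 (-s • b) := by
  rw [← C.n1_neg S h, C.k6 S (neg_ne_zero.2 h)]
theorem k2 {s : F} (h : s ≠ 0) (b : J) : cj (C.x2 b) (C.n1 s) = C.x6 (-s⁻¹ • b) := by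
  have := cj_sw (C.k6' S h (-s⁻¹ • b))
  rwa [inv_inv, smul_smul, neg_mul_neg, mul_inv_cancel₀ h, one_smul] at this
theorem k6m (b : J) : cj (C.x6 b) C.m1⁻¹ = C.x2 (-b) := by
  rw [← C.n1_one S, C.k6' S one_ne_zero, neg_smul, one_smul]

/-- the action on `U 1` from the actions on `U 6` and `U 2` -/
theorem qq {g : G} (t : Tr U 0 g) {α γ : F} (hα : α ≠ 0) (h6 : ∀ b, cj (C.x6 b) g = C.x6 (α • b))
    (h2 : ∀ b, cj (C.x2 b) g = C.x2 (γ • b)) (u : F) : cj (C.x1 u) g = C.x1 (γ * α⁻¹ * u) := by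
  rcases eq_or_ne u 0 with rfl | hu
  · rw [mul_zero, x1_zero, one_cj]
  obtain ⟨u', e⟩ := (C.p1.mem _).1 (Ueq (t.cj (C.mem1 u)))
  obtain ⟨b, hb⟩ := C.exJ S
  have hu' : u' ≠ 0 := by
    rintro rfl
    exact C.ne1 hu (cj_eq_one.1 (e.trans C.x1_zero))
  have := cjc (C.x6 b) (C.n1 u) g
  rw [C.k6 S hu, h2, h6, C.n1_cj S t hu e, C.k6 S hu', smul_smul, smul_smul] at this
  have := smul_left_injective F hb (C.inj2 this)
  rw [e]; congr 1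
  field_simp
  exact this.symm

theorem q6 {g : G} (t : Tr U 0 g) (h6 : ∀ b, cj (C.x6 b) g = C.x6 b) : ∃ β : F, β ≠ 0 ∧
    (∀ u, cj (C.x1 u) g = C.x1 (β * u)) ∧ ∀ b, cj (C.x2 b) g = C.x2 (β • b) := by
  obtain ⟨β, e⟩ := (C.p1.mem _).1 (Ueq (t.cj (C.mem1 1)))
  have h2 := fun b => C.pp t e (h6 b)
  refine ⟨β, ?_, fun u => ?_, h2⟩
  · rintro rfl
    exact C.ne1 one_ne_zero (cj_eq_one.1 (e.trans C.x1_zero))
  · simpa using C.qq S t one_ne_zero (by simpa using h6) h2 u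

theorem q2 {g : G} (t : Tr U 0 g) {γ : F} (hγ : γ ≠ 0) (h1 : cj (C.x1 1) g = C.x1 γ) {b b' : J}
    (h2 : cj (C.x2 b) g = C.x2 b') : cj (C.x6 b) g = C.x6 (γ⁻¹ • b') := by
  obtain ⟨c, e⟩ := (C.p6.mem _).1 (Ueq (t.cj (C.mem6 b)))
  rw [e, C.inj2 (h2.symm.trans (C.pp t h1 e)), smul_smul, inv_mul_cancel₀ hγ, one_smul]

/-- the torus of the first root -/
noncomputable def h1 (s : F) : G := C.n1 s * C.m1⁻¹

theorem th {s : F} (h : s ≠ 0) : Tr U 0 (C.h1 s) := by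
  rw [h1]; simpa using (C.rn1 S h).mul C.r1.inv
theorem h6 {s : F} (h : s ≠ 0) (b : J) : cj (C.x6 b) (C.h1 s) = C.x6 (s • b) := by
  rw [h1, ← cj_cj, C.k6 S h, x2, cj_cj_inv]
theorem h2 {s : F} (h : s ≠ 0) (b : J) : cj (C.x2 b) (C.h1 s) = C.x2 (s⁻¹ • b) := by
  rw [h1, ← cj_cj, C.k2 S h, C.k6m S, neg_smul, neg_neg]
theorem h11 {s : F} (h : s ≠ 0) (u : F) : cj (C.x1 u) (C.h1 s) = C.x1 (s⁻¹ ^ 2 * u) := by
  rw [C.qq S (C.th S h) h (C.h6 S h) (C.h2 S h), sq]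
theorem c11 {s : F} (h : s ≠ 0) (u : F) : cj (C.x1 u) (C.n1 s) = cj (C.x1 (s⁻¹ ^ 2 * u)) C.m1 := by
  rw [← C.h11 S h, cj_cj, h1, inv_mul_cancel_right]
theorem fix4 {a m y : G} (M : IsMu U 1 a m) (hy : y ∈ U 4) : cj y m = y :=
  M.fix3 (fun z hz => (S.cen 1 4 (by decide) (by omega) (by omega) z hz y hy).symm)
    fun z hz => (S.cen 7 4 (by decide) (by omega) (by omega) z (Ueq hz) y hy).symm
theorem h4 {s : F} (h : s ≠ 0) {y : G} (hy : y ∈ U 4) : cj y (C.h1 s) = y := by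
  rw [h1, ← cj_cj, fix4 S (C.mu1 S h) hy, fix4 S C.hm.inv3 hy]

section E

omit S

variable (e : J)

/-- coordinates -/
noncomputable def x5 (t : F) : G := cj (C.x1 t) (C.n6 e)⁻¹
/-- coordinates -/
noncomputable def x4 (b : J) : G := cj (C.x2 b) (C.n6 e)
/-- coordinates -/
noncomputable def x3 (t : F) : G := cj (C.x5 e t) C.m1
/-- coordinates -/
noncomputable def z0 (b : J) : G := cj (C.x6 b) (C.n6 e)⁻¹

/-- `g` acts diagonally -/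
structure Ac (g : G) (α β : F) : Prop where
  tr : Tr U 0 g
  a6 : ∀ b, cj (C.x6 b) g = C.x6 (α • b)
  a1 : ∀ t, cj (C.x1 t) g = C.x1 (β * t)
  a2 : ∀ b, cj (C.x2 b) g = C.x2 ((α * β) • b)
  a4 : ∀ b, cj (cj (C.x2 b) (C.n6 e)⁻¹) g = cj (C.x2 ((α ^ 2 * β) • b)) (C.n6 e)⁻¹
  a5 : ∀ t, cj (C.x5 e t) g = C.x5 e (α ^ 3 * β * t)
  a0 : ∀ b, cj (C.z0 e b) g = C.z0 e (α⁻¹ • b)

theorem inj5 {a b : F} (h : C.x5 e a = C.x5 e b) : a = b := C.p1.inj (cj_inj.1 h)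
theorem inj4 {a b : J} (h : C.x4 e a = C.x4 e b) : a = b := C.inj2 (cj_inj.1 h)
theorem x5_neg (b : F) : C.x5 e (-b) = (C.x5 e b)⁻¹ := by rw [x5, x1_neg, cj_inv, x5]
theorem z0_neg (b : J) : C.z0 e (-b) = (C.z0 e b)⁻¹ := by rw [z0, x6_neg, cj_inv, z0]

variable {e} (he : e ≠ 0)
include S he

theorem mem5 (t : F) : C.x5 e t ∈ U 5 := Ueq ((C.rn6 S he).inv.cj (C.mem1 t))
theorem mem4 (t : J) : C.x4 e t ∈ U 4 := Ueq ((C.rn6 S he).cj (C.mem2 t))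
theorem mem3 (t : F) : C.x3 e t ∈ U 3 := Ueq (C.r1.cj (C.mem5 S he t))
theorem mem0 (t : J) : C.z0 e t ∈ U 0 := Ueq ((C.rn6 S he).inv.cj (C.mem6 t))
theorem ex5 {y : G} (h : y ∈ U 5) : ∃ b, y = C.x5 e b := by
  obtain ⟨b, e⟩ := (C.p1.mem _).1 (Ueq ((C.rn6 S he).cj h))
  exact ⟨b, by rw [x5, ← e, cj_cj_inv]⟩
theorem ex4 {y : G} (h : y ∈ U 4) : ∃ b, y = C.x4 e b := by
  obtain ⟨b, e⟩ := C.ex2 (Ueq ((C.rn6 S he).inv.cj h))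
  exact ⟨b, by rw [x4, ← e, cj_inv_cj]⟩
theorem ex0 {y : G} (h : y ∈ U 0) : ∃ b, y = C.z0 e b := by
  obtain ⟨b, e⟩ := (C.p6.mem _).1 (Ueq ((C.rn6 S he).cj h))
  exact ⟨b, by rw [z0, ← e, cj_cj_inv]⟩

/-- the torus of the highest root -/
theorem exD {β : F} (hβ : β ≠ 0) : ∃ g, C.Ac e g 1 β ∧ ∀ t, cj (C.x3 e t) g = C.x3 e (β ^ 2 * t) := by
  have hb := inv_ne_zero hβ
  have tw : Tr U 2 ((C.n6 e)⁻¹ * C.m1) := by simpa using (C.rn6 S he).inv.mul C.r1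
  set w := (C.n6 e)⁻¹ * C.m1 with hw
  have t : Tr U 0 (cj (C.h1 β⁻¹) w) := by
    rw [cj]; simpa using (tw.inv.mul (C.th S hb)).mul tw
  have h6 : ∀ b, cj (C.x6 b) (cj (C.h1 β⁻¹) w) = C.x6 b := fun b => by
    rw [← cj_inv_cj (C.x6 b) w, ← cjc, C.h4 S hb (Ueq (tw.inv.cj (C.mem6 b)))]
  have c6 : cj (C.n6 e)⁻¹ (cj (C.h1 β⁻¹) w) = (C.n6 e)⁻¹ := by rw [cj_inv, C.n6_cj S t he (h6 e)]
  have e4 : ∀ b, cj (C.x2 b) w = cj (C.x2 b) (C.n6 e)⁻¹ := fun b => by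
    rw [hw, ← cj_cj, fix4 S C.hm (Ueq ((C.rn6 S he).inv.cj (C.mem2 b)))]
  have h4 : ∀ b, cj (cj (C.x2 b) (C.n6 e)⁻¹) (cj (C.h1 β⁻¹) w) = cj (C.x2 (β • b)) (C.n6 e)⁻¹ := fun b => by
    rw [← e4, ← cjc, C.h2 S hb, inv_inv, e4]
  obtain ⟨γ, -, h1, h2⟩ := C.q6 S t h6
  obtain rfl : γ = β := by
    have := h4 e
    rw [cjc, c6, h2] at this
    exact smul_left_injective F he (C.inj2 (cj_inj.1 this))
  refine ⟨_, ⟨t, by simpa using h6, h1, by simpa using h2, by simpa using h4, fun u => ?_, fun b => ?_⟩, fun u => ?_⟩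
  · rw [x5, cjc, c6, h1, one_pow, one_mul, x5]
  · rw [z0, cjc, c6, h6, inv_one, one_smul, z0]
  · have e3 : ∀ u, C.x3 e u = cj (C.x1 u) w := fun u => by rw [x3, x5, cj_cj]
    rw [e3, ← cjc, C.h11 S hb, inv_inv, e3]

theorem k5 {s : F} (h : s ≠ 0) (t : F) : cj (C.x5 e t) (C.n1 s) = C.x3 e (s * t) := by
  obtain ⟨g, A, h3⟩ := C.exD S he h
  have := h3 (s⁻¹ * t)
  rw [x3, cjc, A.a5, ← C.n1_one S, C.n1_cj S A.tr one_ne_zero (A.a1 1), mul_one] at this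
  rwa [show 1 ^ 3 * s * (s⁻¹ * t) = t by field_simp, show s ^ 2 * (s⁻¹ * t) = s * t by field_simp] at this

theorem c15 (t : F) : cj (C.x5 e t) (C.m1 * C.m1) = C.x5 e (-t) := by
  have := cj_sw (C.k5 S he (neg_ne_zero.2 one_ne_zero) (-t))
  rw [C.n1_neg S one_ne_zero, inv_inv, C.n1_one S, neg_mul_neg, one_mul] at this
  rw [← cj_cj, ← this, x3]

theorem ach {s : F} (h : s ≠ 0) : C.Ac e (C.h1 s) s (s⁻¹ ^ 2) := by
  have h5 : ∀ t, cj (C.x5 e t) (C.h1 s) = C.x5 e (s * t) := fun t => by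
    rw [h1, ← cj_cj, C.k5 S he h, x3, cj_cj_inv]
  have h4 : ∀ b, cj (cj (C.x2 b) (C.n6 e)⁻¹) (C.h1 s) = cj (C.x2 b) (C.n6 e)⁻¹ := fun b =>
    C.h4 S h (Ueq ((C.rn6 S he).inv.cj (C.mem2 b)))
  refine ⟨C.th S h, C.h6 S h, C.h11 S h, fun b => ?_, fun b => ?_, fun t => ?_, fun b => ?_⟩
  · rw [C.h2 S h]; congr 2; field_simp
  · rw [h4, show s ^ 2 * s⁻¹ ^ 2 = 1 by field_simp, one_smul]
  · rw [h5]; congr 1; field_simp
  · have t : Tr U 0 (cj (C.h1 s) (C.n6 e)) := by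
      rw [cj]; simpa using ((C.rn6 S he).inv.mul_tr (C.th S h)).mul (C.rn6 S he)
    have e1 : ∀ y, cj y (cj (C.h1 s) (C.n6 e)) = cj (cj (cj y (C.n6 e)⁻¹) (C.h1 s)) (C.n6 e) := fun y => by
      rw [cj_cj, cj_cj, cj, cj, cj]; group
    have := C.q2 S t h (b := b) (b' := b) (by rw [e1, ← x5, h5, mul_one, x5, cj_inv_cj]) (by rw [e1, h4, cj_inv_cj])
    rw [e1] at this
    rw [z0, z0, ← this, cj_cj_inv]

theorem exA {α β : F} (hα : α ≠ 0) (hβ : β ≠ 0) : ∃ g, C.Ac e g α β := by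
  obtain ⟨g, A, -⟩ := C.exD S he (mul_ne_zero (pow_ne_zero 2 hα) hβ)
  have B := C.ach S he hα
  refine ⟨C.h1 α * g, by simpa using B.tr.mul A.tr, fun b => ?_, fun b => ?_, fun b => ?_, fun b => ?_, fun b => ?_,
    fun b => ?_⟩
  · rw [← cj_cj, B.a6, A.a6, one_smul]
  · rw [← cj_cj, B.a1, A.a1]; congr 1; field_simp
  · rw [← cj_cj, B.a2, A.a2, smul_smul]; congr 2; field_simp
  · rw [← cj_cj, B.a4, A.a4, smul_smul]; congr 3; field_simp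
  · rw [← cj_cj, B.a5, A.a5]; congr 1; field_simp
  · rw [← cj_cj, B.a0, A.a0, inv_one, one_smul]

theorem inv6 {a : J} (h : a ≠ 0) : Mu 6 U 6 (C.x6 a) (cj (C.x6 a) (C.n6 a)) (cj (C.x6 a) (C.n6 a)) ∧
    C.n6 a = cj (C.x6 a) (C.n6 a) * C.x6 a * cj (C.x6 a) (C.n6 a) ∧ ∀ y ∈ U 6, cj y (C.n6 a)⁻¹ = cj y (C.n6 a) := by
  obtain ⟨g, A⟩ := C.exA S he (neg_ne_zero.2 one_ne_zero) one_ne_zero
  refine inv_mu S.toMP A.tr (fun y hy => ?_) (fun y hy => ?_) (C.mu6 S h)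
  · obtain ⟨b, rfl⟩ := (C.p6.mem _).1 hy
    rw [A.a6, neg_smul, one_smul, x6_neg]
  · obtain ⟨b, rfl⟩ := C.ex0 S he (S.toMP.down hy)
    rw [A.a0, inv_neg, inv_one, neg_smul, one_smul, z0_neg]

theorem inv1 {s : F} (h : s ≠ 0) : Mu 6 U 1 (C.x1 s) (cj (C.x1 s⁻¹) C.m1) (cj (C.x1 s⁻¹) C.m1) ∧
    C.n1 s = nu C.x1 C.m1 s := by
  obtain ⟨g, A⟩ := C.exA S he one_ne_zero (neg_ne_zero.2 one_ne_zero)
  have := inv_mu S.toMP A.tr (fun y hy => ?_) (fun y hy => ?_) (C.mu1 S h)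
  · rw [C.c11 S h, show s⁻¹ ^ 2 * s = s⁻¹ by field_simp] at this
    exact ⟨this.1, this.2.1⟩
  · obtain ⟨b, rfl⟩ := (C.p1.mem _).1 hy
    rw [A.a1, neg_mul, one_mul, x1_neg]
  · obtain ⟨b, e⟩ := (C.p1.mem _).1 (Ueq (C.r1.inv.cj hy))
    have e' := cj_sw e
    rw [inv_inv] at e'
    rw [← e', cjc, ← C.n1_one S, C.n1_cj S A.tr one_ne_zero (A.a1 1), A.a1, mul_one,
      C.c11 S (neg_ne_zero.2 one_ne_zero), C.n1_one S, ← cj_inv, ← x1_neg]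
    congr 2; simp

theorem k1 (t : F) : cj (C.x1 t) (C.n6 e) = C.x5 e (-t) := by
  obtain ⟨g, A⟩ := C.exA S he (neg_ne_zero.2 one_ne_zero) one_ne_zero
  have := A.a5 t
  rw [x5, cjc, cj_inv (C.n6 e), C.n6_cj S A.tr he (A.a6 e), neg_smul, one_smul, C.n6_neg S he, inv_inv, A.a1,
    one_mul] at this
  rw [this]; congr 1; ring

theorem k2m (b : J) : cj (C.x2 b) (C.n6 e)⁻¹ = C.x4 e (-b) := by
  obtain ⟨g, A⟩ := C.exA S he (neg_ne_zero.2 one_ne_zero) one_ne_zero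
  have := A.a4 b
  rw [cjc, cj_inv (C.n6 e), C.n6_cj S A.tr he (A.a6 e), neg_smul, one_smul, C.n6_neg S he, inv_inv, A.a2] at this
  simpa [x4] using this.symm

theorem k5m (t : F) : cj (C.x5 e t) (C.n6 e)⁻¹ = C.x1 (-t) := cj_sw (by rw [C.k1 S he, neg_neg])

theorem Ac.a4' {g : G} {α β : F} (A : C.Ac e g α β) (b : J) : cj (C.x4 e b) g = C.x4 e ((α ^ 2 * β) • b) := by
  have := A.a4 (-b)
  rwa [C.k2m S he, C.k2m S he, neg_neg, smul_neg, neg_neg] at this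

end E

end Co

end CL.FS.Hx
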