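/-
S1144, hexagons: normal forms modulo the highest root group, the structure maps.
-/
import Cfsg.Agent.CHEV.FS.H3

set_option autoImplicit false
set_option linter.unusedSectionVars false

namespace CL.FS.Hx.Co

variable {G : Type*} [Group G] {p : ℕ} {U : ℤ → Subgroup G}
  {F J : Type*} [Field F] [AddCommGroup J] [Module F J] (C : Co U F J) (e : J)

/-- coordinates in `U_{[1,5]}` modulo `U 3` -/
def NF (y : G) (t : F) (a c : J) (s : F) : Prop := ∃ u ∈ U 3, y = C.x1 t * C.x2 a * C.x4 e c * C.x5 e s * u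

theorem a2 (a b : J) : C.x2 (a + b) = C.x2 a * C.x2 b := by rw [x2, C.a6, cj_mul, x2, x2]
theorem a4 (a b : J) : C.x4 e (a + b) = C.x4 e a * C.x4 e b := by rw [x4, C.a2, cj_mul, x4, x4]
theorem a5 (a b : F) : C.x5 e (a + b) = C.x5 e a * C.x5 e b := by rw [x5, C.a1, cj_mul, x5, x5]
theorem x2_zero : C.x2 0 = 1 := by rw [x2, x6_zero, one_cj]
theorem x4_zero : C.x4 e 0 = 1 := by rw [x4, x2_zero, one_cj]
theorem x5_zero : C.x5 e 0 = 1 := by rw [x5, x1_zero, one_cj]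
theorem x4_neg (b : J) : C.x4 e (-b) = (C.x4 e b)⁻¹ := by rw [x4, x2_neg, cj_inv, x4]

theorem nf1 (t : F) : C.NF e (C.x1 t) t 0 0 0 := ⟨1, one_mem _, by simp [x2_zero, x4_zero, x5_zero]⟩
theorem nf2 (t : J) : C.NF e (C.x2 t) 0 t 0 0 := ⟨1, one_mem _, by simp [x1_zero, x4_zero, x5_zero]⟩
theorem nf4 (t : J) : C.NF e (C.x4 e t) 0 0 t 0 := ⟨1, one_mem _, by simp [x1_zero, x2_zero, x5_zero]⟩
theorem nf5 (t : F) : C.NF e (C.x5 e t) 0 0 0 t := ⟨1, one_mem _, by simp [x1_zero, x2_zero, x4_zero]⟩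
theorem nf3 {u : G} (h : u ∈ U 3) : C.NF e u 0 0 0 0 := ⟨u, h, by simp [x1_zero, x2_zero, x4_zero, x5_zero]⟩

variable {C e} {y y' : G} {t t' s s' : F} {a a' c c' : J}

theorem NF.cg (h : C.NF e y t a c s) (h1 : t = t') (h2 : a = a') (h3 : c = c') (h4 : s = s') : C.NF e y t' a' c' s' := by
  subst h1 h2 h3 h4; exact h

variable (S : Sh p U)
include S

theorem c3 {u z : G} {j : ℤ} (hu : u ∈ U 3) (hz : z ∈ U j) (h1 : 0 ≤ j := by omega) (h2 : j ≤ 6 := by omega) :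
    Commute u z := S.cen 3 j (by decide) (by omega) (by omega) u hu z hz

theorem c15' {x z : G} (hx : x ∈ U 1) (hz : z ∈ U 5) : ∃ u ∈ U 3, z * x = x * z * u := by
  rcases eq_or_ne x 1 with rfl | x1
  · exact ⟨1, one_mem _, by simp⟩
  obtain ⟨m, M⟩ := ex_mu3 S.toMP hx x1
  have hu : cj z m ∈ U 3 := Ueq (M.rf3.cj hz)
  refine ⟨_, hu, ?_⟩
  rw [mul_assoc, ← (c3 S hu hz).eq, ← S.tri 1 (by decide) x m M z (Ueq hz), cj]; group

variable (he : e ≠ 0)
include he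

theorem NF.mul5 (h : C.NF e y t a c s) (s' : F) : C.NF e (y * C.x5 e s') t a c (s + s') := by
  obtain ⟨u, hu, rfl⟩ := h
  exact ⟨u, hu, by rw [mul_assoc, (c3 S hu (C.mem5 S he s')).eq, a5]; group⟩

theorem NF.mul4 (h : C.NF e y t a c s) (c' : J) : C.NF e (y * C.x4 e c') t a (c + c') s := by
  obtain ⟨u, hu, rfl⟩ := h
  refine ⟨u, hu, ?_⟩
  have := (S.cen 5 4 (by decide) (by omega) (by omega) _ (C.mem5 S he s) _ (C.mem4 S he c')).eq
  rw [mul_assoc, (c3 S hu (C.mem4 S he c')).eq, a4, ← mul_assoc, mul_assoc _ (C.x5 e s), this]; group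

theorem NF.mul2 (h : C.NF e y t a c s) (a' : J) : C.NF e (y * C.x2 a') t (a + a') c s := by
  obtain ⟨u, hu, rfl⟩ := h
  have h5 := (S.cen 5 2 (by decide) (by omega) (by omega) _ (C.mem5 S he s) _ (C.mem2 a')).eq
  have hv : cm (C.x4 e c) (C.x2 a') ∈ U 3 := by
    rw [← cm_inv]
    exact inv_mem (W_self (U := U) 3 ▸ Wle (S.toMP.commZ (C.mem2 a') (C.mem4 S he c)))
  refine ⟨_, mul_mem hv hu, ?_⟩
  rw [mul_assoc, (c3 S hu (C.mem2 a')).eq, a2, ← mul_assoc, mul_assoc _ (C.x5 e s), h5, ← mul_assoc _ _ u,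
    mul_assoc _ (C.x5 e s), ← (c3 S hv (C.mem5 S he s)).eq, cm]; group

theorem NF.mul1 (h : C.NF e y t a c s) (t' : F) : C.NF e (y * C.x1 t') (t + t') a c s := by
  obtain ⟨u, hu, rfl⟩ := h
  obtain ⟨v, hv, h5⟩ := c15' S (C.mem1 t') (C.mem5 S he s)
  have h2 := (S.cen 1 2 (by decide) (by omega) (by omega) _ (C.mem1 t') _ (C.mem2 a)).eq
  have h4 := (S.cen 1 4 (by decide) (by omega) (by omega) _ (C.mem1 t') _ (C.mem4 S he c)).eq
  refine ⟨_, mul_mem hv hu, ?_⟩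
  rw [mul_assoc, (c3 S hu (C.mem1 t')).eq, C.a1, ← mul_assoc, mul_assoc _ (C.x5 e s), h5, mul_assoc (C.x1 t) (C.x1 t'), h2,
    mul_assoc (C.x1 t) (_ * C.x1 t'), mul_assoc (C.x2 a), h4]; group

theorem NF.mul (h : C.NF e y t a c s) (h' : C.NF e y' t' a' c' s') :
    C.NF e (y * y') (t + t') (a + a') (c + c') (s + s') := by
  obtain ⟨u', hu', rfl⟩ := h'
  obtain ⟨u, hu, e⟩ := (((h.mul1 S he t').mul2 S he a').mul4 S he c').mul5 S he s'
  exact ⟨_, mul_mem hu hu', by rw [← mul_assoc _ u, ← e]; group⟩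

theorem NF.uniq (h : C.NF e y t a c s) (h' : C.NF e y t' a' c' s') : t = t' ∧ a = a' ∧ c = c' ∧ s = s' := by
  obtain ⟨v, hv, e1⟩ := (((h.mul5 S he (-s')).mul4 S he (-c')).mul2 S he (-a')).mul1 S he (-t')
  obtain ⟨u, hu, rfl⟩ := h'
  have cu := (((c3 S hu (C.mem1 t')).mul_right (c3 S hu (C.mem2 a'))).mul_right (c3 S hu (C.mem4 S he c'))).mul_right
    (c3 S hu (C.mem5 S he s'))
  rw [x5_neg, x4_neg, x2_neg, x1_neg, ← cu.eq] at e1
  have m1 := C.mem1 (t + -t')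
  have m2 := C.mem2 (a + -a')
  have m4 := C.mem4 S he (c + -c')
  have m5 := C.mem5 S he (s + -s')
  have hw := mul_mem hu (inv_mem hv)
  have e2 : C.x1 (t + -t') = u * v⁻¹ * (C.x2 (a + -a') * C.x4 e (c + -c') * C.x5 e (s + -s'))⁻¹ := by
    rw [eq_mul_inv_iff_mul_eq, eq_mul_inv_iff_mul_eq, ← mul_assoc, ← mul_assoc, ← e1]; group
  have z1 := S.toMP.ind' (i := 1) (k := 1) (l := 2) (j := 5) (UW m1)
    (e2 ▸ mul_mem (UW hw) (inv_mem (mul_mem (mul_mem (UW m2) (UW m4)) (UW m5))))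
  have e3 : C.x2 (a + -a') = u * v⁻¹ * (C.x4 e (c + -c') * C.x5 e (s + -s'))⁻¹ := by
    rw [z1, eq_comm, mul_inv_eq_one] at e2; rw [e2]; group
  have z2 := S.toMP.ind' (i := 2) (k := 2) (l := 3) (j := 5) (UW m2)
    (e3 ▸ mul_mem (UW hw) (inv_mem (mul_mem (UW m4) (UW m5))))
  have e4 : u * v⁻¹ = C.x4 e (c + -c') * C.x5 e (s + -s') := by rwa [z2, eq_comm, mul_inv_eq_one] at e3
  have z3 := S.toMP.ind' (i := 3) (k := 3) (l := 4) (j := 5) (UW hw) (e4 ▸ mul_mem (UW m4) (UW m5))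
  have e5 : C.x4 e (c + -c') = (C.x5 e (s + -s'))⁻¹ := eq_inv_of_mul_eq_one_left (e4 ▸ z3)
  have z4 := S.toMP.ind' (i := 4) (k := 4) (l := 5) (j := 5) (UW m4) (e5 ▸ inv_mem (UW m5))
  rw [z4, eq_comm, inv_eq_one] at e5
  exact ⟨add_neg_eq_zero.1 (C.p1.inj (z1.trans C.x1_zero.symm)), add_neg_eq_zero.1 (C.inj2 (z2.trans C.x2_zero.symm)),
    add_neg_eq_zero.1 (C.inj4 e (z4.trans (C.x4_zero e).symm)), add_neg_eq_zero.1 (C.inj5 e (e5.trans (C.x5_zero e).symm))⟩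

variable (C)

theorem ex35 (h : y ∈ W U 3 5) : ∃ c s, C.NF e y 0 0 c s := by
  refine W_ind (P := fun y => ∃ c s, C.NF e y 0 0 c s) ⟨0, 0, C.nf3 e (one_mem _)⟩ ?_ (fun k h1 h2 z hz => ?_) h
  · rintro _ _ ⟨c, s, h1⟩ ⟨c', s', h2⟩
    exact ⟨_, _, (h1.mul S he h2).cg (add_zero _) (add_zero _) rfl rfl⟩
  · obtain rfl | rfl | rfl : k = 3 ∨ k = 4 ∨ k = 5 := by omega
    · exact ⟨_, _, C.nf3 e hz⟩
    · obtain ⟨c, rfl⟩ := C.ex4 S he hz
      exact ⟨_, _, C.nf4 e c⟩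
    · obtain ⟨c, rfl⟩ := C.ex5 S he hz
      exact ⟨_, _, C.nf5 e c⟩

theorem q16 (a : J) : ∃ c s, C.NF e (cj (C.x1 1) (C.x6 a)⁻¹) 1 a c s := by
  obtain ⟨z, hz, y, hy, e1⟩ := S.toMP.dec_bot (i := 2) (j := 5) (by omega)
    (Wle (S.toMP.commZ (C.mem1 1) (inv_mem (C.mem6 a))))
  obtain ⟨κ, l, M, e2⟩ := C.hm
  have := (M.shift_bot S.toMP (b := C.x6 a) (Ueq (C.mem6 a)) (Ueq hz) (Wle hy) e1).1
  obtain ⟨c, s, h⟩ := C.ex35 S he (Wle hy)
  refine ⟨c, s, ?_⟩
  rw [cj_eq, e1, this, ← e2, ← mul_assoc]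
  exact (((C.nf1 e 1).mul S he (C.nf2 e a)).mul S he h).cg (by simp) (by simp) (by simp) (by simp)

theorem q26 (a b : J) : ∃ c s, C.NF e (cj (C.x2 b) (C.x6 a)⁻¹) 0 b c s := by
  obtain ⟨c, s, h⟩ := C.ex35 S he (Wle (S.toMP.commZ (C.mem2 b) (inv_mem (C.mem6 a))))
  exact ⟨c, s, by rw [cj_eq]; exact ((C.nf2 e b).mul S he h).cg (by simp) (by simp) (by simp) (by simp)⟩

theorem q46 (a b : J) : ∃ s, C.NF e (cj (C.x4 e b) (C.x6 a)⁻¹) 0 0 b s := by
  obtain ⟨s, h⟩ := C.ex5 S he (W_self (U := U) 5 ▸ Wle (S.toMP.commZ (C.mem4 S he b) (inv_mem (C.mem6 a))))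
  exact ⟨s, by rw [cj_eq, h]; exact ((C.nf4 e b).mul S he (C.nf5 e s)).cg (by simp) (by simp) (by simp) (by simp)⟩

/-- the adjoint -/
noncomputable def sh (a : J) : J := (C.q16 S he a).choose
/-- the norm -/
noncomputable def N (a : J) : F := (C.q16 S he a).choose_spec.choose
/-- the product -/
noncomputable def Xf (a b : J) : J := (C.q26 S he a b).choose
/-- a structure map -/
noncomputable def Lf (b a : J) : F := (C.q26 S he a b).choose_spec.choose
/-- the trace form -/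
noncomputable def Tf (b a : J) : F := (C.q46 S he a b).choose

theorem s16 (a : J) : C.NF e (cj (C.x1 1) (C.x6 a)⁻¹) 1 a (C.sh S he a) (C.N S he a) :=
  (C.q16 S he a).choose_spec.choose_spec
theorem s26 (a b : J) : C.NF e (cj (C.x2 b) (C.x6 a)⁻¹) 0 b (C.Xf S he a b) (C.Lf S he b a) :=
  (C.q26 S he a b).choose_spec.choose_spec
theorem s46 (a b : J) : C.NF e (cj (C.x4 e b) (C.x6 a)⁻¹) 0 0 b (C.Tf S he b a) := (C.q46 S he a b).choose_spec

variable {C}

theorem NF.ac {g : G} {α β : F} (A : C.Ac e g α β) (h : C.NF e y t a c s) :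
    C.NF e (cj y g) (β * t) ((α * β) • a) ((α ^ 2 * β) • c) (α ^ 3 * β * s) := by
  obtain ⟨u, hu, rfl⟩ := h
  exact ⟨_, Ueq (A.tr.cj hu), by rw [cj_mul, cj_mul, cj_mul, cj_mul, A.a1, A.a2, A.a4' C S he, A.a5]⟩

variable (C)

theorem r16 (a : J) (t : F) : C.NF e (cj (C.x1 t) (C.x6 a)⁻¹) t (t • a) (t • C.sh S he a) (t * C.N S he a) := by
  rcases eq_or_ne t 0 with rfl | ht
  · simpa [x1_zero, one_cj] using C.nf3 e (one_mem _)
  obtain ⟨g, A⟩ := C.exA S he one_ne_zero ht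
  have := (C.s16 S he a).ac S he A
  rw [cjc, A.a1, cj_inv, A.a6] at this
  simpa using this

variable {C}

/-- conjugation by the last root group -/
theorem NF.sig (h : C.NF e y t c c' s) (a : J) : C.NF e (cj y (C.x6 a)⁻¹) t (c + t • a)
    (c' + C.Xf S he a c + t • C.sh S he a) (s + C.Tf S he c' a + C.Lf S he c a + t * C.N S he a) := by
  obtain ⟨u, hu, rfl⟩ := h
  rw [cj_mul, cj_mul, cj_mul, cj_mul, cj_eq_self.2 (c3 S hu (inv_mem (C.mem6 a))),
    cj_eq_self.2 (S.toMP.comm_succ (C.mem5 S he s) (Ueq (inv_mem (C.mem6 a))))]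
  exact (((((C.r16 S he a t).mul S he (C.s26 S he a c)).mul S he (C.s46 S he a c')).mul S he (C.nf5 e s)).mul S he
    (C.nf3 e hu)).cg (by simp) (by simp [add_comm]) (by simp; abel) (by ring)

/-- conjugation by the short reflection -/
theorem NF.psi (h : C.NF e y t c c' s) : C.NF e (cj y (C.n6 e)⁻¹) (-s) c' (-c) t := by
  obtain ⟨u, hu, rfl⟩ := h
  rw [cj_mul, cj_mul, cj_mul, cj_mul, ← x5, C.k2m S he, show cj (C.x4 e c') (C.n6 e)⁻¹ = C.x2 c' from cj_cj_inv _ _,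
    C.k5m S he]
  exact (((((C.nf5 e t).mul S he (C.nf4 e _)).mul S he (C.nf2 e _)).mul S he (C.nf1 e _)).mul S he
    (C.nf3 e (Ueq ((C.rn6 S he).inv.cj hu)))).cg (by simp) (by simp) (by simp) (by simp)

/-- conjugation by the root group `U 0` -/
theorem NF.tau (a : J) (h : C.NF e (cj y (C.x6 a)⁻¹) t c c' s) :
    C.NF e (cj (cj y (C.n6 e)⁻¹) (C.z0 e a)⁻¹) (-s) c' (-c) t := by
  rw [z0, ← cj_inv, ← cjc]
  exact h.psi S he

variable (C)

theorem sc16 {α : F} (hα : α ≠ 0) (a : J) : C.sh S he (α • a) = α ^ 2 • C.sh S he a ∧ C.N S he (α • a) = α ^ 3 * C.N S he a := by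
  obtain ⟨g, A⟩ := C.exA S he hα one_ne_zero
  have := (C.s16 S he a).ac S he A
  rw [cjc, A.a1, cj_inv, A.a6, mul_one] at this
  simpa using ((C.s16 S he (α • a)).uniq S he this).2.2

theorem sc26 {α β : F} (hα : α ≠ 0) (hβ : β ≠ 0) (a b : J) :
    C.Xf S he (α • a) (β • b) = (α * β) • C.Xf S he a b := by
  obtain ⟨g, A⟩ := C.exA S he hα (mul_ne_zero (inv_ne_zero hα) hβ)
  have := (C.s26 S he a b).ac S he A
  rw [cjc, A.a2, cj_inv, A.a6, mul_inv_cancel_left₀ hα] at this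
  rw [((C.s26 S he (α • a) (β • b)).uniq S he this).2.2.1]
  congr 1; field_simp

theorem sc46 {α β : F} (hα : α ≠ 0) (hβ : β ≠ 0) (a b : J) :
    C.Tf S he (β • b) (α • a) = α * β * C.Tf S he b a := by
  obtain ⟨g, A⟩ := C.exA S he hα (mul_ne_zero (inv_ne_zero (pow_ne_zero 2 hα)) hβ)
  have := (C.s46 S he a b).ac S he A
  rw [cjc, A.a4' C S he, cj_inv, A.a6, mul_inv_cancel_left₀ (pow_ne_zero 2 hα)] at this
  rw [((C.s46 S he (α • a) (β • b)).uniq S he this).2.2.2]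
  field_simp

theorem cj_add (y : G) (a a' : J) : cj y (C.x6 (a + a'))⁻¹ = cj (cj y (C.x6 a')⁻¹) (C.x6 a)⁻¹ := by
  rw [C.a6, mul_inv_rev, cj_cj]

theorem Xf_add (a b b' : J) : C.Xf S he a (b + b') = C.Xf S he a b + C.Xf S he a b' := by
  have := (C.s26 S he a b).mul S he (C.s26 S he a b')
  rw [← cj_mul, ← a2] at this
  exact ((C.s26 S he a _).uniq S he this).2.2.1

theorem Tf_add (a b b' : J) : C.Tf S he (b + b') a = C.Tf S he b a + C.Tf S he b' a := by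
  have := (C.s46 S he a b).mul S he (C.s46 S he a b')
  rw [← cj_mul, ← a4] at this
  exact ((C.s46 S he a _).uniq S he this).2.2.2

theorem Xf_zero (a : J) : C.Xf S he a 0 = 0 := by simpa using C.Xf_add S he a 0 0
theorem Tf_zero (a : J) : C.Tf S he 0 a = 0 := by simpa using C.Tf_add S he a 0 0
theorem Lf_zero (a : J) : C.Lf S he 0 a = 0 := by
  have := C.s26 S he a 0
  rw [x2_zero, one_cj] at this
  exact (this.uniq S he (C.nf3 e (one_mem _))).2.2.2

theorem add_Xf (a a' b : J) : C.Xf S he (a + a') b = C.Xf S he a b + C.Xf S he a' b := by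
  have := ((C.s26 S he (a + a') b).uniq S he (C.cj_add S he _ a a' ▸ (C.s26 S he a' b).sig S he a)).2.2.1
  rw [this, zero_smul, add_zero, add_comm]

theorem add_Tf (a a' b : J) : C.Tf S he b (a + a') = C.Tf S he b a + C.Tf S he b a' := by
  have := ((C.s46 S he (a + a') b).uniq S he (C.cj_add S he _ a a' ▸ (C.s46 S he a' b).sig S he a)).2.2.2
  rw [this, Lf_zero]; ring

theorem add16 (a a' : J) : C.sh S he (a + a') = C.sh S he a + C.sh S he a' + C.Xf S he a a' ∧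
    C.N S he (a + a') = C.N S he a + C.N S he a' + C.Lf S he a' a + C.Tf S he (C.sh S he a') a := by
  have := ((C.s16 S he (a + a')).uniq S he (C.cj_add S he _ a a' ▸ (C.s16 S he a').sig S he a)).2.2
  exact ⟨by rw [this.1, one_smul]; abel, by rw [this.2]; ring⟩

theorem zero16 : C.sh S he 0 = 0 ∧ C.N S he 0 = 0 := by
  have := C.s16 S he 0
  rw [x6_zero, inv_one, cj_one] at this
  exact (this.uniq S he (C.nf1 e 1)).2.2

/-- the product -/
noncomputable def X : J →ₗ[F] J →ₗ[F] J := LinearMap.mk₂ F (C.Xf S he) (C.add_Xf S he)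
  (fun t a b => by
    rcases eq_or_ne t 0 with rfl | ht
    · simpa using C.add_Xf S he 0 0 b
    · simpa using C.sc26 S he ht one_ne_zero a b)
  (C.Xf_add S he)
  (fun t a b => by
    rcases eq_or_ne t 0 with rfl | ht
    · simpa using C.Xf_zero S he a
    · simpa using C.sc26 S he one_ne_zero ht a b)

/-- the trace form -/
noncomputable def T : J →ₗ[F] J →ₗ[F] F := LinearMap.mk₂ F (C.Tf S he) (fun b b' a => C.Tf_add S he a b b')
  (fun t b a => by
    rcases eq_or_ne t 0 with rfl | ht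
    · simpa using C.Tf_zero S he a
    · simpa using C.sc46 S he one_ne_zero ht a b)
  (fun b a a' => C.add_Tf S he a a' b)
  (fun t b a => by
    rcases eq_or_ne t 0 with rfl | ht
    · simpa using C.add_Tf S he 0 0 b
    · simpa using C.sc46 S he ht one_ne_zero a b)

theorem X_eq (a b : J) : C.Xf S he a b = C.X S he a b := rfl
theorem T_eq (a b : J) : C.Tf S he a b = C.T S he a b := rfl

theorem sh_smul (t : F) (a : J) : C.sh S he (t • a) = t ^ 2 • C.sh S he a := by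
  rcases eq_or_ne t 0 with rfl | ht
  · simpa using (C.zero16 S he).1
  · exact (C.sc16 S he ht a).1

theorem N_smul (t : F) (a : J) : C.N S he (t • a) = t ^ 3 * C.N S he a := by
  rcases eq_or_ne t 0 with rfl | ht
  · simpa using (C.zero16 S he).2
  · exact (C.sc16 S he ht a).2

theorem sh_neg (a : J) : C.sh S he (-a) = C.sh S he a := by simpa using C.sh_smul S he (-1) a
theorem N_neg (a : J) : C.N S he (-a) = -C.N S he a := by
  rw [← neg_one_smul F a, N_smul]; ring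

end CL.FS.Hx.Co
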