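/-
S1144, hexagons: finite anisotropic cubic norm structures are fields.
-/
import Cfsg.Agent.CHEV.FS.HDef

set_option autoImplicit false
set_option linter.unusedSectionVars false

namespace CL.FS.Hx

universe u

/-- polynomial functions of bounded degree -/
def Dg {F : Type*} [Field F] (d : ℕ) (f : (Fin 4 → F) → F) : Prop :=
  ∃ P : MvPolynomial (Fin 4) F, P.totalDegree ≤ d ∧ ∀ t, f t = MvPolynomial.eval t P

namespace Dg
variable {F : Type*} [Field F] {d d' : ℕ} {f g : (Fin 4 → F) → F}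

theorem const (d : ℕ) (c : F) : Dg d fun _ => c := ⟨MvPolynomial.C c, by simp, by simp⟩

theorem add (hf : Dg d f) (hg : Dg d g) : Dg d fun t => f t + g t :=
  have ⟨P, a, b⟩ := hf
  have ⟨Q, a', b'⟩ := hg
  ⟨P + Q, (MvPolynomial.totalDegree_add P Q).trans (max_le a a'), fun t => by rw [map_add, ← b, ← b']⟩

theorem mul (i : Fin 4) (hf : Dg d f) : Dg (d + 1) fun t => t i * f t :=
  have ⟨P, a, b⟩ := hf
  ⟨MvPolynomial.X i * P, (MvPolynomial.totalDegree_mul _ P).trans (by rw [MvPolynomial.totalDegree_X]; omega),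
    fun t => by rw [map_mul, MvPolynomial.eval_X, ← b]⟩

theorem congr (hf : Dg d f) (e : ∀ t, g t = f t) : Dg d g := funext e ▸ hf

end Dg

/-- the cubic algebra with `a a = b + t a - s`, `a b = n`, `b b = n a + s b - n t` -/
@[ext] structure K3 {F : Type u} (t s n : F) : Type u where
  x : F
  y : F
  z : F

namespace K3
variable {F : Type u} [Field F] {t s n : F}

instance : Zero (K3 t s n) := ⟨⟨0, 0, 0⟩⟩
instance : One (K3 t s n) := ⟨⟨1, 0, 0⟩⟩
instance : Add (K3 t s n) := ⟨fun c d => ⟨c.x + d.x, c.y + d.y, c.z + d.z⟩⟩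
instance : Neg (K3 t s n) := ⟨fun c => ⟨-c.x, -c.y, -c.z⟩⟩
instance : Mul (K3 t s n) := ⟨fun c d =>
  ⟨c.x * d.x - s * (c.y * d.y) + n * (c.y * d.z + c.z * d.y) - n * t * (c.z * d.z),
    c.x * d.y + c.y * d.x + t * (c.y * d.y) + n * (c.z * d.z),
    c.x * d.z + c.z * d.x + c.y * d.y + s * (c.z * d.z)⟩⟩

/-- the adjoint -/
def sh (c : K3 t s n) : K3 t s n :=
  ⟨c.x ^ 2 + t * (c.x * c.y) + s * (c.x * c.z) + (t * s - n) * (c.y * c.z),
    n * c.z ^ 2 - c.x * c.y - s * (c.y * c.z), c.y ^ 2 - c.x * c.z - t * (c.y * c.z)⟩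

/-- the norm -/
def nm (c : K3 t s n) : F := (c * c.sh).x

instance : Inv (K3 t s n) := ⟨fun c => ⟨c.nm⁻¹ * c.sh.x, c.nm⁻¹ * c.sh.y, c.nm⁻¹ * c.sh.z⟩⟩

theorem add_def (c d : K3 t s n) : c + d = ⟨c.x + d.x, c.y + d.y, c.z + d.z⟩ := rfl
theorem neg_def (c : K3 t s n) : -c = ⟨-c.x, -c.y, -c.z⟩ := rfl
theorem zero_def : (0 : K3 t s n) = ⟨0, 0, 0⟩ := rfl
theorem one_def : (1 : K3 t s n) = ⟨1, 0, 0⟩ := rfl
theorem mul_def (c d : K3 t s n) : c * d =
    ⟨c.x * d.x - s * (c.y * d.y) + n * (c.y * d.z + c.z * d.y) - n * t * (c.z * d.z),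
    c.x * d.y + c.y * d.x + t * (c.y * d.y) + n * (c.z * d.z),
    c.x * d.z + c.z * d.x + c.y * d.y + s * (c.z * d.z)⟩ := rfl
theorem inv_def (c : K3 t s n) : c⁻¹ = ⟨c.nm⁻¹ * c.sh.x, c.nm⁻¹ * c.sh.y, c.nm⁻¹ * c.sh.z⟩ := rfl

theorem sh_sh (c : K3 t s n) : c.sh.sh = ⟨c.nm * c.x, c.nm * c.y, c.nm * c.z⟩ := by
  ext <;> simp only [sh, nm, mul_def] <;> ring

theorem mul_inv (c : K3 t s n) (h : c.nm ≠ 0) : c * c⁻¹ = 1 := by
  have e : c * c⁻¹ = ⟨c.nm⁻¹ * c.nm, 0, 0⟩ := by
    rw [inv_def]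
    generalize c.nm⁻¹ = r
    ext <;> simp only [sh, nm, mul_def] <;> ring
  rw [e, inv_mul_cancel₀ h]; rfl

variable [hf : Fact (∀ c : K3 t s n, c ≠ 0 → c.nm ≠ 0)]

instance : Field (K3 t s n) :=
  Field.ofMinimalAxioms _ (fun _ _ _ => by ext <;> simp only [add_def] <;> ring)
    (fun _ => by ext <;> simp only [add_def, zero_def] <;> ring)
    (fun _ => by ext <;> simp only [add_def, zero_def, neg_def] <;> ring)
    (fun _ _ _ => by ext <;> simp only [mul_def] <;> ring) (fun _ _ => by ext <;> simp only [mul_def] <;> ring)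
    (fun _ => by ext <;> simp only [mul_def, one_def] <;> ring) (fun c h => mul_inv c (hf.out c h))
    (by ext <;> simp [inv_def, zero_def, sh]) (fun _ _ _ => by ext <;> simp only [mul_def, add_def] <;> ring)
    ⟨0, 1, fun e => zero_ne_one (congrArg x e)⟩

instance : Algebra F (K3 t s n) := RingHom.toAlgebra
  { toFun := fun r => ⟨r, 0, 0⟩
    map_one' := rfl
    map_zero' := rfl
    map_mul' := fun _ _ => by ext <;> simp [mul_def]
    map_add' := fun _ _ => by ext <;> simp [add_def] }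

theorem smul_def (r : F) (c : K3 t s n) : r • c = ⟨r * c.x, r * c.y, r * c.z⟩ := by
  show (⟨r, 0, 0⟩ : K3 t s n) * c = _
  ext <;> simp [mul_def]

omit hf in
theorem card : Nat.card (K3 t s n) = Nat.card F ^ 3 := by
  rw [Nat.card_congr (⟨fun c => (c.x, c.y, c.z), fun c => ⟨c.1, c.2.1, c.2.2⟩, fun _ => rfl, fun _ => rfl⟩ :
    K3 t s n ≃ F × F × F), Nat.card_prod, Nat.card_prod]
  ring

end K3

end CL.FS.Hx

namespace CL.FS.Hx.CN

universe u

variable {F : Type u} {J : Type*} [Field F] [AddCommGroup J] [Module F J] (C : CN F J)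

/-- `sh_add` is symmetric -/
theorem X_comm (a b : J) : C.X a b = C.X b a := by
  have e := C.sh_add b a
  rw [add_comm b, C.sh_add, add_comm (C.sh b)] at e
  exact add_left_cancel e
/-- `sh (a + a) = sh (2 • a)` -/
theorem X_self (a : J) : C.X a a = (2 : F) • C.sh a := by
  have e := C.sh_add a a
  rw [← two_smul F a, C.sh_smul] at e
  rw [← sub_eq_iff_eq_add'.2 e]; module
/-- Put `A x y = T x y - T y x`.  `N_add a b`, `N_add b a` give `A (sh b) a = - A b (sh a)`, which is additive in `b`, so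
`A (X b c) a = 0` (`sh_add`).  With `a = e`, `c = e` (`X_e`, `sh_e`): `A b e = 0`.  Finally `b = T b e • e - X e b`. -/
theorem T_comm (a b : J) : C.T a b = C.T b a := by
  have k : ∀ a b, C.T (C.sh b) a - C.T a (C.sh b) = C.T (C.sh a) b - C.T b (C.sh a) := fun a b => by
    have e := C.N_add a b
    rw [add_comm a, C.N_add] at e
    linear_combination -e
  have k2 : ∀ a b, C.T (C.X C.e b) a = C.T a (C.X C.e b) := fun a b => by
    have e := k a (C.e + b)
    simp only [C.sh_add, map_add, LinearMap.add_apply] at e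
    linear_combination e - k a C.e - k a b
  have k3 : ∀ a b, C.T b C.e * (C.T C.e a - C.T a C.e) = C.T b a - C.T a b := fun a b => by
    have e := k2 a b
    simp only [C.X_e, map_sub, map_smul, LinearMap.sub_apply, LinearMap.smul_apply, smul_eq_mul] at e
    linear_combination e
  linear_combination k3 a b - C.T b C.e * k3 C.e a
/-- expand `N ((a + b) + c) = N (a + (b + c))` -/
theorem T_X (a b c : J) : C.T (C.X a b) c = C.T a (C.X b c) := by
  have e : C.N (a + b + c) = C.N (a + (b + c)) := by rw [add_assoc]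
  rw [C.N_add, C.N_add, C.N_add a, C.N_add] at e
  simp only [C.sh_add, map_add, LinearMap.add_apply] at e
  rw [C.T_comm _ c, C.T_comm a]
  linear_combination e
theorem N_zero : C.N 0 = 0 := by simpa using C.N_smul 0 0
theorem sh_zero : C.sh 0 = 0 := by simpa using C.sh_smul 0 0
theorem e_ne : C.e ≠ 0 := fun e => one_ne_zero (by rw [← C.N_e, e, C.N_zero])
/-- `X_X a a`, `X_self`, `sh_sh` -/
theorem T_sh (a : J) : C.T a (C.sh a) = 3 * C.N a := by
  by_cases h : a = 0
  · simp [h, C.N_zero]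
  have e := C.X_X a a
  rw [C.X_self, map_smul, C.X_self, C.sh_sh] at e
  have : (C.T a (C.sh a) - 3 * C.N a) • a = 0 := by
    rw [sub_smul, ← sub_eq_iff_eq_add'.2 e]; module
  exact sub_eq_zero.1 ((smul_eq_zero.1 this).resolve_right h)
/-- If `sh a = α a + β e` then `a' = a + α e` has `sh a' ∈ F e` (`X_e`), so `N a' • a' = sh (sh a') ∈ F e`. -/
theorem indep {a : J} (ha : ∀ t : F, a ≠ t • C.e) : LinearIndependent F ![C.e, a, C.sh a] := by
  have k : ∀ x y : F, x • C.e + y • a = 0 → y = 0 := fun x y e => by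
    by_contra y0
    exact ha (-(y⁻¹ * x)) (by
      rw [← one_smul F a, ← inv_mul_cancel₀ y0, mul_smul, eq_neg_of_add_eq_zero_right e]; module)
  refine Fintype.linearIndependent_iff.2 fun g e => ?_
  rw [Fin.sum_univ_three] at e
  change g 0 • C.e + g 1 • a + g 2 • C.sh a = 0 at e
  have g2 : g 2 = 0 := by
    by_contra z0
    have e1 : C.sh a = -((g 2)⁻¹ * g 0) • C.e + -((g 2)⁻¹ * g 1) • a := by
      rw [← one_smul F (C.sh a), ← inv_mul_cancel₀ z0, mul_smul, eq_neg_of_add_eq_zero_right e]; module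
    generalize -((g 2)⁻¹ * g 0) = β, -((g 2)⁻¹ * g 1) = α at e1
    have e2 : C.sh (α • C.e + a) = (α ^ 2 + β + α * C.T a C.e) • C.e := by
      rw [C.sh_add, C.sh_smul, C.sh_e, e1, map_smul, LinearMap.smul_apply, C.X_e]; module
    have e3 := C.sh_sh (α • C.e + a)
    rw [e2, C.sh_smul, C.sh_e] at e3
    refine C.N_ne (α • C.e + a) (fun e => one_ne_zero (k α 1 (by rwa [one_smul])))
      (k (C.N (α • C.e + a) * α - (α ^ 2 + β + α * C.T a C.e) ^ 2) _ ?_)
    rw [sub_smul, e3]; module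
  rw [g2, zero_smul, add_zero] at e
  have g1 := k _ _ e
  rw [g1, zero_smul, add_zero] at e
  intro i
  fin_cases i
  exacts [(smul_eq_zero.1 e).resolve_right C.e_ne, g1, g2]
include C in
/-- Chevalley-Warning (`char_dvd_card_solutions`): for `b : Fin 4 → J` the function `t ↦ N (∑ tᵢ bᵢ)` is the evaluation of an
`MvPolynomial (Fin 4) F` of total degree `≤ 3` (add one term `tᵢ • bᵢ` at a time; simultaneously `φ (v t)` has degree `≤ 1` and
`φ (sh (v t))` degree `≤ 2` for every linear form `φ`).  If `b` is independent, `t = 0` is the only zero (`N_ne`), so `p ∣ 1`. -/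
theorem not_indep [Finite F] (b : Fin 4 → J) : ¬ LinearIndependent F b := fun hb => by
  classical
  have key : ∀ s : Finset (Fin 4), (∀ φ : J →ₗ[F] F, Dg 1 fun t => φ (∑ i ∈ s, t i • b i)) ∧
      (∀ φ : J →ₗ[F] F, Dg 2 fun t => φ (C.sh (∑ i ∈ s, t i • b i))) ∧ Dg 3 fun t => C.N (∑ i ∈ s, t i • b i) := by
    intro s
    induction s using Finset.induction_on with
    | empty => simp only [Finset.sum_empty]; exact ⟨fun φ => Dg.const _ _, fun φ => Dg.const _ _, Dg.const _ _⟩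
    | insert i s hi ih =>
      obtain ⟨h1, h2, h3⟩ := ih
      refine ⟨fun φ => (((Dg.const 0 (φ (b i))).mul i).add (h1 φ)).congr fun t => ?_,
        fun φ => (((((Dg.const 0 (φ (C.sh (b i)))).mul i).mul i).add (h2 φ)).add
          ((h1 (φ.comp (C.X (b i)))).mul i)).congr fun t => ?_,
        (((((((Dg.const 0 (C.N (b i))).mul i).mul i).mul i).add h3).add
          (((h1 (C.T.flip (C.sh (b i)))).mul i).mul i)).add ((h2 (C.T.flip (b i))).mul i)).congr fun t => ?_⟩ <;>
        rw [Finset.sum_insert hi] <;> generalize ∑ i ∈ s, t i • b i = v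
      · simp
      · simp [C.sh_add, C.sh_smul, pow_two, mul_assoc]
      · simp [C.N_add, C.N_smul, C.sh_smul, pow_succ, mul_assoc]
  obtain ⟨P, hP, e⟩ := (key Finset.univ).2.2
  have := Fintype.ofFinite F
  obtain ⟨p, hp⟩ := CharP.exists F
  have d := char_dvd_card_solutions p (f := P) (by rw [Fintype.card_fin]; omega)
  rw [Fintype.card_eq_one_iff.2 ⟨⟨(0 : Fin 4 → F), by rw [← e]; simp [C.N_zero]⟩, fun t => Subtype.ext (funext
    (Fintype.linearIndependent_iff.1 hb t (by_contra fun n => C.N_ne _ n ((e t).trans t.2))))⟩] at d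
  exact CharP.char_ne_one F p (Nat.dvd_one.1 d)

theorem Xab (a : J) : C.X a (C.sh a) =
    (C.T a C.e * C.T (C.sh a) C.e - C.N a) • C.e - C.T (C.sh a) C.e • a - C.T a C.e • C.sh a := by
  have e := C.X_X a C.e
  rw [C.X_comm a, C.X_e, map_sub, map_smul, C.X_comm _ C.e, C.X_e, C.T_comm C.e, C.X_comm _ a, sub_eq_iff_eq_add'] at e
  rw [← sub_eq_iff_eq_add.2 e.symm.symm]
  module

theorem Taa (a : J) : C.T a a = C.T a C.e ^ 2 - 2 * C.T (C.sh a) C.e := by
  have e := C.T_X C.e a a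
  simp only [C.X_e, C.X_self, map_sub, map_smul, LinearMap.sub_apply, LinearMap.smul_apply, smul_eq_mul,
    C.T_comm C.e] at e
  linear_combination -e

theorem Tbb (a : J) : C.T (C.sh a) (C.sh a) = C.T (C.sh a) C.e ^ 2 - 2 * C.N a * C.T a C.e := by
  rw [C.Taa, C.sh_sh, map_smul, LinearMap.smul_apply, smul_eq_mul, mul_assoc]

/-- coordinates -/
def th (a : J) (c : K3 (C.T a C.e) (C.T (C.sh a) C.e) (C.N a)) : J := c.x • C.e + c.y • a + c.z • C.sh a

theorem sh_th (a : J) (c : K3 (C.T a C.e) (C.T (C.sh a) C.e) (C.N a)) : C.sh (C.th a c) = C.th a c.sh := by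
  simp only [th, K3.sh, C.sh_add, C.sh_smul, C.sh_e, C.sh_sh, map_add, map_smul, LinearMap.add_apply,
    LinearMap.smul_apply, C.X_e, C.Xab]
  module

/-- If `J = F e` take `E = F`, `θ t = t • e` (`T e e = 3`, `X e e = 2 e`).  Otherwise `e, a, b = sh a` is a basis (`indep`, `not_indep`).
With `t = T a e`, `s = T b e`, `n = N a`: `X e e = 2 e`, `X e a = t e - a`, `X e b = s e - b`, `X a a = 2 b`, `X b b = 2 n a`,
`X a b = (t s - n) e - s a - t b` (`X_X a e`), `T e e = 3`, `T a a = t² - 2 s`, `T b b = s² - 2 n t` (`T_X` with `X e a`), `T a b = 3 n`.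
`E` = a structure with three coordinates and the commutative product `a a = b + t a - s`, `a b = n`, `b b = n a + s b - n t` (ring axioms by
`ext; ring`).  In coordinates `sh (θ c) = θ (c^♯)` with `c^♯` quadratic, `c c^♯ = ν(c)`, `(c^♯)^♯ = ν(c) c` (polynomial identities), so
`ν(c) = N (θ c) ≠ 0` for `c ≠ 0` (`sh_sh`) and `E` is a field with `c⁻¹ = ν(c)⁻¹ c^♯` (`IsField.toField`, or define `inv`).  The last
formula is a polynomial identity in the six coordinates. -/
theorem exists_field [Finite F] : ∃ (E : Type u) (_ : Field E) (_ : Algebra F E) (θ : E ≃ₗ[F] J),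
    (Nat.card E = Nat.card F ∨ Nat.card E = Nat.card F ^ 3) ∧ θ 1 = C.e ∧
    (∀ c, θ c⁻¹ = (C.N (θ c))⁻¹ • C.sh (θ c)) ∧
    ∀ c b, θ (c ^ 2 * b) = C.T (θ b) (θ c) • θ c - C.X (C.sh (θ c)) (θ b) := by
  have Tee : C.T C.e C.e = 3 := by have := C.T_sh C.e; rwa [C.sh_e, C.N_e, mul_one] at this
  have Xee : C.X C.e C.e = (2 : F) • C.e := by rw [C.X_self, C.sh_e]
  by_cases hJ : ∀ a, ∃ t : F, a = t • C.e
  · let θ : F ≃ₗ[F] J := LinearEquiv.ofBijective (LinearMap.toSpanSingleton F J C.e)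
      ⟨fun x y e => smul_left_injective F C.e_ne e, fun a => (hJ a).imp fun _ e => e.symm⟩
    have hθ : ∀ c, θ c = c • C.e := fun _ => rfl
    refine ⟨F, inferInstance, inferInstance, θ, Or.inl rfl, one_smul _ _, fun c => ?_, fun c b => ?_⟩
    · rw [hθ, hθ, C.N_smul, C.sh_smul, C.N_e, C.sh_e, smul_smul]
      congr 1
      by_cases c0 : c = 0
      · simp [c0]
      · field_simp
    · simp only [hθ, C.sh_smul, C.sh_e, map_smul, LinearMap.smul_apply, Tee, Xee, smul_eq_mul]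
      module
  push Not at hJ
  obtain ⟨a, ha⟩ := hJ
  have hi := C.indep ha
  have sur : ∀ v, ∃ g : Fin 3 → F, g 0 • C.e + g 1 • a + g 2 • C.sh a = v := fun v => by
    have := C.not_indep (Fin.cons v ![C.e, a, C.sh a])
    rw [linearIndependent_finCons, not_and, not_not] at this
    obtain ⟨g, e⟩ := (Submodule.mem_span_range_iff_exists_fun F).1 (this hi)
    exact ⟨g, by rw [← e, Fin.sum_univ_three]; rfl⟩
  have inj : ∀ c, C.th a c = 0 → c = 0 := fun c e => by
    have := Fintype.linearIndependent_iff.1 hi ![c.x, c.y, c.z] (by rw [Fin.sum_univ_three]; exact e)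
    exact K3.ext (this 0) (this 1) (this 2)
  have nm : ∀ c, C.th a c ≠ 0 → c.nm = C.N (C.th a c) := fun c h => smul_left_injective F h (by
    show c.nm • C.th a c = C.N (C.th a c) • C.th a c
    rw [← C.sh_sh, C.sh_th, C.sh_th, K3.sh_sh]
    simp only [th]; module)
  have : Fact (∀ c : K3 (C.T a C.e) (C.T (C.sh a) C.e) (C.N a), c ≠ 0 → c.nm ≠ 0) :=
    ⟨fun c h => by rw [nm c (mt (inj c) h)]; exact C.N_ne _ (mt (inj c) h)⟩
  let θ0 : K3 (C.T a C.e) (C.T (C.sh a) C.e) (C.N a) →ₗ[F] J :=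
    { toFun := C.th a
      map_add' := fun c d => by simp only [th, K3.add_def]; module
      map_smul' := fun r c => by simp only [th, K3.smul_def, RingHom.id_apply]; module }
  let θ := LinearEquiv.ofBijective θ0 ⟨(injective_iff_map_eq_zero θ0).2 inj, fun v =>
    have ⟨g, e⟩ := sur v
    ⟨⟨g 0, g 1, g 2⟩, e⟩⟩
  have hθ : ∀ c, θ c = C.th a c := fun _ => rfl
  refine ⟨_, inferInstance, inferInstance, θ, Or.inr K3.card, by simp [hθ, th, K3.one_def], fun c => ?_,
    fun c b => ?_⟩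
  · by_cases c0 : c = 0
    · rw [c0, inv_zero, map_zero, C.sh_zero, smul_zero]
    · rw [hθ, hθ, ← nm c (mt (inj c) c0), C.sh_th, K3.inv_def]
      simp only [th]; module
  · rw [hθ, hθ, hθ, C.sh_th, pow_two]
    simp only [th, K3.mul_def, K3.sh, map_add, map_smul, LinearMap.add_apply, LinearMap.smul_apply, smul_eq_mul,
      Tee, C.T_comm C.e a, C.T_comm C.e (C.sh a), C.Taa, C.T_sh, C.T_comm (C.sh a) a, Xee, C.X_self,
      C.sh_sh, C.X_e a, C.X_e (C.sh a), C.X_comm a C.e, C.X_comm (C.sh a) C.e, C.X_comm (C.sh a) a, C.Xab]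
    module

end CL.FS.Hx.CN
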