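/-
S1144, hexagons: the cubic norm structure and the field of the short roots.
-/
import Cfsg.Agent.CHEV.FS.H5
import Cfsg.Agent.CHEV.FS.H3b

set_option autoImplicit false
set_option linter.unusedSectionVars false

namespace CL.FS.Hx

universe u

variable {G : Type*} [Group G] {p : ℕ} {U : ℤ → Subgroup G}

namespace Co

variable {F J : Type*} [Field F] [AddCommGroup J] [Module F J] (C : Co U F J) {e : J} (S : Sh p U) (he : e ≠ 0)
include S he

theorem mu_eq {a : J} (ha : a ≠ 0) : ∃ a', cj (C.x6 a) (C.n6 a) = C.z0 e a' ∧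
    ∀ y, cj (cj y (C.z0 e (-a'))⁻¹) (C.x6 (-a))⁻¹ = cj (cj y (C.n6 a)) (C.z0 e a')⁻¹ := by
  obtain ⟨a', h⟩ := C.ex0 S he (Ueq ((C.rn6 S ha).cj (C.mem6 a)))
  refine ⟨a', h, fun y => ?_⟩
  rw [z0_neg, x6_neg, inv_inv, inv_inv, (C.inv6 S he ha).2.1, h, cj_cj, cj_cj, mul_inv_cancel_right]

theorem muA {a a' : J} (ha : a ≠ 0)
    (h : ∀ y, cj (cj y (C.z0 e (-a'))⁻¹) (C.x6 (-a))⁻¹ = cj (cj y (C.n6 a)) (C.z0 e a')⁻¹) :
    (∀ t, cj (C.x1 t) (C.n6 a) = C.x5 e (-(C.N S he a * t))) ∧ C.N S he a * C.N S he a' = 1 ∧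
      a = C.N S he a • C.sh S he a' ∧ C.sh S he a = C.N S he a • a' := by
  have key : ∀ t, ∃ s, cj (C.x1 t) (C.n6 a) = C.x5 e s ∧ t = -(s * C.N S he a') ∧ t • -a = s • C.sh S he a' ∧
      t • C.sh S he (-a) = -(s • a') ∧ t * C.N S he (-a) = s := fun t => by
    obtain ⟨s, hs⟩ := C.ex5 S he (Ueq ((C.rn6 S ha).cj (C.mem1 t)))
    have h1 := h (C.x1 t)
    rw [hs, cj_eq_self.2 (S.toMP.comm_succ (inv_mem (C.mem0 S he _)) (Ueq (C.mem1 t))).symm] at h1
    exact ⟨s, hs, (h1 ▸ C.r16 S he (-a) t).uniq S he ((C.r16 S he a' s).tau S he a')⟩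
  refine ⟨fun t => ?_, ?_⟩
  · obtain ⟨s, h1, -, -, -, rfl⟩ := key t
    rw [h1, N_neg]; congr 1; ring
  · obtain ⟨s, -, h1, h2, h3, rfl⟩ := key 1
    rw [N_neg] at h1 h2 h3
    rw [sh_neg] at h3
    exact ⟨by linear_combination -h1, by simpa using h2, by simpa using h3⟩

theorem muB {a a' : J} (ha : a ≠ 0)
    (h : ∀ y, cj (cj y (C.z0 e (-a'))⁻¹) (C.x6 (-a))⁻¹ = cj (cj y (C.n6 a)) (C.z0 e a')⁻¹) (b : J) :
    cj (C.x2 b) (C.n6 a) = C.x4 e (C.T S he b a' • C.sh S he a - C.X S he a b) ∧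
      b - C.T S he b a' • a = -C.X S he a' (C.T S he b a' • C.sh S he a - C.X S he a b) ∧
      C.Lf S he b (-a) = C.T S he b a' * C.N S he a := by
  obtain ⟨M, hM⟩ := C.ex4 S he (Ueq ((C.rn6 S ha).cj (C.mem2 b)))
  have h1 := ((C.s46 S he (-a') b).tau S he _).sig S he (-a)
  have h2 := (C.s26 S he a' (-M)).tau S he _
  rw [show cj (C.x4 e b) (C.n6 e)⁻¹ = C.x2 b from cj_cj_inv _ _, h, hM] at h1
  rw [C.k2m S he, neg_neg] at h2
  obtain ⟨-, e2, e3, e4⟩ := h1.uniq S he h2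
  simp only [X_eq, T_eq, sh_neg, N_neg, map_neg, neg_neg, neg_zero, map_zero, LinearMap.zero_apply, zero_add,
    LinearMap.neg_apply] at e2 e3 e4
  obtain rfl : M = C.T S he b a' • C.sh S he a - C.X S he a b := by rw [← e3]; abel
  exact ⟨hM, by rw [← e2, smul_neg, sub_eq_add_neg], by linear_combination e4⟩

theorem all6 {a : J} (ha : a ≠ 0) : C.N S he a ≠ 0 ∧ C.sh S he (C.sh S he a) = C.N S he a • a ∧
    cj (C.x6 a) (C.n6 a) = C.z0 e ((C.N S he a)⁻¹ • C.sh S he a) ∧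
    (∀ t, cj (C.x1 t) (C.n6 a) = C.x5 e (-(C.N S he a * t))) ∧ ∀ b,
    cj (C.x2 b) (C.n6 a) = C.x4 e (((C.N S he a)⁻¹ * C.T S he b (C.sh S he a)) • C.sh S he a - C.X S he a b) ∧
    C.X S he (C.sh S he a) (C.X S he a b) = C.N S he a • b + C.T S he b (C.sh S he a) • a ∧
    C.Lf S he b (-a) = C.T S he b (C.sh S he a) := by
  obtain ⟨a', h0, h⟩ := C.mu_eq S he ha
  obtain ⟨h1, h2, h3, h4⟩ := C.muA S he ha h
  have hn : C.N S he a ≠ 0 := left_ne_zero_of_mul_eq_one h2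
  have h5 : C.sh S he (C.sh S he a) = C.N S he a • a := by
    rw [h4, sh_smul, sq, mul_smul, ← h3]
  have h6 : C.X S he (C.sh S he a) (C.sh S he a) = (2 * C.N S he a) • a := by
    have := (C.add16 S he (C.sh S he a) (C.sh S he a)).1
    rw [← two_smul F, sh_smul, h5, X_eq] at this
    linear_combination (norm := module) -this
  obtain rfl : a' = (C.N S he a)⁻¹ • C.sh S he a := by rw [h4, smul_smul, inv_mul_cancel₀ hn, one_smul]
  refine ⟨hn, h5, h0, h1, fun b => ?_⟩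
  obtain ⟨e1, e2, e3⟩ := C.muB S he ha h b
  simp only [map_smul, map_sub, smul_eq_mul, LinearMap.smul_apply, h6] at e1 e2 e3
  refine ⟨e1, ?_, by rw [e3]; field_simp⟩
  have := congrArg (C.N S he a • ·) e2
  simp only [smul_sub, smul_neg, smul_smul, mul_inv_cancel_left₀ hn, mul_inv_cancel₀ hn, one_smul] at this
  rw [show C.N S he a * ((C.N S he a)⁻¹ * C.T S he b (C.sh S he a) * ((C.N S he a)⁻¹ * (2 * C.N S he a))) =
    2 * C.T S he b (C.sh S he a) by field_simp] at this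
  linear_combination (norm := module) -this

theorem N_e : C.N S he e = 1 := by
  have := C.inj5 e (((C.all6 S he he).2.2.2.1 1).symm.trans (C.k1 S he 1))
  simpa using this

theorem sh_e : C.sh S he e = e := by
  have := (C.all6 S he he).2.2.1
  rw [← (C.inv6 S he he).2.2 _ (C.mem6 e), N_e, inv_one, one_smul] at this
  exact (C.p6.inj (cj_inj.1 this)).symm

/-- the cubic norm structure -/
noncomputable def cn : CN F J where
  e := e
  sh := C.sh S he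
  N := C.N S he
  X := C.X S he
  T := C.T S he
  sh_smul := C.sh_smul S he
  sh_add a b := (C.add16 S he a b).1
  N_smul := C.N_smul S he
  N_add a b := by
    rw [(C.add16 S he a b).2, T_eq]
    congr 2
    rcases eq_or_ne a 0 with rfl | ha
    · have := (C.add16 S he 0 b).2
      rw [zero_add, (C.zero16 S he).2, T_eq, map_zero] at this
      rw [(C.zero16 S he).1, map_zero]; linear_combination -this
    · have := ((C.all6 S he (neg_ne_zero.2 ha)).2.2.2.2 b).2.2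
      rwa [neg_neg, sh_neg] at this
  N_ne a ha := (C.all6 S he ha).1
  sh_sh a := by
    rcases eq_or_ne a 0 with rfl | ha
    · simp [(C.zero16 S he).1]
    · exact (C.all6 S he ha).2.1
  sh_e := C.sh_e S he
  N_e := C.N_e S he
  X_e b := by
    have := C.inj4 e ((C.all6 S he he).2.2.2.2 b).1
    rw [N_e, sh_e, inv_one, one_mul] at this
    linear_combination (norm := module) this
  X_X a b := by
    rcases eq_or_ne a 0 with rfl | ha
    · simp [(C.zero16 S he).2]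
    · exact ((C.all6 S he ha).2.2.2.2 b).2.1

theorem c66 {a : J} (ha : a ≠ 0) (b : J) : cj (C.x6 b) (C.n6 a) = cj (C.x6 ((C.N S he a)⁻¹ •
    (((C.N S he a)⁻¹ * C.T S he b (C.sh S he a)) • C.sh S he a - C.X S he a b))) (C.n6 e) := by
  obtain ⟨h1, -, -, h2, h3⟩ := C.all6 S he ha
  have t : Tr U 0 (C.n6 a * (C.n6 e)⁻¹) := by simpa using (C.rn6 S ha).mul (C.rn6 S he).inv
  rw [← C.q2 S t h1 (b := b) (by rw [← cj_cj, h2, C.k5m S he, neg_neg, mul_one]) (by rw [← cj_cj, (h3 b).1, x4, cj_cj_inv]),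
    cj_cj, inv_mul_cancel_right]

end Co

theorem Co.exists_fr [Finite G] (S : Sh p U) {F : Type u} {J : Type*} [Field F] [AddCommGroup J] [Module F J] (C : Co U F J) :
    ∃ (E : Type u) (_ : Field E) (_ : Algebra F E), (Nat.card E = Nat.card F ∨ Nat.card E = Nat.card F ^ 3) ∧
      Nonempty (Fr U E F) := by
  have : Finite F := Finite.of_injective _ C.p1.inj
  obtain ⟨e, he⟩ := C.exJ S
  obtain ⟨E, _, _, θ, hc, h1, h2, h3⟩ := (C.cn S he).exists_field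
  change θ 1 = e at h1
  change ∀ c, θ c⁻¹ = (C.N S he (θ c))⁻¹ • C.sh S he (θ c) at h2
  change ∀ c b, θ (c ^ 2 * b) = C.T S he (θ b) (θ c) • θ c - C.X S he (C.sh S he (θ c)) (θ b) at h3
  have ne : ∀ {c : E}, c ≠ 0 → θ c ≠ 0 := fun h => θ.map_ne_zero_iff.2 h
  have c66 : ∀ c : E, c ≠ 0 → ∀ b, cj (C.x6 (θ b)) (C.n6 (θ c)) = cj (C.x6 (θ (c⁻¹ ^ 2 * b))) (C.n6 e) := fun c hc b => by
    obtain ⟨hn, h4, -⟩ := C.all6 S he (ne hc)
    rw [C.c66 S he (ne hc), h3, h2, C.sh_smul, h4, smul_sub, smul_smul, smul_smul, smul_smul, map_smul, map_smul,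
      LinearMap.smul_apply, smul_eq_mul, mul_comm _ (C.N S he (θ c))⁻¹, show (C.N S he (θ c))⁻¹ ^ 2 * C.N S he (θ c) =
        (C.N S he (θ c))⁻¹ by field_simp]
  have k : ∀ c : E, c ≠ 0 → cj (C.x6 (θ c)) (C.n6 (θ c)) = cj (C.x6 (θ c⁻¹)) (C.n6 e) := fun c hc => by
    rw [c66 c hc, show c⁻¹ ^ 2 * c = c⁻¹ by field_simp]
  have n6 : ∀ c : E, c ≠ 0 → nu (fun c => C.x6 (θ c)) (C.n6 e) c = C.n6 (θ c) := fun c hc => by
    rw [(C.inv6 S he (ne hc)).2.1, k c hc, nu]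
  have n1 : ∀ s : F, s ≠ 0 → nu C.x1 C.m1 s = C.n1 s := fun s hs => (C.inv1 S he hs).2.symm
  refine ⟨E, _, _, hc, ⟨⟨C.x1, fun c => C.x6 (θ c), C.m1, C.n6 e, fun c => C.N S he (θ c), C.p1,
    ⟨fun g => (C.p6.mem g).trans θ.surjective.exists, C.p6.inj.comp θ.injective⟩, C.a1, fun s t => by rw [map_add, C.a6],
    fun s hs => (C.inv1 S he hs).1, fun c hc => k c hc ▸ (C.inv6 S he (ne hc)).1, ?_, ?_, fun s hs u => ?_, fun s hs b => ?_,
    fun c hc b => ?_, fun c hc t => ?_, ?_, fun t => ?_, fun β hβ => ?_⟩⟩⟩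
  · rw [n1 1 one_ne_zero, C.n1_one S]
  · rw [n6 1 one_ne_zero, h1]
  · rw [n1 s hs, C.c11 S hs]
  · rw [n1 s hs, C.k6 S hs, map_smul, Co.x2]
  · rw [n6 c hc, c66 c hc]
  · rw [n6 c hc, (C.all6 S he (ne hc)).2.2.2.1, C.k1 S he]
  · rw [map_neg, h1, C.N_neg, C.N_e]
  · rw [C.k1 S he, C.c15 S he, C.k1 S he]
  · obtain ⟨g, A⟩ := C.exA S he one_ne_zero hβ
    exact ⟨g, A.tr, fun b => by rw [A.a6, one_smul], A.a1⟩

end CL.FS.Hx
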