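/-
S1144, hexagons: the root datum `R2.Hex`.
-/
import Cfsg.Agent.CHEV.FS.HDef
import Cfsg.Agent.CHEV.FS.Bru
import Cfsg.Agent.INV.TW.Eng

set_option autoImplicit false
set_option linter.unusedSectionVars false
set_option maxHeartbeats 200000

namespace CL.FS.Hx

variable {G : Type*} [Group G] {p : ℕ} {U : ℤ → Subgroup G}

section One

variable {K : Type*} [Field K] {x : K → G} {m : G}

theorem H6.zero (ha : ∀ s t, x (s + t) = x s * x t) : x 0 = 1 := by simpa using ha 0 0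

theorem H6.neg (ha : ∀ s t, x (s + t) = x s * x t) (t : K) : x (-t) = (x t)⁻¹ := by
  rw [eq_inv_iff_mul_eq_one, ← ha, neg_add_cancel, H6.zero ha]

theorem H6.nu_neg (ha : ∀ s t, x (s + t) = x s * x t) (s : K) : nu x m (-s) = (nu x m s)⁻¹ := by
  simp only [nu, inv_neg, H6.neg ha, cj_inv, mul_inv_rev, mul_assoc]

theorem H6.lc (g y : G) : g * y * g⁻¹ = cj y g⁻¹ := by rw [cj, inv_inv]

theorem H6.cj_nu {i : ℤ} (h : MP p 6 U) (ha : ∀ s t, x (s + t) = x s * x t)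
    (mu : ∀ s, s ≠ 0 → Mu 6 U i (x s) (cj (x s⁻¹) m) (cj (x s⁻¹) m)) {g : G} (tr : Tr U 0 g) {β : Kˣ}
    (e : ∀ t, cj (x t) g = x (β * t)) :
    (∀ t, cj (cj (x t) m) g = cj (x ((β⁻¹ : Kˣ) * t)) m) ∧ cj (nu x m 1) g = nu x m β := by
  have a : ∀ t, cj (cj (x t) m) g = cj (x ((β⁻¹ : Kˣ) * t)) m := fun t => by
    by_cases t0 : t = 0
    · simp only [t0, mul_zero, H6.zero ha, one_cj]
    have := (mu t⁻¹ (inv_ne_zero t0)).tr tr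
    rw [add_zero, e] at this
    simpa [mul_comm] using (this.uniq h (mu _ (mul_ne_zero β.ne_zero (inv_ne_zero t0)))).1
  exact ⟨a, by simp [nu, cj_mul, a, e]⟩

theorem H6.pm {A : Type*} {f : A → G} {i c j : ℤ} {g : G} (P : Pm (U i) f) (r : Rf U c g) (e : c - i = j) :
    Pm (U j) fun t => cj (f t) g :=
  ⟨fun y => ⟨fun hy => by
      obtain ⟨t, ht⟩ := (P.mem (cj y g⁻¹)).1 ((r i _).2 (by rwa [cj_inv_cj, e]))
      exact ⟨t, by rw [← ht, cj_inv_cj]⟩, by rintro ⟨t, rfl⟩; exact e ▸ r.cj ((P.mem _).2 ⟨t, rfl⟩)⟩,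
    fun s t k => P.inj (cj_inj.1 k)⟩

theorem H6.sq {E F : Type*} [Field E] [Field F] [Algebra F E] [Finite E] [Finite F]
    (hc : Nat.card E = Nat.card F ∨ Nat.card E = Nat.card F ^ 3) (γ : Eˣ) :
    ∃ (a : Fˣ) (δ : Eˣ), (γ : E) = algebraMap F E a * (δ : E)⁻¹ ^ 2 := by
  have := Fintype.ofFinite E
  have := Fintype.ofFinite F
  simp only [Nat.card_eq_fintype_card] at hc
  have h3 : (γ : E) ^ Fintype.card F ^ 3 = γ := by
    rcases hc with e | e <;> rw [← e]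
    exacts [FiniteField.pow_card_pow 3 _, FiniteField.pow_card _]
  obtain ⟨k, hk⟩ := Nat.even_mul_succ_self (Fintype.card F)
  obtain ⟨a, ha⟩ := R2.exists_eq_of_pow_card' (algebraMap F E) (x := (γ : E) * γ ^ (k + k)) (by
    rw [← hk]
    calc _ = (γ : E) ^ Fintype.card F ^ 3 * γ ^ (Fintype.card F * (Fintype.card F + 1)) := by ring
      _ = _ := by rw [h3])
  refine ⟨Units.mk0 a (by rw [← map_ne_zero (algebraMap F E), ha]; simp), γ ^ k, ?_⟩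
  rw [Units.val_mk0, ha]
  push_cast
  field_simp
  ring

end One

/-- Steinberg's relations in rank one, `y u = x (-u) ^ m`.  Let `n s = nu x m s = μ(x s)`; `n (-s) = (n s)⁻¹` (definition, `x (-t) = (x t)⁻¹`).
`hc (-s)` gives `x s ^ {(n s)⁻¹} = x s⁻¹ ^ m = y (-s⁻¹)`, so `n s = y x y = x y (y ^ {n s}) = x y x = SL2Hom.nn x y s`. -/
theorem rel_of {K : Type*} [Field K] {x : K → G} {m : G} (ha : ∀ s t, x (s + t) = x s * x t)
    (hc : ∀ s, s ≠ 0 → ∀ u, cj (x u) (nu x m s) = cj (x (s⁻¹ ^ 2 * u)) m) :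
    SL2Hom.Rel x (fun u => cj (x (-u)) m) ∧ ∀ s, s ≠ 0 → SL2Hom.nn x (fun u => cj (x (-u)) m) s = nu x m s := by
  have e : ∀ s, s ≠ 0 → SL2Hom.nn x (fun u => cj (x (-u)) m) s = nu x m s := fun s hs => by
    have := hc (-s) (neg_ne_zero.2 hs) s
    rw [H6.nu_neg ha, show (-s)⁻¹ ^ 2 * s = s⁻¹ by field_simp, nu] at this
    simp only [SL2Hom.nn, neg_neg, nu]
    generalize cj (x s⁻¹) m = Y at *
    calc _ = Y⁻¹ * cj (x s) (Y * x s * Y)⁻¹ * (Y * x s * Y) := by simp only [cj]; group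
      _ = _ := by rw [this]; group
  refine ⟨⟨ha, fun s t => by rw [neg_add, ha, cj_mul], fun t ht u => ?_⟩, e⟩
  rw [e t ht, H6.lc, ← H6.nu_neg ha, hc _ (neg_ne_zero.2 ht)]
  congr 2; ring

open ABG in
theorem H6.iota {K : Type*} [Field K] [Finite K] {x : K → G} {m : G} (ha : ∀ s t, x (s + t) = x s * x t)
    (hc : ∀ s, s ≠ 0 → ∀ u, cj (x u) (nu x m s) = cj (x (s⁻¹ ^ 2 * u)) m) (e : m = nu x m 1) :
    ∃ ι : Matrix.SpecialLinearGroup (Fin 2) K →* G, (∀ t, ι (up t) = x t) ∧ (∀ t, ι (lo t) = cj (x (-t)) m) ∧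
      ι R2.nn = m ∧ ∀ c : Kˣ, ι (dg c) = nu x m c * m⁻¹ := by
  obtain ⟨R, hn⟩ := rel_of ha hc
  have n := fun t ht => (R.hom_nmat R.h_mul_of_finite t ht).trans (hn t ht)
  refine ⟨R.hom R.h_mul_of_finite, R.hom_upper _, R.hom_lower _, ?_, fun c => ?_⟩
  · rw [show R2.nn = SL2Hom.nmat (1 : K) one_ne_zero from Subtype.ext (by simp [R2.nn, coe_mkS, SL2Hom.coe_nmat]), n, ← e]
  · rw [show dg c = SL2Hom.nmat (c : K) c.ne_zero * SL2Hom.nmat (-1) (neg_ne_zero.2 one_ne_zero) from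
      Subtype.ext (by simp [dg, coe_mkS, SL2Hom.coe_nmat]), map_mul, n, n, H6.nu_neg ha, ← e]

namespace Fr

variable {E F : Type*} [Field E] [Field F] [Algebra F E] (R : Fr U E F)

/-- torus elements with their invariants -/
structure Tg (g : G) (x : Eˣ × Fˣ) : Prop where
  tr : Tr U 0 g
  e6 : ∀ b, cj (R.x6 b) g = R.x6 (x.1 * b)
  e1 : ∀ t, cj (R.x1 t) g = R.x1 (x.2 * t)

theorem r1 {s : F} (hs : s ≠ 0) : Rf U 8 (nu R.x1 R.m1 s) := (R.mu1 s hs).rf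

theorem r6 (h : MP p 6 U) {c : E} (hc : c ≠ 0) : Rf U 6 (nu R.x6 R.m6 c) := h.rf_per (R.mu6 c hc).rf (by decide)

theorem rm1 : Rf U 8 R.m1 := R.e1 ▸ R.r1 one_ne_zero

theorem rm6 (h : MP p 6 U) : Rf U 6 R.m6 := R.e6 ▸ R.r6 h one_ne_zero

theorem ν_ne (c : Eˣ) : R.ν c ≠ 0 := fun e => by
  have := R.c61 c c.ne_zero 1
  rw [e, zero_mul, H6.zero R.a1, one_cj, cj_eq_one, ← H6.zero R.a1] at this
  exact one_ne_zero (R.p1.inj this)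

variable {R} {g g' : G} {x x' : Eˣ × Fˣ}

theorem Tg.mul (a : R.Tg g x) (b : R.Tg g' x') : R.Tg (g * g') (x' * x) :=
  ⟨by simpa using a.tr.mul b.tr, fun _ => by simp [← cj_cj, a.e6, b.e6, mul_assoc],
    fun _ => by simp [← cj_cj, a.e1, b.e1, mul_assoc]⟩

theorem Tg.inv (a : R.Tg g x) : R.Tg g⁻¹ x⁻¹ :=
  ⟨by simpa using a.tr.inv, fun _ => cj_inj.1 (by rw [cj_inv_cj, a.e6]; simp),
    fun _ => cj_inj.1 (by rw [cj_inv_cj, a.e1]; simp)⟩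

theorem Tg.eq (h : MP p 6 U) (top : ⨆ i, U i = ⊤) (hZ : Subgroup.center G = ⊥) (a : R.Tg g x) (b : R.Tg g' x) :
    g = g' := by
  have c := a.mul b.inv
  rw [← mul_inv_eq_one, ← Subgroup.mem_bot, ← hZ, Subgroup.mem_center_iff]
  intro y
  refine Subgroup.iSup_induction U (C := fun y => Commute y (g * g'⁻¹)) (top ▸ Subgroup.mem_top y)
    (h.central_of (i := 0) c.tr (fun a ha => ?_) fun a ha => ?_) (Commute.one_left _) fun _ _ => Commute.mul_left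
  · obtain ⟨t, rfl⟩ := (R.p1.mem a).1 ha
    exact cj_eq_self.1 (by simpa using c.e1 t)
  · obtain ⟨t, rfl⟩ := (R.p6.mem a).1 ha
    exact cj_eq_self.1 (by simpa using c.e6 t)

theorem Tg.t2 (h : MP p 6 U) (a : R.Tg g x) (b : E) :
    cj (cj (R.x6 b) R.m1) g = cj (R.x6 ((x.2 : F) • (x.1 * b))) R.m1 := by
  rw [← R.c16 _ x.2.ne_zero, ← (H6.cj_nu h R.a1 R.mu1 a.tr a.e1).2, ← R.e1, ← a.e6, cj_cj, cj_cj]
  simp only [cj]; group

theorem Tg.t5 (h : MP p 6 U) (a : R.Tg g x) (t : F) :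
    cj (cj (R.x1 t) R.m6) g = cj (R.x1 (R.ν x.1 * (x.2 * t))) R.m6 := by
  rw [← R.c61 _ x.1.ne_zero, ← (H6.cj_nu h R.a6 R.mu6 a.tr a.e6).2, ← R.e6, ← a.e1, cj_cj, cj_cj]
  simp only [cj]; group

theorem Tg.n1 (h : MP p 6 U) (a : R.Tg g x) :
    R.Tg (R.m1 * g * R.m1⁻¹) (Units.map (algebraMap F E : F →* E) x.2 * x.1, x.2⁻¹) :=
  ⟨by simpa using (R.rm1.mul_tr a.tr).mul R.rm1.inv,
    fun b => by simp [← cj_cj, a.t2 h, cj_cj_inv, Algebra.smul_def, mul_assoc],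
    fun t => by rw [← cj_cj, ← cj_cj, (H6.cj_nu h R.a1 R.mu1 a.tr a.e1).1, cj_cj_inv]⟩

theorem Tg.n6 (h : MP p 6 U) (a : R.Tg g x) :
    R.Tg (R.m6 * g * R.m6⁻¹) (x.1⁻¹, Units.mk0 _ (R.ν_ne x.1) * x.2) :=
  ⟨by simpa using ((R.rm6 h).mul_tr a.tr).mul (R.rm6 h).inv,
    fun t => by rw [← cj_cj, ← cj_cj, (H6.cj_nu h R.a6 R.mu6 a.tr a.e6).1, cj_cj_inv],
    fun b => by simp [← cj_cj, a.t5 h, cj_cj_inv, mul_assoc]⟩

variable (R)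

theorem d1 (s : Fˣ) : R.Tg (nu R.x1 R.m1 s * R.m1⁻¹) (Units.map (algebraMap F E : F →* E) s, s⁻¹ ^ 2) :=
  ⟨by simpa using (R.r1 s.ne_zero).mul R.rm1.inv,
    fun b => by simp [← cj_cj, R.c16 _ s.ne_zero, cj_cj_inv, Algebra.smul_def],
    fun b => by simp [← cj_cj, R.c11 _ s.ne_zero, cj_cj_inv]⟩

theorem d6 (h : MP p 6 U) (c : Eˣ) : R.Tg (nu R.x6 R.m6 c * R.m6⁻¹) (c⁻¹ ^ 2, Units.mk0 _ (R.ν_ne c)) :=
  ⟨by simpa using (R.r6 h c.ne_zero).mul (R.rm6 h).inv,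
    fun b => by simp [← cj_cj, R.c66 _ c.ne_zero, cj_cj_inv],
    fun b => by simp [← cj_cj, R.c61 _ c.ne_zero, cj_cj_inv]⟩

theorem onto (h : MP p 6 U) [Finite E] [Finite F] (hc : Nat.card E = Nat.card F ∨ Nat.card E = Nat.card F ^ 3)
    (x : Eˣ × Fˣ) : ∃ g, R.Tg g x := by
  obtain ⟨a, δ, e⟩ := H6.sq hc x.1
  obtain ⟨g, y, k, e'⟩ : ∃ g y, R.Tg g y ∧ y.1 = x.1 := ⟨_, _, (R.d6 h δ).mul (R.d1 a), Units.ext (by simpa using e.symm)⟩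
  obtain ⟨g', t, k6, k1⟩ := R.tor (x.2 * y.2⁻¹ : Fˣ) (Units.ne_zero _)
  exact ⟨_, by
    convert k.mul (x' := (1, x.2 * y.2⁻¹)) ⟨t, by simpa using k6, k1⟩ using 1
    exact Prod.ext (by simp [e']) (by simp)⟩

theorem exists_τ (h : MP p 6 U) [Finite E] [Finite F] (hc : Nat.card E = Nat.card F ∨ Nat.card E = Nat.card F ^ 3)
    (top : ⨆ i, U i = ⊤) (hZ : Subgroup.center G = ⊥) :
    ∃ τ : Eˣ × Fˣ →* G, (∀ x, R.Tg (τ x)⁻¹ x) ∧ ∀ {g x}, R.Tg g x → g ∈ τ.range := by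
  choose f hf using R.onto h hc
  refine ⟨MonoidHom.mk' (fun x => (f x)⁻¹) fun x y => ?_, fun x => by simpa using hf x, fun {g x} k => ⟨x⁻¹, ?_⟩⟩
  · rw [← mul_inv_rev, (hf _).eq h top hZ ((hf y).mul (hf x))]
  · exact (hf _).inv.eq h top hZ (by rwa [inv_inv])

end Fr

theorem H6.peel (h : MP p 6 U) {i k : ℤ} {a r : G} (ha : a ∈ U i) (hr : r ∈ W U k 6) (e : a * r = 1)
    (h1 : 1 ≤ i := by decide) (h2 : i + 1 = k := by decide) : a = 1 ∧ r = 1 :=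
  h.uniq (i := 1) (k := i) (j := 6) (by decide) (le_W h1 le_rfl ha) (h2 ▸ hr) (one_mem _) (one_mem _) (by rw [e, one_mul])

theorem H6.cjm (h : MP p 6 U) {i j : ℤ} (k l : ℤ) {a b : G} (ha : a ∈ U i) (hb : b ∈ U j) (h1 : i < j := by decide)
    (h2 : j < i + 6 := by decide) (e : i + 1 = k ∧ j - 1 = l := by decide) : ∃ y ∈ W U k l, b * a * b⁻¹ = a * y :=
  ⟨_, e.1 ▸ e.2 ▸ h.cZ i j h1 h2 a ha _ (inv_mem hb), by rw [H6.lc, cj_eq]⟩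

theorem H6.dec (h : MP p 6 U) {A : Type*} {f : A → G} {i j : ℤ} (P : Pm (U i) f) (k : ℤ) {y : G}
    (hy : y ∈ W U i j) (hj : j < i + 6 := by decide) (e : i + 1 = k := by decide) : ∃ t, ∃ z ∈ W U k j, y = f t * z := by
  subst e
  obtain ⟨a, ha, z, hz, e⟩ := h.dec_bot hj hy
  obtain ⟨t, rfl⟩ := (P.mem a).1 ha
  exact ⟨t, z, hz, e⟩

theorem H6.mm {A : Type*} {f : A → G} {B : Subgroup G} (P : Pm B f) (t : A) : f t ∈ B := (P.mem _).2 ⟨t, rfl⟩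

theorem H6.one {A : Type*} {f : A → G} {i : ℤ} (P : Pm (U i) f) {y : G} (hy : y ∈ W U i i) : ∃ t, y = f t :=
  (P.mem y).1 (W_self (U := U) _ ▸ hy)

/-- `ιa`, `ιb`: `rel_of`, `Rel.hom` (as in `TW.exists_iota`, any universe); `ιa nn = m6`, `ιb nn = m1` (`e6`, `e1`); note
`g * x * g⁻¹ = cj x g⁻¹`.  `m6` is `Rf 18`, `m1` is `Rf 8`, so `y1 … y6` parametrise `U 1 … U 6`, `lo` parametrises `U 12 = U 0`, `U 7`;
`c12 … c56` follow from `comm`, `cen`, `tri`, `dec_bot`; `uniq` from `ind`; `G0 = ⊤`: it contains `m1, m6`, whose conjugates move `U 1`, `U 6` to all `U j`.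
(T) If `Tr U 0 g`, `x6 b ^ g = x6 (α b)`, `x1 t ^ g = x1 (β t)` then `nu x1 m1 s ^ g = nu x1 m1 (β s)`, `x1 s⁻¹ ^ (m1 g) = x1 (β s)⁻¹ ^ m1`
(`Mu.tr`, `Mu.uniq`), same for `x6`; so `g` acts on `U 7` by `β⁻¹`, on `U 0` by `α⁻¹`, on `x6 b ^ m1` by `β α` (`c16`), on `x1 t ^ m6` by
`ν α * β` (`c61`).  Such `g` form a group `T`; `g ↦ (α, β)` is a homomorphism, injective (`central_of`, `hZ`, `top`) and onto: `T` contains
`nu x1 m1 s * m1⁻¹ ↦ (s, s⁻²)`, `nu x6 m6 c * m6⁻¹ ↦ (c⁻², ν c)`, `tor ↦ (1, β)`, and every `γ ∈ Eˣ` is a square times an element of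
`F` (`E = F`, or `γ = γ^(1+q+q²) (γ^(-q(q+1)/2))²` with `R2.exists_eq_of_pow_card'`).  `τ x` = the inverse of the element with invariants `x`
... i.e. `τ x * y * (τ x)⁻¹ = cj y (τ x)⁻¹`.  `m1`, `m6` normalise `T` by (T).  `m6⁻¹ = nu x6 m6 (-1)`, so `m6²` acts on `U 6` trivially, on `U 1`
by `-1`, on `U 2` by `-1` (T); `m1²` acts on `U 6` by `-1`, on `U 5` by `-1` (`c15`).  `m6` centralises `U 3`, `m1` centralises `U 4` (`cen`).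
`braid`: `v = m6 m1 m6 m1 m6` centralises `U 1` (follow `x1 t` through `U 5, U 3, U 3, U 5, U 1`), is a reflection fixing the index `1`, so it
centralises `κ, l` of `Mu 1 (x1 1)` (`Mu.rf'`, `Mu.per`, `Mu.uniq`) and `m1`: `v m1 = m1 v`. -/
theorem Fr.exists_hex [Finite G] (S : Sh p U) {E F : Type*} [Field E] [Field F] [Algebra F E] [Finite E] [Finite F] (R : Fr U E F)
    (hc : Nat.card E = Nat.card F ∨ Nat.card E = Nat.card F ^ 3) (top : ⨆ i, U i = ⊤) (hZ : Subgroup.center G = ⊥) :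
    ∃ h : R2.Hex G E F, h.G0 = ⊤ := by
  have h := S.toMP
  obtain ⟨ιa, ua, la, na, da⟩ := H6.iota R.a6 R.c66 R.e6
  obtain ⟨ιb, ub, lb, nb, db⟩ := H6.iota R.a1 R.c11 R.e1
  obtain ⟨τ, hτ, rτ⟩ := R.exists_τ h hc top hZ
  have e1 : R2.y1 ιb = R.x1 := funext ub
  have e6 : R2.y6 ιa = R.x6 := funext ua
  have e2 : R2.y2 ιa ιb = fun t => cj (R.x6 t) R.m1⁻¹ := funext fun t => by rw [R2.y2, e6, nb, H6.lc]
  have e5 : R2.y5 ιa ιb = fun t => cj (R.x1 t) R.m6⁻¹ := funext fun t => by rw [R2.y5, e1, na, H6.lc]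
  have e4 : R2.y4 ιa ιb = fun t => cj (R2.y2 ιa ιb t) R.m6⁻¹ := funext fun t => by rw [R2.y4, na, H6.lc]
  have e3 : R2.y3 ιa ιb = fun t => cj (R2.y5 ιa ιb t) R.m1⁻¹ := funext fun t => by rw [R2.y3, nb, H6.lc]
  have p1 : Pm (U 1) (R2.y1 ιb) := e1 ▸ R.p1
  have p6 : Pm (U 6) (R2.y6 ιa) := e6 ▸ R.p6
  have p2 : Pm (U 2) (R2.y2 ιa ιb) := e2 ▸ H6.pm R.p6 R.rm1.inv (by decide)
  have p5 : Pm (U 5) (R2.y5 ιa ιb) := e5 ▸ H6.pm R.p1 (R.rm6 h).inv (by decide)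
  have p4 : Pm (U 4) (R2.y4 ιa ιb) := e4 ▸ H6.pm p2 (R.rm6 h).inv (by decide)
  have p3 : Pm (U 3) (R2.y3 ιa ιb) := e3 ▸ H6.pm p5 R.rm1.inv (by decide)
  have p0 : Pm (U 0) _ := H6.pm R.p6 (R.rm6 h) (by decide)
  have p7 : Pm (U 7) _ := H6.pm R.p1 R.rm1 (by decide)
  have i1 : nu R.x1 R.m1 (-1) = R.m1⁻¹ := by rw [H6.nu_neg R.a1, ← R.e1]
  have i6 : nu R.x6 R.m6 (-1) = R.m6⁻¹ := by rw [H6.nu_neg R.a6, ← R.e6]
  have q1 := R.d1 (-1)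
  have q6 := R.d6 h (-1)
  rw [Units.val_neg, Units.val_one, i1] at q1
  rw [show nu R.x6 R.m6 (-1 : Eˣ) = R.m6⁻¹ by simpa using i6] at q6
  have f2 : ∀ t, R2.y2 ιa ιb t = cj (R.x6 (-t)) R.m1 := fun t => by simp [e2, ← i1, R.c16]
  have f5 : ∀ t, R2.y5 ιa ιb t = cj (R.x1 (-t)) R.m6 := fun t => by simp [e5, ← i6, R.c61, R.ν_neg]
  have a5 : ∀ u, ιa R2.nn * R2.y5 ιa ιb u * (ιa R2.nn)⁻¹ = R2.y1 ιb (-u) := fun u => by
    simp [na, H6.lc, e5, e1, cj_cj, q6.e1, R.ν_neg]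
  have a3 : ∀ u, Commute (ιa R2.nn) (R2.y3 ιa ιb u) := fun u => by
    have c := S.cen 3 0 (by decide) (by decide) (by decide) _ (H6.mm p3 u) _ (H6.mm p0 1⁻¹)
    rw [na, R.e6]
    exact ((c.mul_right (S.cen 3 6 (by decide) (by decide) (by decide) _ (H6.mm p3 u) _ (H6.mm R.p6 1))).mul_right c).symm
  have b3 : ∀ u, ιb R2.nn * R2.y3 ιa ιb u * (ιb R2.nn)⁻¹ = R2.y5 ιa ιb (-u) := fun u => by
    rw [nb, H6.lc, e3, cj_cj, f5, f5, q1.t5 h]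
    simp [R.ν_neg]
  have z3 : R2.y3 ιa ιb 0 = 1 := by simp [e3, e5, H6.zero R.a1, one_cj]
  refine ⟨⟨ιa, ιb, τ, fun x t => by rw [ua, ua, H6.lc, (hτ x).e6], fun x t => ?_, fun x t => by rw [ub, ub, H6.lc, (hτ x).e1],
    fun x t => ?_, fun c => da c ▸ rτ (R.d6 h c), fun c => db c ▸ rτ (R.d1 c),
    fun x => na ▸ rτ (inv_inv (τ x) ▸ (hτ x).inv.n6 h), fun x => nb ▸ rτ (inv_inv (τ x) ▸ (hτ x).inv.n1 h), ?_, a5,
    fun t => ?_, a3, fun t => ?_, b3, fun t => ?_,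
    fun u t => S.cen 1 2 (by decide) (by decide) (by decide) _ (H6.mm p1 u) _ (H6.mm p2 t),
    fun u t => S.cen 1 3 (by decide) (by decide) (by decide) _ (H6.mm p1 u) _ (H6.mm p3 t),
    fun u t => S.cen 1 4 (by decide) (by decide) (by decide) _ (H6.mm p1 u) _ (H6.mm p4 t), fun u v => ?_, fun u t => ?_,
    fun t u => (S.cen 3 2 (by decide) (by decide) (by decide) _ (H6.mm p3 u) _ (H6.mm p2 t)).symm, fun s t => ?_,
    fun t u => (S.cen 5 2 (by decide) (by decide) (by decide) _ (H6.mm p5 u) _ (H6.mm p2 t)).symm, fun s t => ?_,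
    fun u t => S.cen 3 4 (by decide) (by decide) (by decide) _ (H6.mm p3 u) _ (H6.mm p4 t),
    fun u t => S.cen 3 5 (by decide) (by decide) (by decide) _ (H6.mm p3 u) _ (H6.mm p5 t),
    fun u t => S.cen 3 6 (by decide) (by decide) (by decide) _ (H6.mm p3 u) _ (H6.mm p6 t),
    fun t u => (S.cen 5 4 (by decide) (by decide) (by decide) _ (H6.mm p5 u) _ (H6.mm p4 t)).symm, fun s t => ?_,
    fun u t => S.cen 5 6 (by decide) (by decide) (by decide) _ (H6.mm p5 u) _ (H6.mm p6 t), fun a b c d e f k => ?_⟩, ?_⟩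
  · rw [la, la, H6.lc, (H6.cj_nu h R.a6 R.mu6 (hτ x).tr (hτ x).e6).1, mul_neg]
  · rw [lb, lb, H6.lc, (H6.cj_nu h R.a1 R.mu1 (hτ x).tr (hτ x).e1).1, mul_neg]
  · have v1 : cj (R.x1 1) (R.m6 * R.m1 * R.m6 * R.m1 * R.m6)⁻¹ = R.x1 1 := by
      calc _ = ιa R2.nn * (ιb R2.nn * (ιa R2.nn * R2.y3 ιa ιb 1 * (ιa R2.nn)⁻¹) * (ιb R2.nn)⁻¹) * (ιa R2.nn)⁻¹ := by
            rw [R2.y3, R2.y5, na, nb, e1, cj]; group
        _ = _ := by rw [(a3 1).mul_inv_cancel, b3, a5, neg_neg, e1]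
    have r : Rf U 2 (R.m6 * R.m1 * R.m6 * R.m1 * R.m6) := by
      simpa using ((((R.rm6 h).mul R.rm1).mul_rf (R.rm6 h)).mul R.rm1).mul_rf (R.rm6 h)
    have m := (R.mu1 1 one_ne_zero).rf' h r.inv
    rw [v1] at m
    have c := cj_eq_self.1 ((R.mu1 1 one_ne_zero).uniq h m).1.symm
    have := ((c.mul_left (cj_eq_self.1 v1)).mul_left c).inv_right
    rw [inv_inv, ← nu, ← R.e1] at this
    rw [na, nb]
    calc _ = R.m6 * R.m1 * R.m6 * R.m1 * R.m6 * R.m1 := by simp only [pow_three, mul_assoc]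
      _ = _ := by rw [← this.eq]; simp only [pow_three, mul_assoc]
  · rw [na, H6.lc, e4, cj_cj, f2, f2, q6.t2 h]
    simp [R.ν_neg]
  · simp [nb, H6.lc, e2, e6, cj_cj, q1.e6]
  · have c := S.cen 7 4 (by decide) (by decide) (by decide) _ (H6.mm p7 1⁻¹) _ (H6.mm p4 t)
    rw [nb, R.e1]
    exact (c.mul_left (S.cen 1 4 (by decide) (by decide) (by decide) _ (H6.mm R.p1 1) _ (H6.mm p4 t))).mul_left c
  · by_cases k : R2.y5 ιa ιb v = 1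
    · exact ⟨0, by simp [k, z3]⟩
    obtain ⟨κ, l, m⟩ := h.exists_mu (inv_mem (H6.mm p5 v)) (by simpa using k)
    have k3 : cj (R2.y1 ιb u) _ ∈ U 3 := (h.rf_per m.rf (e := 4) (by decide)).cj (H6.mm p1 u)
    obtain ⟨w, hw⟩ := (p3.mem _).1 k3
    exact ⟨w, by rw [H6.lc, S.tri' 5 (by decide) _ _ ⟨κ, l, m, rfl⟩ _ (H6.mm p1 u), hw,
      (S.cen 1 3 (by decide) (by decide) (by decide) _ (H6.mm p1 u) _ (H6.mm p3 w)).eq]⟩
  · obtain ⟨y, hy, e⟩ := H6.cjm h 2 5 (H6.mm p1 u) (H6.mm p6 t)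
    obtain ⟨a, y, hy, e2⟩ := H6.dec h p2 3 hy
    obtain ⟨b, y, hy, e3⟩ := H6.dec h p3 4 hy
    obtain ⟨c, y, hy, e4⟩ := H6.dec h p4 5 hy
    obtain ⟨d, e5⟩ := H6.one p5 hy
    exact ⟨a, b, c, d, by simp only [e, e2, e3, e4, e5, mul_assoc]⟩
  · obtain ⟨y, hy, e⟩ := H6.cjm h 3 3 (H6.mm p2 s) (H6.mm p4 t)
    obtain ⟨d, rfl⟩ := H6.one p3 hy
    exact ⟨d, e⟩
  · obtain ⟨y, hy, e⟩ := H6.cjm h 3 5 (H6.mm p2 s) (H6.mm p6 t)
    obtain ⟨b, y, hy, e3⟩ := H6.dec h p3 4 hy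
    obtain ⟨c, y, hy, e4⟩ := H6.dec h p4 5 hy
    obtain ⟨d, e5⟩ := H6.one p5 hy
    exact ⟨b, c, d, by simp only [e, e3, e4, e5, mul_assoc]⟩
  · obtain ⟨y, hy, e⟩ := H6.cjm h 5 5 (H6.mm p4 s) (H6.mm p6 t)
    obtain ⟨d, rfl⟩ := H6.one p5 hy
    exact ⟨d, e⟩
  · simp only [mul_assoc] at k
    have w6 : _ ∈ W U 6 6 := le_W le_rfl le_rfl (H6.mm p6 f)
    have w5 : _ ∈ W U 5 6 := mul_mem (le_W le_rfl (by decide) (H6.mm p5 e)) (W_mono (by decide) le_rfl w6)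
    have w4 : _ ∈ W U 4 6 := mul_mem (le_W le_rfl (by decide) (H6.mm p4 d)) (W_mono (by decide) le_rfl w5)
    have w3 : _ ∈ W U 3 6 := mul_mem (le_W le_rfl (by decide) (H6.mm p3 c)) (W_mono (by decide) le_rfl w4)
    have w2 : _ ∈ W U 2 6 := mul_mem (le_W le_rfl (by decide) (H6.mm p2 b)) (W_mono (by decide) le_rfl w3)
    obtain ⟨k1, k⟩ := H6.peel h (H6.mm p1 a) w2 k
    obtain ⟨k2, k⟩ := H6.peel h (H6.mm p2 b) w3 k
    obtain ⟨k3, k⟩ := H6.peel h (H6.mm p3 c) w4 k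
    obtain ⟨k4, k⟩ := H6.peel h (H6.mm p4 d) w5 k
    obtain ⟨k5, k⟩ := H6.peel h (H6.mm p5 e) w6 k
    exact ⟨p1.inj (by rw [k1, e1, H6.zero R.a1]), p2.inj (by simp [k2, e2, H6.zero R.a6, one_cj]), p3.inj (k3.trans z3.symm),
      p4.inj (by rw [k4]; simp [e4, e2, H6.zero R.a6, one_cj]), p5.inj (by rw [k5]; simp [e5, H6.zero R.a1, one_cj]),
      p6.inj (by rw [k, e6, H6.zero R.a6])⟩
  · have A : ∀ s, ιa s ∈ ιa.range ⊔ ιb.range := fun s => Subgroup.mem_sup_left ⟨s, rfl⟩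
    have B : ∀ s, ιb s ∈ ιa.range ⊔ ιb.range := fun s => Subgroup.mem_sup_right ⟨s, rfl⟩
    have C : ∀ {g y : G} {M : Subgroup G}, g ∈ M → y ∈ M → g * y * g⁻¹ ∈ M := fun a b => mul_mem (mul_mem a b) (inv_mem a)
    refine top_le_iff.1 (top ▸ (h.gen 0).trans (W_le fun k h1 h2 y hy => ?_))
    have h2' : k ≤ 7 := h2
    interval_cases k
    · obtain ⟨t, rfl⟩ := (p0.mem y).1 hy
      exact neg_neg t ▸ la (-t) ▸ A _
    · obtain ⟨t, rfl⟩ := (p1.mem y).1 hy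
      exact B _
    · obtain ⟨t, rfl⟩ := (p2.mem y).1 hy
      exact C (B _) (A _)
    · obtain ⟨t, rfl⟩ := (p3.mem y).1 hy
      exact C (B _) (C (A _) (B _))
    · obtain ⟨t, rfl⟩ := (p4.mem y).1 hy
      exact C (A _) (C (B _) (A _))
    · obtain ⟨t, rfl⟩ := (p5.mem y).1 hy
      exact C (A _) (B _)
    · obtain ⟨t, rfl⟩ := (p6.mem y).1 hy
      exact A _
    · obtain ⟨t, rfl⟩ := (p7.mem y).1 hy
      exact neg_neg t ▸ lb (-t) ▸ B _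

end CL.FS.Hx
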