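/-
S1144, octagons: central elations, first commutation relations.
-/
import Cfsg.Agent.CHEV.FS.Bru

set_option autoImplicit false
set_option linter.unusedSectionVars false

namespace CL.FS

variable {G : Type*} [Group G] {p n : ℕ} {U : ℤ → Subgroup G}

/-- Lemma S.  `κ, l ∈ U (j - n)` commute with `y`; `b = κ⁻¹ μ l⁻¹`, so `y ^ b = (y ^ μ) ^ {l⁻¹} ∈ U_{[j-n+1,2j-n-i-1]} y ^ μ`
and `y ^ b ∈ y U_{[i+1,j-1]}`; `inf_mem`. -/
theorem MP.lemS (h : MP p n U) {m : ℕ} (hn : n = 2 * m) {i j : ℤ} (h1 : i + m < j) (h2 : j < i + n) {y b κ l : G}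
    (hy : y ∈ V U m i) (mu : Mu n U j b κ l) : cj y (κ * b * l) ∈ V U m (2 * j - n - i) ∧
      ∃ w ∈ W U (i + 1) (2 * j - n - i - 1), cm y b = w * cj y (κ * b * l) := by
  have hV := (h.V_rf (mu.rf_sub h)).1 hy
  have hc := (h.mem_V.1 hy).2 (j - n) (by omega) (by omega)
  have e : cj y b = cj (cj y (κ * b * l)) l⁻¹ := by
    rw [← cj_cj, ← cj_cj, cj_eq_self.2 (hc κ (mu.κ_mem' h)), cj_cj_inv]
  rw [cj_eq, cj_eq' (cj y _)] at e
  have h3 := h.commZ (inv_mem (mu.l_mem' h)) (inv_mem hV.1)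
  refine ⟨hV, cm y b * (cj y (κ * b * l))⁻¹, h.inf_mem (i := j - n + 1) (l := j - 1) (by omega) (by omega) (by omega) ?_
    (mul_mem (h.commZ hy.1 mu.a_mem) (inv_mem (UW hV.1))), (inv_mul_cancel_right _ _).symm⟩
  rw [← inv_mul_cancel_left y (cm y b), e, mul_assoc, mul_inv_cancel_right]
  exact mul_mem (inv_mem (UW hy.1)) h3

/-- mirror image -/
theorem MP.lemS' (h : MP p n U) {m : ℕ} (hn : n = 2 * m) {i j : ℤ} (h1 : j + m < i) (h2 : i < j + n) {y b κ l : G}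
    (hy : y ∈ V U m i) (mu : Mu n U j b κ l) : cj y (κ * b * l) ∈ V U m (2 * j + n - i) ∧
      ∃ w ∈ W U (2 * j + n - i + 1) (i - 1), cm b y⁻¹ = cj y (κ * b * l) * w := by
  have hV := (h.V_rf mu.rf).1 hy
  have hc := (h.mem_V.1 hy).2 (j + n) (by omega) (by omega)
  have e : cj y b = cj (cj y (κ * b * l)) l⁻¹ := by
    rw [← cj_cj, ← cj_cj, cj_eq_self.2 (hc κ mu.κ_mem), cj_cj_inv]
  rw [cj_eq', cj_eq (cj y _)] at e
  have h3 := h.commZ hV.1 (inv_mem mu.l_mem)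
  refine ⟨hV, (cj y (κ * b * l))⁻¹ * cm b y⁻¹, h.inf_mem (i := j + 1) (l := j + n - 1) (by omega) (by omega) (by omega)
    (mul_mem (inv_mem (UW hV.1)) (h.commZ mu.a_mem (inv_mem hy.1))) ?_, (mul_inv_cancel_left _ _).symm⟩
  rw [← mul_inv_cancel_right (cm b y⁻¹) y, e, mul_assoc (cj y _), inv_mul_cancel_left]
  exact mul_mem h3 (inv_mem (UW hy.1))

theorem Mu.lemK0 (h : MP p n U) {m : ℕ} (hn : n = 2 * m) {i j : ℤ} {a κ l g : G} (mu : Mu n U i a κ l) (hg : g ∈ U j)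
    (hj : j = i + m ∨ j = i - m) (c : Commute a g) : Commute l g := by
  have := h.three
  rcases hj with rfl | rfl
  · have e := (mu.t2_bot h (t := i + m) (by omega) (UW hg) c.symm).1
    rw [cj_eq, mul_mem_cancel_left (UW hg)] at e
    exact (cm_eq_one.1 (h.ind' e (h.commZ hg mu.l_mem))).symm
  · have e := (mu.t2_top h (t := i - m) (by omega) (UW hg) c.symm).1
    rw [cj_eq, mul_mem_cancel_left (UW hg), ← cm_inv, inv_mem_iff] at e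
    exact cm_eq_one.1 (h.ind' (h.commZ (mu.l_mem' h) hg) e)

/-- Lemma K: `t2_top`, `t2_bot` (and `Mu.inv` for `κ`). -/
theorem Mu.lemK (h : MP p n U) {m : ℕ} (hn : n = 2 * m) {i j : ℤ} {a κ l g : G} (mu : Mu n U i a κ l) (hg : g ∈ U j)
    (hj : j = i + m ∨ j = i - m) (c : Commute a g) : Commute κ g ∧ Commute l g :=
  ⟨by simpa using (mu.inv.lemK0 h hn hg hj c.inv_left).inv_left, mu.lemK0 h hn hg hj c⟩

/-- an octagon whose even root groups contain central elations -/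
structure Oc (p : ℕ) (U : ℤ → Subgroup G) : Prop extends MP p 8 U where
  ev : ∃ y ∈ V U 4 0, y ≠ 1

theorem MP.exists_oc [Finite G] (h : MP p 8 U) : ∃ c : ℤ, Oc p fun j => U (j + c) := by
  obtain ⟨i, a, ha, a1⟩ := h.exists_V (m := 4) rfl
  exact ⟨i, h.shift i, a, by rw [h.V_shift, zero_add]; exact ha, a1⟩

theorem VU {m : ℕ} {i : ℤ} {y : G} (hy : y ∈ V U m i) : y ∈ U i := hy.1
theorem Veq {m : ℕ} {i j : ℤ} {y : G} (hy : y ∈ V U m i) (e : i = j := by omega) : y ∈ V U m j := e ▸ hy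

namespace Oc

variable (h : Oc p U) {i j k : ℤ}
include h

theorem exV (hi : i % 2 = 0) : ∃ y ∈ V U 4 i, y ≠ 1 := by
  obtain ⟨y, hy, y1⟩ := h.ev
  obtain ⟨g, -, t⟩ := h.toMP.exists_tr (i / 2)
  exact ⟨cj y g, Veq ((h.toMP.V_tr t).1 hy), mt cj_eq_one.1 y1⟩
theorem shift (c : ℤ) (hc : c % 2 = 0) : Oc p fun j => U (j + c) :=
  ⟨h.toMP.shift c, by rw [h.toMP.V_shift]; exact h.exV (by omega)⟩
theorem rev (c : ℤ) (hc : c % 2 = 0) : Oc p fun j => U (c - j) :=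
  ⟨h.toMP.rev c, by rw [h.toMP.V_rev]; exact h.exV (by omega)⟩
theorem cV {y b : G} (hy : y ∈ V U 4 i) (hb : b ∈ U j) (h1 : i - 4 ≤ j := by omega) (h2 : j ≤ i + 4 := by omega) :
    Commute y b := (h.toMP.mem_V.1 hy).2 j h1 h2 b hb
theorem cVW {y b : G} (hy : y ∈ V U 4 i) (hb : b ∈ W U j k) (h1 : i - 4 ≤ j := by omega) (h2 : k ≤ i + 4 := by omega) :
    Commute y b :=
  W_ind (P := fun b => Commute y b) (Commute.one_right _) (fun _ _ => Commute.mul_right)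
    (fun _ _ _ _ ha => h.cV hy ha) hb
theorem card_V (hij : i % 2 = j % 2) : Nat.card (V U 4 i) = Nat.card (V U 4 j) := by
  obtain ⟨g, -, t⟩ := h.toMP.exists_tr ((j - i) / 2)
  exact Bas.card_cj (g := g) fun x => (h.toMP.V_tr t).trans ⟨fun e => Veq e, fun e => Veq e⟩
theorem card_U (hij : i % 2 = j % 2) : Nat.card (U i) = Nat.card (U j) := by
  rw [← h.toMP.card_add_two_mul i ((j - i) / 2), show i + 2 * ((j - i) / 2) = j by omega]

/-- `y ∈ V 4`, `z ∈ V 9`: `[y, z] ∈ U_{[5,6]} ∩ U_{[7,8]}` by `lemS`, `lemS'`; `nc`. -/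
theorem V_odd (hi : i % 2 = 1) {y : G} (hy : y ∈ V U 4 i) : y = 1 := by_contra fun y1 => by
  obtain ⟨z, hz, z1⟩ := h.exV (i := i - 5) (by omega)
  obtain ⟨κ, l, m⟩ := h.toMP.exists_mu (inv_mem hy.1) (inv_ne_one.2 y1)
  obtain ⟨κ', l', m'⟩ := h.toMP.exists_mu hz.1 z1
  obtain ⟨h1, w, hw, e⟩ := h.toMP.lemS (m := 4) rfl (by omega) (by omega) hz m
  obtain ⟨h2, w', hw', e'⟩ := h.toMP.lemS' (m := 4) rfl (by omega) (by omega) hy m'
  have c := h.toMP.ind' (i := i - 4) (k := i - 3) (l := i - 2) (j := i - 1) (e ▸ mul_mem (Wle hw) (UW h1.1))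
    (e' ▸ mul_mem (UW h2.1) (Wle hw'))
  exact (h.toMP.nc (by omega) (by omega) hz.1 (inv_mem hy.1) (cm_eq_one.1 c)).elim z1 (inv_ne_one.2 y1)

theorem dec5 {y u : G} (hy : y ∈ V U 4 i) (hu : u ∈ U (i + 5)) : ∃ d ∈ U (i + 1), ∃ z ∈ V U 4 (i + 2), cm y u = d * z := by
  by_cases u1 : u = 1
  · exact ⟨1, one_mem _, 1, one_mem _, by rw [u1, cm_eq_one.2 (Commute.one_right _), mul_one]⟩
  obtain ⟨κ, l, m⟩ := h.toMP.exists_mu hu u1
  obtain ⟨h1, w, hw, e⟩ := h.toMP.lemS (m := 4) rfl (by omega) (by omega) hy m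
  exact ⟨w, W_self (U := U) (i + 1) ▸ Wle hw, _, Veq h1, e⟩

theorem dec5_one {y u d z : G} (hy : y ∈ V U 4 i) (hu : u ∈ U (i + 5)) (hd : d ∈ U (i + 1)) (hz : z ∈ V U 4 (i + 2))
    (e : cm y u = d * z) : d = 1 := by
  have H := h.toMP
  by_cases hi : i % 2 = 1
  · rw [h.V_odd hi hy, cm_eq_one.2 (Commute.one_left _), eq_comm, mul_eq_one_iff_eq_inv] at e
    exact H.ind' (i := i + 1) (k := i + 1) (l := i + 2) (j := i + 2) (UW hd) (e ▸ inv_mem (UW hz.1))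
  have c1 : ∀ g ∈ W U (i - 2) (i + 4), Commute d g := fun g hg => by
    have e1 : d = y⁻¹ * cj y u * z⁻¹ := by rw [cj_eq, e]; group
    rw [e1]
    refine ((h.cVW hy hg).inv_left.mul_left ?_).mul_left (h.cVW hz hg).inv_left
    rw [← cj_inv_cj g u, ← cm_eq_one, ← cj_cm, cj_eq_one, cm_eq_one]
    exact h.cVW hy (H.pres_bot (inv_mem hu) hg)
  have c2 : ∀ u' ∈ U (i + 1 + (4 : ℕ)), Commute d u' := fun u' hu' => by
    replace hu' : u' ∈ U (i + 5) := Ueq hu'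
    obtain ⟨d', hd', z', hz', e'⟩ := h.dec5 hy hu'
    obtain ⟨d'', hd'', z'', hz'', e''⟩ := h.dec5 hy (mul_mem hu hu')
    have hw : cm d u' ∈ V U 4 (i + 2) := by
      rw [cm_mul_right, e, e', cj_mul, cj_eq_self.2 (h.cV hz hu'), cj_eq, mul_assoc d' z', ← mul_assoc z',
        ← mul_assoc z', (h.cV hz' hd).eq] at e''
      have e1 : (d''⁻¹ * d' * d)⁻¹ = z' * cm d u' * z * z''⁻¹ := by
        rw [eq_mul_inv_iff_mul_eq, inv_mul_eq_iff_eq_mul, mul_assoc d''⁻¹, mul_assoc d''⁻¹, eq_inv_mul_iff_mul_eq, ← e'']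
        group
      have e2 := H.ind' (i := i + 1) (k := i + 1) (l := i + 2) (j := i + 4)
        (UW (inv_mem (mul_mem (mul_mem (inv_mem hd'') hd') hd)))
        (e1 ▸ mul_mem (mul_mem (mul_mem (UW hz'.1) (Wle (H.commZ hd hu'))) (UW hz.1)) (inv_mem (UW hz''.1)))
      rw [e1] at e2
      rw [show cm d u' = z'⁻¹ * (z' * cm d u' * z * z''⁻¹) * z'' * z⁻¹ by group, e2]
      exact mul_mem (mul_mem (mul_mem (inv_mem hz') (one_mem _)) hz'') (inv_mem hz)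
    obtain ⟨v, hv, v1⟩ := h.exV (i := i + 8) (by omega)
    obtain ⟨κ, l, m⟩ := H.exists_mu hv.1 v1
    obtain ⟨A, hA, a, ha, eA⟩ := H.dec_top (i := i + 2) (j := i + 7) (by omega) (Wle (H.commZ hd (inv_mem hv.1)))
    have ed := (m.shift_top H (Ueq hd) (Ueq ha) (Wle hA) eA).1
    have ca : Commute a u' := by
      rw [← cm_eq_one, ← cj_eq_one (g := κ * v * l), cj_cm, ← ed, cm_eq_one]
      exact c1 _ (UW ((m.rf_sub H).cj hu'))
    obtain ⟨h1, f, hf, ef⟩ := H.lemS (m := 4) rfl (by omega) (by omega) hw m.inv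
    obtain ⟨A₁, hA₁, a₁, ha₁, rfl⟩ := H.dec_top (by omega) hA
    have e3 : cj (cj d u') v⁻¹ = cj (cj d v⁻¹) u' := by rw [cj_cj, cj_cj, (h.cV hv hu').inv_left.eq]
    rw [cj_eq d u', ← (h.cV hw hd).eq, cj_mul, cj_eq (cm d u'), cj_eq d v⁻¹, ef, eA, cj_mul, cj_mul, cj_mul,
      cj_eq_self.2 ca, cj_eq_self.2 (H.comm_succ hu' (Ueq ha₁)).symm, cj_eq d u', ← (h.cV hw hd).eq] at e3
    have e4 : cj (cm d u') (l⁻¹ * v⁻¹ * κ⁻¹) = f⁻¹ * cj (cj A₁ u' * A₁⁻¹) d⁻¹ := by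
      generalize cj (cm d u') (l⁻¹ * v⁻¹ * κ⁻¹) = w' at e3 ⊢
      generalize cj A₁ u' = B at e3 ⊢
      rw [cj]
      calc w' = f⁻¹ * (cm d u')⁻¹ * (cm d u' * (f * w') * (d * (A₁ * a₁ * a))) * (d * (A₁ * a₁ * a))⁻¹ := by group
        _ = _ := by rw [e3]; group
    have e5 := H.ind' (i := i + 2) (k := i + 5) (l := i + 6) (j := i + 6) (e4 ▸ mul_mem (inv_mem (Wle hf))
      (H.pres_top (inv_mem hd) (mul_mem (cj_mem_of (Wle hA₁) (UW hu')) (inv_mem (Wle hA₁))))) (UW h1.1)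
    exact cm_eq_one.1 (cj_eq_one.1 e5)
  refine h.V_odd (i := i + 1) (by omega) (H.mem_V.2 ⟨hd, fun k k1 k2 b hb => ?_⟩)
  by_cases k3 : k = i + 5
  · exact c2 b (Ueq hb)
  by_cases k4 : k = i - 3
  · exact (H.half (m := 4) rfl hd).1 c2 b (Ueq hb)
  · exact c1 b (UW hb)

/-- `i = 4`.  `[y, u] = d y₆` (`lemS`), `d ∈ U 5` centralises `U_{[2,8]}`.  Expanding `y ^ {u u'}` gives `w = [d, u'] ∈ V 6`.
Take `1 ≠ v ∈ V 12`, `d ^ {v⁻¹} = d A a`, `A ∈ U_{[6,10]}`, `a ∈ U 11`; `d = a ^ μ(v)` (`shift_top`), so `a` commutes with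
`u' ∈ U 9`.  `(w d) ^ {v⁻¹} = (d A a) ^ {u'}` gives `(w ^ {v⁻¹}) d A = w d A ^ {u'}`; `w ^ {v⁻¹} = w e w'`, `e ∈ U_{[7,9]}`,
`w' ∈ V 10`; `A ^ {u'} A⁻¹ ∈ U_{[6,9]}`, so `w' ∈ U_{[6,9]}`, `w' = 1`, `w = 1`.  `half`: `d ∈ V 5 = 1`. -/
theorem cm5_mu {y u κ l : G} (hy : y ∈ V U 4 i) (mu : Mu 8 U j u κ l) (hj : j = i + 5 := by omega) :
    cm y u = cj y (κ * u * l) := by
  obtain ⟨h1, w, hw, e⟩ := h.toMP.lemS (m := 4) rfl (by omega) (by omega) hy mu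
  rwa [h.dec5_one hy (Ueq mu.a_mem) (W_self (U := U) (i + 1) ▸ Wle hw) (Veq h1) e, one_mul] at e
theorem cm5_mu' {y u κ l : G} (hy : y ∈ V U 4 i) (mu : Mu 8 U j u κ l) (hj : j = i - 5 := by omega) :
    cm u y⁻¹ = cj y (κ * u * l) := by
  have e := (h.rev 0 rfl).cm5_mu (i := -i) (j := -j) (y := y) (by rw [h.toMP.V_rev]; exact Veq hy)
    (Mu.rev h.toMP 0 (by simpa using mu))
  have h1 := (h.toMP.lemS' (m := 4) rfl (by omega) (by omega) hy mu).1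
  refine mul_right_cancel (b := y) ?_
  rw [← cj_eq', cj_eq, e, (h.cV hy h1.1).eq]
theorem cm5 {y u : G} (hy : y ∈ V U 4 i) (hu : u ∈ U j) (hj : j = i + 5 := by omega) (hk : k = i + 2 := by omega) :
    cm y u ∈ V U 4 k := by
  obtain ⟨d, hd, z, hz, e⟩ := h.dec5 hy (Ueq hu)
  rw [e, h.dec5_one hy (Ueq hu) hd hz e, one_mul]
  exact Veq hz
theorem cm5' {y u : G} (hy : y ∈ V U 4 i) (hu : u ∈ U j) (hj : j = i - 5 := by omega) (hk : k = i - 2 := by omega) :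
    cm u y ∈ V U 4 k := by
  have e := (h.rev 0 rfl).cm5 (i := -i) (j := -j) (k := -k) (y := y) (u := u) (by rw [h.toMP.V_rev]; exact Veq hy)
    (Ueq (U := U) hu)
  rw [h.toMP.V_rev] at e
  rw [← cm_inv]
  exact inv_mem (Veq e)
theorem cm5_ex (hj : j = i + 5 ∨ j = i - 5) : ∃ k : ℤ, k - 4 ≤ i ∧ i ≤ k + 4 ∧ k - 4 ≤ j ∧ j ≤ k + 4 ∧
    ∀ y ∈ V U 4 i, ∀ u ∈ U j, cm y u ∈ V U 4 k := by
  rcases hj with hj | hj
  · exact ⟨i + 2, by omega, by omega, by omega, by omega, fun y hy u hu => h.cm5 hy hu⟩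
  · exact ⟨i - 2, by omega, by omega, by omega, by omega, fun y hy u hu => cm_inv u y ▸ inv_mem (h.cm5' hy hu)⟩
theorem cm5_mul {y u u' : G} (hy : y ∈ V U 4 i) (hu : u ∈ U j) (hu' : u' ∈ U j) (hj : j = i + 5 ∨ j = i - 5 := by omega) :
    cm y (u * u') = cm y u * cm y u' ∧ cm (u * u') y = cm u y * cm u' y := by
  obtain ⟨k, -, -, _, _, c⟩ := h.cm5_ex hj
  have e : cm y (u * u') = cm y u' * cm y u := by rw [cm_mul_right, cj_eq_self.2 (h.cV (c y hy u hu) hu')]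
  exact ⟨e.trans (h.cV (c y hy u' hu') (c y hy u hu).1).eq, by rw [← cm_inv, e, mul_inv_rev, cm_inv, cm_inv]⟩
theorem mul_cm5 {y y' u : G} (hy : y ∈ V U 4 i) (hy' : y' ∈ V U 4 i) (hu : u ∈ U j)
    (hj : j = i + 5 ∨ j = i - 5 := by omega) : cm (y * y') u = cm y u * cm y' u ∧ cm u (y * y') = cm u y * cm u y' := by
  obtain ⟨k, _, _, -, -, c⟩ := h.cm5_ex hj
  have e : cm (y * y') u = cm y u * cm y' u := by rw [cm_mul_left, cj_eq_self.2 (h.cV (c y hy u hu) hy'.1)]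
  exact ⟨e, by rw [← cm_inv, e, (h.cV (c y hy u hu) (c y' hy' u hu).1).eq, mul_inv_rev, cm_inv, cm_inv]⟩
theorem nc5 {y u : G} (hy : y ∈ U i) (hu : u ∈ U j) (c : Commute y u) (hj : j = i + 5 ∨ j = i - 5 := by omega) :
    y = 1 ∨ u = 1 := by
  rcases hj with hj | hj
  · exact h.toMP.nc (by omega) (by omega) hy hu c
  · exact (h.toMP.nc (by omega) (by omega) hu hy c.symm).symm
theorem cm5_inj {y u u' : G} (hy : y ∈ V U 4 i) (y1 : y ≠ 1) (hu : u ∈ U j) (hu' : u' ∈ U j) (e : cm y u = cm y u')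
    (hj : j = i + 5 ∨ j = i - 5 := by omega) : u = u' :=
  mul_inv_eq_one.1 ((h.nc5 hy.1 (mul_mem hu (inv_mem hu'))
    (cj_eq_self.1 (by rw [← cj_cj, cj_eq y u, e, ← cj_eq, cj_cj_inv])) hj).resolve_left y1)
theorem inj_cm5 {y y' u : G} (hy : y ∈ V U 4 i) (hy' : y' ∈ V U 4 i) (hu : u ∈ U j) (u1 : u ≠ 1) (e : cm y u = cm y' u)
    (hj : j = i + 5 ∨ j = i - 5 := by omega) : y = y' := by
  have e1 : cj u y = cj u y' := by
    rw [← inv_inj, ← cj_inv, ← cj_inv, cj_eq', cj_eq', inv_inv, e]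
  exact mul_inv_eq_one.1 ((h.nc5 (mul_mem hy.1 (inv_mem hy'.1)) hu
    (cj_eq_self.1 (by rw [← cj_cj, e1, cj_cj_inv])).symm hj).resolve_right u1)
theorem odd_comm (hi : i % 2 = 1) {a b : G} (ha : a ∈ U i) (hb : b ∈ U i) : Commute a b := by
  obtain ⟨y, hy, y1⟩ := h.exV (i := i - 5) (by omega)
  refine h.cm5_inj hy y1 (mul_mem ha hb) (mul_mem hb ha) ?_
  rw [(h.cm5_mul hy ha hb).1, (h.cm5_mul hy hb ha).1]
  exact (h.cV (h.cm5 (k := i - 3) hy ha) (h.cm5 (k := i - 3) hy hb).1).eq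

theorem kap_not0 {v κ l : G} (hv : v ∈ V U 4 i) (mu : Mu 8 U i v κ l) : κ ∉ V U 4 (i + 8) := fun hκ => by
  have H := h.toMP
  obtain ⟨u, hu, u1⟩ := H.ne (i + 5)
  have hc := h.cm5 (k := i + 2) hv (inv_mem hu)
  have e : cj u (κ * v * l) = cm v u⁻¹ * (cm (cm v u⁻¹) l * cj u l) := by
    rw [← cj_cj, ← cj_cj, cj_eq_self.2 (h.cV hκ hu).symm, cj_eq' u v, cj_mul, cj_eq (cm v u⁻¹), mul_assoc]
  have c := H.ind' (i := i + 2) (k := i + 2) (l := i + 3) (j := i + 8) (UW hc.1) (by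
    rw [eq_mul_inv_of_mul_eq e.symm]
    exact mul_mem (UW (mu.rf.cj hu)) (inv_mem (mul_mem (Wle (H.commZ hc.1 mu.l_mem)) (cj_mem_of (UW hu) (UW mu.l_mem)))))
  exact (h.nc5 hv.1 (inv_mem hu) (cm_eq_one.1 c)).elim mu.a_ne (inv_ne_one.2 u1)

/-- `i = 2`, `1 ≠ u ∈ U 7`: if `κ ∈ V 10` then `u ^ μ = ([v, u⁻¹] u) ^ l ∈ [v, u⁻¹] U_{[5,9]}` lies in `U 5`, but
`1 ≠ [v, u⁻¹] ∈ V 4`.  `Mu.inv` for `l`. -/
theorem kap_not {v κ l : G} (hv : v ∈ V U 4 i) (mu : Mu 8 U i v κ l) (hj : j = i + 8 ∨ j = i - 8 := by omega) :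
    κ ∉ V U 4 j ∧ l ∉ V U 4 j := by
  have e : V U 4 j = V U 4 (i + 8) := by
    rcases hj with rfl | rfl
    · rfl
    · exact h.toMP.V_per ⟨-1, by push_cast; ring⟩
  rw [e]
  exact ⟨h.kap_not0 hv mu, fun hl => h.kap_not0 (inv_mem hv) mu.inv (inv_mem hl)⟩

end Oc

end CL.FS
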