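/-
S1144, octagons: the commutators `[V i, U (i + 6)]`.
-/
import Cfsg.Agent.CHEV.FS.O0

set_option autoImplicit false
set_option linter.unusedSectionVars false

namespace CL.FS

variable {G : Type*} [Group G] [Finite G] {p : ℕ} {U : ℤ → Subgroup G}

namespace Oc

variable (h : Oc p U) {i j k : ℤ}
include h

/-! Prove the statements at the concrete index of the docstring and transport with `h.shift`, `h.rev`, `V_shift`, `V_rev`
(for odd `i` the group `V i` is trivial), or directly for general `i`.  `μ = κ a l`. -/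

/-- `i = 4`; `lemS`.  `u ∈ U 9` commutes with `b`: `y ^ {u b} = y ^ {b u}` gives `e ^ u = e` (`[y, u] ∈ V 6`).  For `U 3`:
`y ^ b = y' ^ {l⁻¹}` with `l = λ(b) ∈ U 2`, `y' = y ^ μ(b)`; `u ∈ U 3` commutes with `l`, and `[u, y'⁻¹] ∈ V 6`. -/
theorem e_comm {y b : G} (hy : y ∈ V U 4 i) (hb : b ∈ U (i + 6)) : ∃ e ∈ W U (i + 1) (i + 3), ∃ y' ∈ V U 4 (i + 4),
    cm y b = e * y' ∧ (∀ u ∈ U (i + 5), Commute e u) ∧ ∀ u ∈ U (i - 1), Commute e u := by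
  by_cases b1 : b = 1
  · exact ⟨1, one_mem _, 1, one_mem _, by simp [b1, cm], fun _ _ => Commute.one_left _, fun _ _ => Commute.one_left _⟩
  obtain ⟨κ, l, mu⟩ := h.exists_mu hb b1
  obtain ⟨hy', e, he, E⟩ := h.lemS (m := 4) rfl (by omega) (by omega) hy mu
  have yb : cj y b = cj (cj y (κ * b * l)) l⁻¹ := by
    rw [← cj_cj, cj_cj_inv, ← cj_cj, cj_eq_self.2 (h.cV hy (mu.κ_mem' h.toMP))]
  generalize cj y (κ * b * l) = y' at hy' E yb
  replace hy' : y' ∈ V U 4 (i + 4) := Veq hy'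
  replace he : e ∈ W U (i + 1) (i + 3) := Wle he
  have Eb : cj y b = y * (e * y') := by rw [cj_eq, E]
  refine ⟨e, he, y', hy', E, fun u hu => cj_eq_self.1 ?_, fun u hu => cj_eq_self.1 ?_⟩
  · have hz : cm y u ∈ V U 4 (i + 2) := h.cm5 hy hu
    have c := h.comm_succ hu (Ueq hb)
    have e1 : cj (cj y u) b = cj (cj y b) u := by rw [cj_cj, cj_cj, c.eq]
    rw [Eb, cj_eq y u, cj_mul, cj_mul, cj_mul, Eb, cj_eq y u, cj_eq_self.2 (h.cV hz hb), cj_eq_self.2 (h.cV hy' hu),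
      mul_assoc, mul_assoc y, mul_right_inj, ← (h.cVW hz (mul_mem (Wle he) (UW (VU hy')) : e * y' ∈ W U (i + 1) (i + 4))).eq,
      mul_right_inj, mul_left_inj] at e1
    exact e1.symm
  · have hz : cm u y'⁻¹ ∈ V U 4 (i + 2) := h.cm5' (inv_mem hy') hu
    have hl := mu.l_mem' h.toMP
    have c := (h.comm_succ hl (Ueq hu)).inv_left
    have e1 : cj (cj y b) u = cj (cj y' u) l⁻¹ := by rw [yb, cj_cj y', cj_cj y', c.eq]
    rw [cj_eq' y' u, cj_mul _ y', ← yb, Eb, cj_mul, cj_mul, cj_eq' y' u, cj_eq_self.2 (h.cV hy hu),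
      cj_eq_self.2 (h.cV hz (inv_mem hl)), ← mul_assoc _ y, (h.cV hz (VU hy)).eq, mul_assoc y, mul_right_inj,
      ← mul_assoc _ e, (h.cVW hz he).eq, ← mul_assoc, mul_left_inj, mul_left_inj] at e1
    exact e1

/-- `i = 4`.  Take `1 ≠ c ∈ U 11`, `[y, c] = A y₁₀` (`lemS`), `A = a A'`, `a ∈ U 5`, `A' ∈ U_{[6,9]}`; `a ≠ 1` by
`shift_bot` (for `Mu 4 y`, `b := c⁻¹`).  `y ^ {c b} = y ^ {b c}` gives `[A, b] = [e, c] ∈ V 8`, so `b ^ A = w b`, `w ∈ V 8`.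
With `a = κ⁻¹ μ l⁻¹` (`κ, l ∈ U 13`): `b ^ {κ⁻¹ μ} = (w b) ^ {A'⁻¹ l} = w ([w, l] b) ^ {A'⁻¹ l}` (`[w, l] ∈ V 10`); the left side
is in `U_{[6,8]}`, so `lemF` (window `[6,13]`, `k = 8`) gives `[w, l] b = 1`. -/
theorem e_V {y b e y' : G} (hy : y ∈ V U 4 i) (y1 : y ≠ 1) (hb : b ∈ U (i + 6)) (he : e ∈ V U 4 (i + 2))
    (hy' : y' ∈ V U 4 (i + 4)) (E : cm y b = e * y') : b ∈ V U 4 (i + 6) := by
  obtain ⟨c, hc, c1⟩ := h.ne (i + 7)
  obtain ⟨κ₀, l₀, mu₀⟩ := h.exists_mu hc c1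
  obtain ⟨ht, A, hA, EA⟩ := h.lemS (m := 4) rfl (by omega) (by omega) hy mu₀
  generalize cj y (κ₀ * c * l₀) = t at ht EA
  replace ht : t ∈ V U 4 (i + 6) := Veq ht
  replace hA : A ∈ W U (i + 1) (i + 5) := Wle hA
  obtain ⟨a, ha, A', hA', rfl⟩ := h.dec_bot (by omega) hA
  have a1 : a ≠ 1 := by
    obtain ⟨κ, l, m⟩ := h.exists_mu (VU hy) y1
    have := (m.shift_bot h.toMP (b := c⁻¹) (y := A' * t) (Ueq (inv_mem hc)) ha (mul_mem (Wle hA') (UW (VU ht)))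
      (by rw [inv_inv, EA, mul_assoc])).1
    rw [this, Ne, cj_eq_one, inv_eq_one]
    exact c1
  have hw : cm e c ∈ V U 4 (i + 4) := h.cm5 he hc
  have e1 : cj (cj y c) b = cj (cj y b) c := by rw [cj_cj, cj_cj, (h.comm_succ hb (Ueq hc)).eq]
  have hAb : cj (a * A') b ∈ W U (i + 1) (i + 6) := cj_mem_of (Wle hA) (UW hb)
  have e2 : cj (a * A') b = a * A' * cm e c := by
    rw [cj_eq y c, cj_eq y b, EA, E, cj_mul y, cj_mul y, cj_eq y c, cj_eq y b, EA, E, cj_mul _ t, cj_mul e,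
      cj_eq_self.2 (h.cV ht hb), cj_eq_self.2 (h.cV hy' hc), cj_eq e, mul_assoc y, mul_assoc y, mul_right_inj] at e1
    have k1 := (h.cVW he (mul_mem hAb (UW (VU ht)))).eq
    have k2 := (h.cVW hy' (mul_mem hAb (UW (VU ht)))).eq
    have k3 := (h.cV he (VU hw)).eq
    have k4 := (h.cV hw (VU ht)).eq
    generalize cj (a * A') b = B at *
    generalize cm e c = w at *
    generalize a * A' = A at *
    apply mul_right_cancel (b := t * e * y')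
    calc B * (t * e * y') = (B * t) * e * y' := by group
      _ = e * y' * (B * t) := by rw [← k1, mul_assoc e, ← k2, mul_assoc]
      _ = A * (t * (e * w)) * y' := by rw [e1]; group
      _ = A * w * (t * e * y') := by rw [k3, ← mul_assoc t, ← k4]; group
  obtain ⟨κ, l, m⟩ := h.exists_mu ha a1
  have hw' := inv_mem hw
  have e3 : cj b (a * A') = (cm e c)⁻¹ * b := by
    rw [(h.cV hw' hb).eq, eq_mul_inv_iff_mul_eq, ← inv_mul_eq_iff_eq_mul.2 e2]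
    simp only [cj]; group
  generalize (cm e c)⁻¹ = w at *
  have hz : cm w l ∈ V U 4 (i + 6) := h.cm5 hw' m.l_mem
  have e4 : cj (cj b κ⁻¹) (κ * a * l) = w * cj (cm w l * b) (A'⁻¹ * l) := by
    rw [Mu.cj_al, ← mul_inv_cancel_right a A', ← cj_cj b, e3, cj_cj, cj_mul, cj_mul, ← cj_cj w, ← cj_cj (cm w l),
      cj_eq_self.2 (h.cVW hw' (inv_mem hA')), cj_eq_self.2 (h.cVW hz (inv_mem hA')),
      cj_eq_self.2 (h.cV hz m.l_mem), cj_eq w, mul_assoc]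
  have e5 : cj (cj b κ⁻¹) (κ * a * l) ∈ W U (i + 2) (i + 4) :=
    Wle ((m.rf.W (i + 6) (i + 8) _).1 (h.pres_bot (inv_mem m.κ_mem) (UW hb)))
  rw [e4, mul_mem_cancel_left (UW (VU hw'))] at e5
  rw [eq_inv_of_mul_eq_one_right (h.lemF (j := i + 9) (by omega) (mul_mem (UW (VU hz)) (UW hb))
    (mul_mem (inv_mem (Wle hA')) (UW m.l_mem)) e5)]
  exact inv_mem hz

/-- `i = 2`: `lemS` for `w⁻¹`, `lemS'` and `uniq`.  If `e = 1`, `v, w ≠ 1`: `w ^ v = b c w`, `w ^ μ(v) = b ^ l c w = b`, so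
`[b, l] = c⁻¹ w⁻¹`, `e_V` gives `l ∈ V 10`, against `kap_not`. -/
theorem vv {v w : G} (hv : v ∈ V U 4 i) (hw : w ∈ V U 4 (i + 6)) : ∃ b ∈ V U 4 (i + 2), ∃ e ∈ U (i + 3), ∃ c ∈ V U 4 (i + 4),
    cm v w⁻¹ = b * e * c ∧ (v ≠ 1 → w ≠ 1 → e ≠ 1) ∧ (∀ κ l, Mu 8 U i v κ l → b = cj w (κ * v * l)) ∧
      ∀ κ l, Mu 8 U (i + 6) w⁻¹ κ l → c = cj v (κ * w⁻¹ * l) := by
  by_cases v1 : v = 1
  · exact ⟨1, one_mem _, 1, one_mem _, 1, one_mem _, by simp [v1, cm], fun k => (k v1).elim,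
      fun _ _ m => (m.a_ne v1).elim, fun _ _ _ => by rw [v1, one_cj]⟩
  by_cases w1 : w = 1
  · exact ⟨1, one_mem _, 1, one_mem _, 1, one_mem _, by simp [w1, cm], fun _ k => (k w1).elim,
      fun _ _ _ => by rw [w1, one_cj], fun _ _ m => (m.a_ne (inv_eq_one.2 w1)).elim⟩
  obtain ⟨κ, l, m⟩ := h.exists_mu (VU hv) v1
  obtain ⟨κ', l', m'⟩ := h.exists_mu (inv_mem (VU hw)) (inv_ne_one.2 w1)
  obtain ⟨hc, x, hx, E⟩ := h.lemS (m := 4) rfl (by omega) (by omega) hv m'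
  obtain ⟨hb, x', hx', E'⟩ := h.lemS' (m := 4) rfl (by omega) (by omega) hw m
  replace hc : cj v (κ' * w⁻¹ * l') ∈ V U 4 (i + 4) := Veq hc
  replace hb : cj w (κ * v * l) ∈ V U 4 (i + 2) := Veq hb
  obtain ⟨e, he, x'', hx'', rfl⟩ := h.dec_bot (i := i + 3) (j := i + 5) (by omega) (Wle hx')
  obtain ⟨rfl, -⟩ := h.uniq (i := i + 1) (k := i + 3) (j := i + 5) (by omega) (Wle hx) (UW (VU hc))
    (mul_mem (UW (VU hb)) (UW he)) hx'' (by rw [← E, E', mul_assoc _ e])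
  refine ⟨_, hb, e, he, _, hc, E, fun _ _ e1 => ?_, fun κ₁ l₁ m₁ => ?_, fun κ₁ l₁ m₁ => ?_⟩
  · rw [e1, mul_one] at E
    have b1 : cj w (κ * v * l) ≠ 1 := by rwa [Ne, cj_eq_one]
    have k : cj w (κ * v * l) = cj (cm v w⁻¹ * w) l := by
      rw [← cj_cj, ← cj_cj, cj_eq_self.2 (h.cV hw m.κ_mem), cj_eq' w]
    generalize cj w (κ * v * l) = b at *
    generalize cj v (κ' * w⁻¹ * l') = c at *
    rw [E, cj_mul, cj_mul, cj_eq_self.2 (h.cV hc m.l_mem), cj_eq_self.2 (h.cV hw m.l_mem), cj_eq b, mul_assoc,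
      mul_assoc, left_eq_mul, mul_eq_one_iff_eq_inv, (h.cV hc (VU hw)).eq, mul_inv_rev] at k
    exact (h.kap_not (j := i + 2 + 6) hv m).2 (h.e_V hb b1 (Ueq m.l_mem) (Veq (inv_mem hc)) (Veq (inv_mem hw)) k)
  · rw [(m.uniq h.toMP m₁).1, (m.uniq h.toMP m₁).2]
  · rw [(m'.uniq h.toMP m₁).1, (m'.uniq h.toMP m₁).2]

theorem even_of {y : G} (hy : y ∈ V U 4 i) (y1 : y ≠ 1) : i % 2 = 0 := by_contra fun k => y1 (h.V_odd (by omega) hy)

theorem emap {w : G} (hw : w ∈ V U 4 (i + 6)) (w1 : w ≠ 1) : ∃ f : V U 4 i → U (i + 3), Function.Injective f ∧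
    ∀ v, ∃ b ∈ V U 4 (i + 2), ∃ c ∈ V U 4 (i + 4), cm v.1 w⁻¹ = b * f v * c := by
  have : ∀ v : V U 4 i, ∃ e : U (i + 3), (v.1 ≠ 1 → e.1 ≠ 1) ∧ ∃ b ∈ V U 4 (i + 2), ∃ c ∈ V U 4 (i + 4),
      cm v.1 w⁻¹ = b * e * c := fun v =>
    let ⟨b, hb, e, he, c, hc, E, k, _⟩ := h.vv v.2 hw
    ⟨⟨e, he⟩, fun v1 => k v1 w1, b, hb, c, hc, E⟩
  choose f f1 hf using this
  refine ⟨f, fun v v' E => by_contra fun ne => f1 (v * v'⁻¹) (by simpa [mul_inv_eq_one] using ne) ?_, hf⟩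
  obtain ⟨b, hb, c, hc, k⟩ := hf v
  obtain ⟨b', hb', c', hc', k'⟩ := hf v'
  obtain ⟨b'', hb'', c'', hc'', k''⟩ := hf (v * v'⁻¹)
  have e := cm_mul_left (v * v'⁻¹).1 v'.1 w⁻¹
  have he := (f (v * v'⁻¹)).2
  have he' := (f v').2
  rw [← Subgroup.coe_mul, inv_mul_cancel_right, k, k', k'', E, cj_eq_self.2 (h.cVW v'.2
    (mul_mem (mul_mem (UW (VU hb'')) (UW he)) (UW (VU hc'')) : _ ∈ W U (i + 2) (i + 4))).symm] at e
  generalize (f (v * v'⁻¹)).1 = x at *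
  generalize (f v').1 = x' at *
  have e' : b * x' * c = b'' * b' * (x * x') * (c'' * c') := by
    have k1 := (h.cV hb' he).eq
    have k2 := (h.cVW hc'' (mul_mem (UW (VU hb')) (UW he') : b' * x' ∈ W U (i + 2) (i + 3))).eq
    calc _ = b'' * x * (c'' * (b' * x')) * c' := by rw [e]; group
      _ = b'' * (x * b') * x' * (c'' * c') := by rw [k2]; group
      _ = _ := by rw [← k1]; group
  have u1 := (h.uniq (i := i + 2) (k := i + 3) (j := i + 4) (by omega) (mul_mem (UW (VU hb)) (UW he')) (UW (VU hc))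
    (mul_mem (UW (VU (mul_mem hb'' hb'))) (UW (mul_mem he he'))) (UW (VU (mul_mem hc'' hc'))) e').1
  exact right_eq_mul.1 (h.uniq (i := i + 2) (k := i + 2) (j := i + 3) (by omega) (UW (VU hb)) (UW he')
    (UW (VU (mul_mem hb'' hb'))) (UW (mul_mem he he')) u1).2

theorem inj5 {y : G} (hy : y ∈ V U 4 i) (y1 : y ≠ 1) :
    Function.Injective fun u : U (i + 5) => (⟨cm y u.1, h.cm5 hy u.2⟩ : V U 4 (i + 2)) :=
  fun u u' e => Subtype.ext (h.cm5_inj hy y1 u.2 u'.2 (congrArg Subtype.val e))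

/-- For fixed `w ≠ 1` the map `v ↦ e` of `vv` is an injective homomorphism `V i → U (i + 3)` (`[v, w⁻¹]` commutes with `V i`;
`uniq`), and `u ↦ [y, u]` is injective `U (i + 5) → V (i + 2)`; `card_V`, `card_U`. -/
theorem card_odd (hi : i % 2 = 1) (hj : j % 2 = 0) : Nat.card (U i) = Nat.card (V U 4 j) := by
  obtain ⟨y, hy, y1⟩ := h.exV (i := 0) rfl
  obtain ⟨w, hw, w1⟩ := h.exV (i := 0 + 6) rfl
  obtain ⟨f, inj, -⟩ := h.emap hw w1
  exact le_antisymm (((h.card_U (by omega)).trans_le (Nat.card_le_card_of_injective _ (h.inj5 hy y1))).trans_eq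
    (h.card_V (by omega))) (((h.card_V (by omega)).trans_le (Nat.card_le_card_of_injective _ inj)).trans_eq
    (h.card_U (by omega)))

theorem e_onto {w e : G} (hw : w ∈ V U 4 (i + 6)) (w1 : w ≠ 1) (he : e ∈ U (i + 3)) :
    ∃ v ∈ V U 4 i, ∃ b ∈ V U 4 (i + 2), ∃ c ∈ V U 4 (i + 4), cm v w⁻¹ = b * e * c := by
  obtain ⟨f, inj, hf⟩ := h.emap hw w1
  have := h.even_of hw w1
  obtain ⟨v, hv⟩ := (inj.bijective_of_nat_card_le (h.card_odd (by omega) (by omega)).le).2 ⟨e, he⟩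
  exact ⟨v, v.2, by simpa only [hv] using hf v⟩

theorem surj5 {y w : G} (hy : y ∈ V U 4 i) (y1 : y ≠ 1) (hw : w ∈ V U 4 (i + 2)) : ∃ u ∈ U (i + 5), cm y u = w := by
  have := h.even_of hy y1
  obtain ⟨u, hu⟩ := ((h.inj5 hy y1).bijective_of_nat_card_le (h.card_odd (by omega) (by omega)).ge).2 ⟨w, hw⟩
  exact ⟨u, u.2, congrArg Subtype.val hu⟩
theorem surj5' {y w : G} (hy : y ∈ V U 4 i) (y1 : y ≠ 1) (hw : w ∈ V U 4 (i - 2)) : ∃ u ∈ U (i - 5), cm u y = w := by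
  have := h.even_of hy y1
  have inj : Function.Injective fun u : U (i - 5) => (⟨cm u.1 y, h.cm5' hy u.2⟩ : V U 4 (i - 2)) := fun u u' e =>
    Subtype.ext (h.cm5_inj hy y1 u.2 u'.2 (by rw [← cm_inv, ← cm_inv u'.1]; exact congrArg (·.1⁻¹) e))
  obtain ⟨u, hu⟩ := (inj.bijective_of_nat_card_le (h.card_odd (by omega) (by omega)).ge).2 ⟨w, hw⟩
  exact ⟨u, u.2, congrArg Subtype.val hu⟩

/-- `e ∈ U 5`, `[v₂, w₈⁻¹] = b e c`: by `e_comm`, `b e` commutes with `U 7`, `U 1`.  So `[U 5, U 7] = [U 5, U 1] = 1`; shift;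
`odd_comm`. -/
theorem odd_c {a b : G} (ha : a ∈ U i) (hb : b ∈ U j) (hi : i % 2 = 1 := by omega) (hj : j % 2 = 1 := by omega)
    (h1 : i - 4 ≤ j := by omega) (h2 : j ≤ i + 4 := by omega) : Commute a b := by
  have key : ∀ k, k % 2 = 0 → ∀ a ∈ U (k + 3), (∀ u ∈ U (k + 5), Commute a u) ∧ ∀ u ∈ U (k - 1), Commute a u :=
    fun k hk a ha => by
      obtain ⟨w, hw, w1⟩ := h.exV (i := k + 6) (by omega)
      obtain ⟨v, hv, b, hb, c, hc, E⟩ := h.e_onto hw w1 ha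
      obtain ⟨e, he, y', hy', E', c1, c2⟩ := h.e_comm hv (inv_mem (VU hw))
      obtain ⟨rfl, -⟩ := h.uniq (i := k + 1) (k := k + 3) (j := k + 4) (by omega) he (UW (VU hy'))
        (mul_mem (UW (VU hb)) (UW ha)) (UW (VU hc)) (E'.symm.trans E)
      exact ⟨fun u hu => by simpa using (h.cV hb hu).inv_left.mul_left (c1 u hu),
        fun u hu => by simpa using (h.cV hb hu).inv_left.mul_left (c2 u hu)⟩
  obtain e | e | e | e | e : j = i ∨ j = i + 2 ∨ j = i - 4 ∨ i = j + 2 ∨ i = j - 4 := by omega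
  · exact h.odd_comm hi ha (Ueq hb)
  · exact (key (i - 3) (by omega) a (Ueq ha)).1 b (Ueq hb)
  · exact (key (i - 3) (by omega) a (Ueq ha)).2 b (Ueq hb)
  · exact ((key (j - 3) (by omega) b (Ueq hb)).1 a (Ueq ha)).symm
  · exact ((key (j - 3) (by omega) b (Ueq hb)).2 a (Ueq ha)).symm

end Oc

end CL.FS
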