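/-
S1144, octagons: the commutators `[U i, U (i ± 3)]`, `[U i, U (i + 5)]` for odd `i`.
-/
import Cfsg.Agent.CHEV.FS.O1

set_option autoImplicit false
set_option linter.unusedSectionVars false

namespace CL.FS

variable {G : Type*} [Group G] [Finite G] {p : ℕ} {U : ℤ → Subgroup G}

namespace Oc

variable (h : Oc p U) {i j k : ℤ}
include h

/-- `{x ∈ Q | [x, Q] ≤ V c}`, `Q = U_{[c-3,c+3]}` -/
def CC (c : ℤ) : Subgroup G where
  carrier := {x | x ∈ W U (c - 3) (c + 3) ∧ ∀ q ∈ W U (c - 3) (c + 3), cm x q ∈ V U 4 c}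
  one_mem' := ⟨one_mem _, fun q _ => by rw [cm_eq_one.2 (Commute.one_left q)]; exact one_mem _⟩
  mul_mem' := fun {x y} hx hy => ⟨mul_mem hx.1 hy.1, fun q hq => by
    rw [cm_mul_left, cj_eq_self.2 (h.cVW (hx.2 q hq) hy.1)]
    exact mul_mem (hx.2 q hq) (hy.2 q hq)⟩
  inv_mem' := fun {x} hx => ⟨inv_mem hx.1, fun q hq => by
    have e := cm_mul_left x x⁻¹ q
    rw [mul_inv_cancel, cm_eq_one.2 (Commute.one_left q), cj_eq_self.2 (h.cVW (hx.2 q hq) (inv_mem hx.1))] at e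
    rw [eq_inv_of_mul_eq_one_right e.symm]
    exact inv_mem (hx.2 q hq)⟩

theorem mem_CC {c : ℤ} {x : G} (hx : x ∈ W U (c - 3) (c + 3))
    (H : ∀ k, c - 3 ≤ k → k ≤ c + 3 → ∀ q ∈ U k, cm x q ∈ V U 4 c) : x ∈ h.CC c := ⟨hx, fun q hq => by
  refine (W_ind (P := fun q => q ∈ W U (c - 3) (c + 3) ∧ cm x q ∈ V U 4 c) ⟨one_mem _, ?_⟩ (fun a b ha hb => ⟨mul_mem ha.1 hb.1, ?_⟩)
    (fun k h1 h2 a ha => ⟨UW ha, H k h1 h2 a ha⟩) hq).2
  · rw [cm_eq_one.2 (Commute.one_right x)]; exact one_mem _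
  · rw [cm_mul_right, cj_eq_self.2 (h.cVW ha.2 hb.1)]
    exact mul_mem hb.2 ha.2⟩

theorem CC_cj {c : ℤ} {x g : G} (hx : x ∈ h.CC c) (hg : g ∈ U (c + 4)) : cj x g ∈ h.CC c :=
  ⟨h.toMP.pres_bot hg hx.1, fun q hq => by
    have := hx.2 _ (h.toMP.pres_bot (inv_mem hg) hq)
    rw [← cj_inv_cj q g, ← cj_cm, cj_eq_self.2 (h.cV this hg)]
    exact this⟩

theorem V_CC {c : ℤ} {y : G} (hy : y ∈ V U 4 i) (hi : i = c - 2 ∨ i = c ∨ i = c + 2 := by omega) : y ∈ h.CC c := by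
  refine h.mem_CC (UW (VU hy)) fun k h1 h2 q hq => ?_
  by_cases e : i - 4 ≤ k ∧ k ≤ i + 4
  · rw [cm_eq_one.2 (h.cV hy hq)]; exact one_mem _
  · by_cases e' : k = i + 5
    · exact h.cm5 hy hq
    · rw [← cm_inv]; exact inv_mem (h.cm5' hy hq)

theorem U_CC {c : ℤ} (hc : c % 2 = 0) {a : G} (ha : a ∈ U (c + 1)) : a ∈ h.CC c := by
  obtain ⟨w, hw, w1⟩ := h.exV (i := c - 2 + 6) (by omega)
  obtain ⟨v, hv, b, hb, d, hd, e⟩ := h.e_onto hw w1 (Ueq ha)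
  have h1 := h.CC_cj (h.V_CC (c := c) hv) (Ueq (inv_mem (VU hw)))
  rw [cj_eq, e] at h1
  have h2 := (mul_mem_cancel_left (h.V_CC (c := c) hv)).1 h1
  exact (mul_mem_cancel_left (h.V_CC (c := c) hb)).1 ((mul_mem_cancel_right (h.V_CC (c := c) hd)).1 h2)

theorem U_CC' {c : ℤ} (hc : c % 2 = 0) {a : G} (ha : a ∈ U (c - 1)) : a ∈ h.CC c := ⟨UW ha, fun q hq => by
  have := ((h.rev (2 * c) (by omega)).U_CC hc (a := a) (Ueq (U := U) ha)).2 q (by rw [W_rev]; exact Wle hq)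
  rw [h.toMP.V_rev] at this
  exact Veq this⟩

/-- `a ∈ C (i + 1)` -/
theorem cm3 {a g : G} (ha : a ∈ U i) (hg : g ∈ U j) (hi : i % 2 = 1 := by omega) (hj : j = i + 3 := by omega)
    (hk : k = i + 1 := by omega) : cm a g ∈ V U 4 k := (h.U_CC' (c := k) (by omega) (Ueq ha)).2 g (UW hg)
theorem cm3' {a g : G} (hg : g ∈ U j) (ha : a ∈ U i) (hi : i % 2 = 1 := by omega) (hj : j = i - 3 := by omega)
    (hk : k = i - 1 := by omega) : cm g a ∈ V U 4 k := by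
  rw [← cm_inv]; exact inv_mem ((h.U_CC (c := k) (by omega) (Ueq ha)).2 g (UW hg))

theorem cm5U {a g : G} (ha : a ∈ U i) (hg : g ∈ U (i + 5)) (hi : i % 2 = 1) :
    ∃ x ∈ W U (i + 1) (i + 2), ∃ w ∈ V U 4 (i + 3), cm a g⁻¹ = x * w := by
  have a1 : a ∈ h.CC (i + 1) := h.U_CC' (by omega) (Ueq ha)
  have x1 : cm a g⁻¹ ∈ h.CC (i + 1) := by
    have := h.CC_cj a1 (Ueq (inv_mem hg))
    rw [cj_eq] at this
    exact (mul_mem_cancel_left a1).1 this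
  have x2 : cm a g⁻¹ ∈ W U (i + 1) (i + 4) := Wle (h.toMP.commZ ha (inv_mem hg))
  generalize cm a g⁻¹ = x at x1 x2
  obtain ⟨b, hb, b1⟩ := h.ne (i - 2)
  obtain ⟨κ, l, mu⟩ := h.toMP.exists_mu hb b1
  have t : cm b x ∈ V U 4 (i + 1) := by rw [← cm_inv]; exact inv_mem (x1.2 b (UW hb))
  have hy : cj (cm b x) (κ * b * l)⁻¹ ∈ V U 4 (i + 3) :=
    (h.toMP.V_rf mu.rf).2 (by rw [cj_inv_cj]; exact Veq t)
  have e := h.cm5_mu' hy mu
  rw [cj_inv_cj] at e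
  generalize cj (cm b x) (κ * b * l)⁻¹ = y at hy e
  have c : Commute (x * y) b := by
    have : cj b (x * y) = b := by rw [← cj_cj, cj_eq b x, ← e, ← cj_eq, cj_inv_cj]
    exact (cj_eq_self.1 this).symm
  have z : x * y ∈ W U (i + 1) (i + 4) := mul_mem x2 (UW (VU hy))
  refine ⟨x * y, ?_, y⁻¹, inv_mem hy, by group⟩
  by_cases z1 : x * y = 1
  · rw [z1]; exact one_mem _
  obtain ⟨k, k1, k2, k3, k4⟩ := h.toMP.exists_top (by omega) z z1
  have := h.toMP.cb_top (k := k) (j := i - 2) (Wle k3) (fun e => k4 (h.toMP.inf_mem (by omega) (by omega) (by omega) e k3))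
    (by omega) (UW hb) b1 c
  exact Wle k3

theorem ker3a {c f : G} (hc : c ∈ U i) (c1 : c ≠ 1) (hf : f ∈ U (i - 3)) (e : Commute f c) (hi : i % 2 = 1) :
    f ∈ V U 4 (i - 3) := by
  obtain ⟨κ, l, mu⟩ := h.toMP.exists_mu hc c1
  obtain ⟨x, hx, w, hw, e1⟩ := h.cm5U (mu.l_mem' h.toMP) (g := f) (Ueq hf) (by omega)
  obtain ⟨x', hx', w', hw', e2⟩ := h.cm5U (inv_mem (mu.κ_mem' h.toMP)) (g := f) (Ueq hf) (by omega)
  have E := Mu.cj_al (a := c) (κ := κ) (l := l) f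
  rw [cj_eq_self.2 e, cj_eq' f l, cj_eq' f κ⁻¹, e1, e2, cj_mul, cj_mul] at E
  have r := mu.rf_sub h.toMP
  have hX : cj x' (κ * c * l) ∈ W U (i - 2) (i - 1) := Wle ((r.W _ _ _).1 hx')
  have hW : cj w' (κ * c * l) ∈ V U 4 (i - 3) := Veq ((h.toMP.V_rf r).1 hw')
  have hF : cj f (κ * c * l) ∈ U (i - 5) := Ueq (r.cj hf)
  generalize cj x' (κ * c * l) = X at hX E
  generalize cj w' (κ * c * l) = Y at hW E
  generalize cj f (κ * c * l) = F at hF E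
  have x1 : x = 1 := by
    refine h.toMP.ind' (i := i - 7) (k := i - 6) (l := i - 5) (j := i - 1) (Wle hx) ?_
    rw [show x = X * Y * F * f⁻¹ * w⁻¹ by rw [E]; group]
    exact mul_mem (mul_mem (mul_mem (mul_mem (Wle hX) (UW (VU hW))) (UW hF)) (inv_mem (UW hf))) (inv_mem (UW (VU hw)))
  rw [x1, one_mul] at E
  have X1 : X = 1 := by
    refine h.toMP.ind' (i := i - 5) (k := i - 3) ?_ hX
    rw [show X = w * f * F⁻¹ * Y⁻¹ by rw [← E]; group]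
    exact mul_mem (mul_mem (mul_mem (UW (VU hw)) (UW hf)) (inv_mem (UW hF))) (inv_mem (UW (VU hW)))
  rw [X1, one_mul, (h.cV hW hF).eq] at E
  rw [← (h.toMP.uniq (i := i - 5) (k := i - 5) (j := i - 3) (by omega) (UW hF) (UW (VU hW)) (UW (VU hw)) (UW hf) E).2]
  exact hW

theorem ker3 {c f : G} (hc : c ∈ U i) (c1 : c ≠ 1) (hf : f ∈ U j) (e : Commute f c) (hi : i % 2 = 1 := by omega)
    (hj : j = i - 3 ∨ j = i + 3 := by omega) : f ∈ V U 4 j := by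
  rcases hj with rfl | rfl
  · exact h.ker3a hc c1 hf e hi
  · have := (h.rev (2 * i) (by omega)).ker3a (i := i) (Ueq (U := U) hc) c1 (Ueq (U := U) hf) e hi
    rw [h.toMP.V_rev] at this
    exact Veq this

end Oc

end CL.FS
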