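/-
S1144, octagons: `[U i, U (i + 6)]` for odd `i`; characteristic 2.
-/
import Cfsg.Agent.CHEV.FS.O1

set_option autoImplicit false
set_option linter.unusedSectionVars false

namespace CL.FS

variable {G : Type*} [Group G] [Finite G] {p : ℕ} {U : ℤ → Subgroup G}

namespace Oc.B

variable (h : Oc p U) {i j k : ℤ}
include h

theorem key {a κ l u : G} (mu : Mu 8 U i a κ l) (hu : u ∈ U (i + 6)) (hi : i % 2 = 1) :
    cm a u⁻¹ * u = cj u (κ * a * l) * cm (cj u (κ * a * l)) l⁻¹ := by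
  have c : Commute u κ := h.odd_c hu mu.κ_mem (by omega) (by omega) (by omega) (by omega)
  rw [← cj_eq', ← cj_eq, ← cj_cj, ← cj_cj, cj_cj_inv, cj_eq_self.2 c]

theorem cmA {a u : G} (ha : a ∈ U i) (hu : u ∈ U (i + 6)) (hi : i % 2 = 1) : cm a u ∈ W U (i + 2) (i + 5) := by
  by_cases a1 : a = 1
  · rw [a1, cm_eq_one.2 (Commute.one_left u)]; exact one_mem _
  obtain ⟨κ, l, mu⟩ := h.toMP.exists_mu ha a1
  have e := key h mu (inv_mem hu) hi
  have h3 : cj u⁻¹ (κ * a * l) ∈ U (i + 2) := Ueq (mu.rf.cj (inv_mem hu))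
  rw [inv_inv, mul_inv_eq_iff_eq_mul] at e
  refine h.toMP.inf_mem (i := i + 1) (l := i + 7) (by omega) (by omega) (by omega)
    (Wle (h.toMP.commZ ha hu)) ?_
  rw [e]
  exact mul_mem (mul_mem (UW h3) (Wle (h.toMP.commZ h3 (inv_mem mu.l_mem)))) (UW hu)

theorem cmB {a u : G} (ha : a ∈ U i) (hu : u ∈ U (i + 6)) (hi : i % 2 = 1) : cm a u ∈ W U (i + 2) (i + 4) := by
  have e := cmA (h.rev 0 rfl) (i := -i - 6) (a := u) (u := a) (Ueq (U := U) hu) (Ueq (U := U) ha) (by omega)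
  rw [W_rev, ← cm_inv, inv_mem_iff] at e
  exact h.toMP.inf_mem (i := i + 1) (l := i + 5) (by omega) (by omega) (by omega) (Wle e) (cmA h ha hu hi)

theorem cm6 {a κ l u : G} (mu : Mu 8 U i a κ l) (hu : u ∈ U (i + 6)) (hi : i % 2 = 1) :
    ∃ m ∈ U (i + 4), cm a u⁻¹ = cj u (κ * a * l) * m ∧ cm (cj u (κ * a * l)) l⁻¹ = m * u := by
  have e := key h mu hu hi
  have h3 : cj u (κ * a * l) ∈ U (i + 2) := Ueq (mu.rf.cj hu)
  have h1 := cmB h mu.a_mem (inv_mem hu) hi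
  have h2 := cmB h h3 (Ueq (inv_mem mu.l_mem)) (by omega)
  have e' : (cj u (κ * a * l))⁻¹ * cm a u⁻¹ = cm (cj u (κ * a * l)) l⁻¹ * u⁻¹ := by
    rw [inv_mul_eq_iff_eq_mul, ← mul_assoc, ← e, mul_inv_cancel_right]
  refine ⟨(cj u (κ * a * l))⁻¹ * cm a u⁻¹, ?_, by rw [mul_inv_cancel_left], by rw [e', inv_mul_cancel_right]⟩
  rw [← W_self (U := U)]
  refine h.toMP.inf_mem (i := i + 2) (l := i + 6) (by omega) (by omega) (by omega)
    (mul_mem (inv_mem (UW h3)) h1) ?_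
  rw [e']
  exact mul_mem (Wle h2) (inv_mem (UW hu))

omit h in
theorem mu_la (κ a l : G) : a * l * cj κ (κ * a * l) = κ * a * l := by simp only [cj]; group

theorem inv6 {a κ l y : G} (mu : Mu 8 U i a κ l) (hy : y ∈ V U 4 (i + 5)) :
    cj (cj y (κ * a * l)) (κ * a * l) = y⁻¹ := by
  have e1 := h.cm5_mu' hy mu
  have hy' : cj y (κ * a * l) ∈ V U 4 (i + 3) := Veq ((h.toMP.V_rf mu.rf).1 hy)
  have e2 := h.cm5_mu hy' (mu.la h.toMP)
  rw [mu_la] at e2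
  have c1 : Commute y κ := h.cV hy mu.κ_mem
  have c2 : Commute y l := h.cV hy mu.l_mem
  have e3 : cj y (κ * a * l) = cj y (κ * a * l) * cm (cj y (κ * a * l)) l * y := by
    rw [← cj_eq]
    conv_lhs => rw [← cj_cj, ← cj_cj, cj_eq_self.2 c1, cj_eq' y a, e1, cj_mul, cj_eq_self.2 c2]
  rw [e2, mul_assoc (cj y _), left_eq_mul] at e3
  exact eq_inv_of_mul_eq_one_left e3

theorem inv7 {a κ l u : G} (mu : Mu 8 U i a κ l) (hu : u ∈ U (i + 6)) (hi : i % 2 = 1) :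
    cj (cj u (κ * a * l)) (κ * a * l) = u⁻¹ := by
  obtain ⟨m, hm, -, e⟩ := cm6 h mu hu hi
  have h3 : cj u (κ * a * l) ∈ U (i + 2) := Ueq (mu.rf.cj hu)
  have h7 : cj (cj u (κ * a * l)) (κ * a * l) ∈ U (i + 6) := Ueq (mu.rf.cj h3)
  have ha' : cj κ (κ * a * l) ∈ U i := Ueq (mu.rf.cj mu.κ_mem)
  generalize cj u (κ * a * l) = v at *
  have c1 : Commute m l := h.odd_c hm mu.l_mem (by omega) (by omega) (by omega) (by omega)
  have c2 : Commute u l := h.odd_c hu mu.l_mem (by omega) (by omega) (by omega) (by omega)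
  have c3 : Commute v a := h.odd_c h3 mu.a_mem
  have c4 : Commute m u := h.odd_c hm hu
  have e1 : cj v l = v * m⁻¹ * u⁻¹ := by
    have : v = cj v l * m * u := by
      conv_lhs => rw [← cj_inv_cj v l, cj_eq v l⁻¹, e, cj_mul, cj_mul, cj_eq_self.2 c1, cj_eq_self.2 c2]
      rw [mul_assoc]
    rw [mul_assoc, ← mul_inv_rev, ← c4.eq, eq_mul_inv_iff_mul_eq, ← mul_assoc, ← this]
  have e2 : cj v (κ * a * l) * u = cj (v * m⁻¹) (cj κ (κ * a * l)) * cm (cj κ (κ * a * l)) u := by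
    conv_lhs => rw [← mu_la, ← cj_cj, ← cj_cj, cj_eq_self.2 c3, e1, cj_mul, cj_eq' u⁻¹, inv_inv]
    group
  refine eq_inv_of_mul_eq_one_left (h.toMP.ind' (i := i + 1) (k := i + 5) (l := i + 6) (j := i + 6) ?_
    (UW (mul_mem h7 hu)))
  rw [e2]
  exact mul_mem (h.toMP.pres_top ha' (mul_mem (UW h3) (inv_mem (UW hm)))) (Wle (h.toMP.commZ ha' hu))

theorem sqV {y : G} (hy : y ∈ V U 4 i) : y * y = 1 := by
  rcases Int.emod_two_eq_zero_or_one i with hi | hi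
  swap
  · rw [h.V_odd hi hy, one_mul]
  obtain ⟨i, rfl⟩ : ∃ j, i = j + 5 := ⟨i - 5, by omega⟩
  obtain ⟨a, ha, a1⟩ := h.ne i
  obtain ⟨κ, l, mu⟩ := h.toMP.exists_mu ha a1
  have i6 := fun y => inv6 h mu (y := y)
  have i7 := fun u hu => inv7 h mu (u := u) hu (by omega)
  have rf := mu.rf
  generalize κ * a * l = μ at i6 i7 rf
  have tr : Tr U 0 (μ * μ) := by simpa using rf.mul rf
  simp only [cj_cj] at i6 i7
  have sw : ∀ x, cj (cj x μ) (μ * μ) = cj (cj x (μ * μ)) μ := fun x => by rw [cj_cj, cj_cj, mul_assoc]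
  have i4 : ∀ z ∈ V U 4 (i + 3), cj z (μ * μ) = z⁻¹ := fun z hz => by
    rw [← cj_inv_cj z μ, sw, i6 _ (Veq ((h.toMP.V_rf rf.inv).1 hz)), cj_inv]
  have c2 : ∀ z ∈ V U 4 (i + 1), cj z (μ * μ) = z := fun z hz => by
    obtain ⟨u, hu, u1⟩ := h.ne (i + 6)
    have hz' : cj z (μ * μ) ∈ V U 4 (i + 1) := Veq ((h.toMP.V_tr tr).1 hz)
    refine h.inj_cm5 hz' hz hu u1 ?_
    have e1 := i4 _ (h.cm5 hz hu)
    have e2 := (h.cm5_mul hz' hu (inv_mem hu)).1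
    rw [mul_inv_cancel, cm_eq_one.2 (Commute.one_right _), ← i7 u hu, ← cj_cm, e1, eq_comm, mul_inv_eq_one] at e2
    exact e2
  have c8 : ∀ z ∈ V U 4 (i + 7), cj z (μ * μ) = z := fun z hz => by
    rw [← cj_inv_cj z μ, sw, c2 _ (Veq ((h.toMP.V_rf rf.inv).1 hz))]
  obtain ⟨w, hw, w1⟩ := h.exV (i := i + 1 + 6) (by omega)
  obtain ⟨κ', l', mu'⟩ := h.toMP.exists_mu (inv_mem (VU hw)) (inv_ne_one.2 w1)
  have hv : cj y (κ' * w⁻¹ * l')⁻¹ ∈ V U 4 (i + 1) := by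
    rw [← h.toMP.V_per (j := i + 1 + 16) (by simp)]
    exact Veq ((h.toMP.V_rf mu'.rf.inv).1 hy)
  obtain ⟨b, hb, e, he, c, hc, E, -, -, hc'⟩ := h.vv hv hw
  obtain rfl : c = y := by rw [hc' _ _ mu', cj_inv_cj]
  have E' := congrArg (cj · (μ * μ)) E
  simp only [cj_cm, cj_mul, cj_inv] at E'
  rw [c2 _ hv, c8 _ (Veq hw), E, i6 _ hy] at E'
  have := (h.toMP.uniq (i := i + 3) (k := i + 4) (j := i + 5) (by omega) (mul_mem (UW (VU hb)) (UW he)) (UW (VU hy))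
    (mul_mem (UW (tr.cj (VU hb))) (UW (tr.cj he))) (inv_mem (UW (VU hy))) E').2
  rw [← eq_inv_iff_mul_eq_one]
  exact this

theorem sqO {a : G} (ha : a ∈ U i) (hi : i % 2 = 1 := by omega) : a * a = 1 := by
  obtain ⟨y, hy, y1⟩ := h.exV (i := i - 5) (by omega)
  refine h.cm5_inj hy y1 (mul_mem ha ha) (one_mem _) ?_
  rw [(h.cm5_mul hy ha ha).1, sqV h (h.cm5 (k := i - 3) hy ha), cm_eq_one.2 (Commute.one_right _)]

theorem two : p = 2 := by
  obtain ⟨y, hy, y1⟩ := h.exV (i := 0) rfl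
  obtain ⟨k, hk⟩ := h.pg 0 ⟨y, VU hy⟩
  have e : y ^ p ^ k = 1 := congrArg Subtype.val hk
  have o : orderOf y = 2 := orderOf_eq_prime (by rw [pow_two, sqV h hy]) y1
  exact ((Nat.prime_dvd_prime_iff_eq Nat.prime_two h.prime).1
    (Nat.prime_two.dvd_of_dvd_pow (o ▸ orderOf_dvd_of_pow_eq_one e))).symm

end Oc.B

end CL.FS
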