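/-
S1144, octagons: the remaining shape of the commutation relations; characteristic 2.
-/
import Cfsg.Agent.CHEV.FS.O2a
import Cfsg.Agent.CHEV.FS.O2b

set_option autoImplicit false
set_option linter.unusedSectionVars false

namespace CL.FS

variable {G : Type*} [Group G] [Finite G] {p : ℕ} {U : ℤ → Subgroup G}

namespace Oc

variable (h : Oc p U) {i j k : ℤ}
include h

theorem cm6 {a κ l u : G} (mu : Mu 8 U i a κ l) (hu : u ∈ U (i + 6)) (hi : i % 2 = 1) :
    ∃ m ∈ U (i + 4), cm a u⁻¹ = cj u (κ * a * l) * m ∧ cm (cj u (κ * a * l)) l⁻¹ = m * u := B.cm6 h mu hu hi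

theorem sqV {y : G} (hy : y ∈ V U 4 i) : y * y = 1 := B.sqV h hy
theorem sqO {a : G} (ha : a ∈ U i) (hi : i % 2 = 1 := by omega) : a * a = 1 := B.sqO h ha hi
theorem two : p = 2 := B.two h

end Oc

end CL.FS
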