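/-
S1144, octagons: the definition of a frame.
-/
import Cfsg.Agent.CHEV.FS.O2

set_option autoImplicit false
set_option linter.unusedSectionVars false

namespace CL.FS

variable {G : Type*} [Group G] {p : ℕ} {U : ℤ → Subgroup G} {F : Type*} [Field F]

/-- `z j` parametrises `U j` (`j` odd), `V j` (`j` even); `κ j = κ(z (j + 8) 1)`; `n₁ = μ(z 1 1)`, `n₈ = μ(z 8 1)`. -/
structure Fr (F : Type*) [Field F] (U : ℤ → Subgroup G) (n₁ n₈ : G) (z : ℤ → F → G) (κ : ℤ → G) : Prop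
    extends Oc 2 U where
  ch : (2 : F) = 0
  pmU : ∀ j : ℤ, j % 2 = 1 → Pm (U j) (z j)
  pmV : ∀ j : ℤ, j % 2 = 0 → Pm (V U 4 j) (z j)
  add : ∀ (j : ℤ) (a b : F), z j (a + b) = z j a * z j b
  zper : ∀ j : ℤ, z (j + 16) = z j
  r1 : ∀ (j : ℤ) (a : F), cj (z j a) n₁ = z (10 - j) a
  r8 : ∀ (j : ℤ) (a : F), cj (z j a) n₈ = z (8 - j) a
  mu1 : Mu 8 U 1 (z 1 1) (z 9 1) (z 9 1)
  muk : ∀ j : ℤ, j % 2 = 0 → Mu 8 U (j + 8) (z (j + 8) 1) (κ j) (κ j)⁻¹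
  e1 : n₁ = z 9 1 * z 1 1 * z 9 1
  e8 : n₈ = κ 0 * z 8 1 * (κ 0)⁻¹
  mul : ∀ a c : F, cm (z 1 a) (z 6 c) = z 4 (a * c)

end CL.FS
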