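/-
S1144, octagons: existence of the field and of a frame.
-/
import Cfsg.Agent.CHEV.FS.O3d
import Cfsg.Agent.CHEV.FS.QJ

set_option autoImplicit false
set_option linter.unusedSectionVars false

namespace CL.FS

variable {G : Type*} [Group G] {p : ℕ} {U : ℤ → Subgroup G} {F : Type*} [Field F]

namespace O3e

theorem tr_zpow {d : ℤ} {g : G} (t : Tr U d g) (c : ℤ) : Tr U (c * d) (g ^ c) := by
  induction c using Int.induction_on with
  | zero => simpa using Tr.one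
  | succ k ih => rw [zpow_add_one, add_mul, one_mul]; exact ih.mul t
  | pred k ih => rw [zpow_sub_one, sub_mul, one_mul, sub_eq_add_neg]; exact ih.mul t.inv

variable [Finite G] (h : Oc p U) {i : ℤ}
include h

theorem κ_eq {a κ l : G} (m : Mu 8 U i a κ l) (e : a * a = 1) : l = κ⁻¹ := by
  have m' := m.inv
  rw [inv_eq_of_mul_eq_one_right e] at m'
  exact (m.uniq h.toMP m').2

theorem κ_odd {a κ l : G} (m : Mu 8 U i a κ l) (hi : i % 2 = 1) : κ = l := by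
  rw [κ_eq h m (h.sqO m.a_mem), inv_eq_of_mul_eq_one_right (h.sqO m.κ_mem)]

theorem mu_sq {a κ l : G} (m : Mu 8 U i a κ l) (e : a * a = 1) : κ * a * l * (κ * a * l) = 1 := by
  rw [κ_eq h m e]
  calc κ * a * κ⁻¹ * (κ * a * κ⁻¹) = κ * (a * a) * κ⁻¹ := by group
    _ = 1 := by rw [e, mul_one, mul_inv_cancel]

theorem T_eq {e l a κ' l' y : G} (mu : Mu 8 U 1 e l l) (m : Mu 8 U 1 a κ' l') (hy : y ∈ V U 4 6) :
    cm (cm a y) l = cj y (κ' * a * l' * (l * e * l)) := by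
  have e1 := h.cm5_mu' hy m
  rw [inv_eq_of_mul_eq_one_right (h.sqV hy)] at e1
  rw [h.cm5_mu (h.cm5' (k := 4) hy m.a_mem) (mu.la h.toMP), Oc.B.mu_la, e1, cj_cj]

end O3e

open O3e

theorem Oc.exists_field [Finite G] [Finite F] (h : Oc p U) (hF : Nat.card F = Nat.card (U 1)) {e l f : G}
    (mu : Mu 8 U 1 e l l) (hf : f ∈ V U 4 6) (f1 : f ≠ 1) : ∃ x v : F → G, Pm (U 1) x ∧ Pm (V U 4 6) v ∧ x 1 = e ∧ v 1 = f ∧
      (∀ a b, x (a + b) = x a * x b) ∧ (∀ a b, v (a + b) = v a * v b) ∧ ∀ a c, cm (cm (x a) (v c)) l = v (a * c) := by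
  classical
  have h4 : ∀ {a y}, a ∈ U 1 → y ∈ V U 4 6 → cm a y ∈ V U 4 4 := fun ha hy => h.cm5' hy ha
  let S : U 1 → V U 4 6 →* V U 4 6 := fun a => MonoidHom.mk' (fun y => ⟨cm (cm (a : G) y) l, h.cm5 (h4 a.2 y.2) mu.l_mem⟩)
    fun y y' => Subtype.ext (by
      show cm (cm (a : G) (y * y')) l = cm (cm (a : G) y) l * cm (cm (a : G) y') l
      rw [(h.mul_cm5 y.2 y'.2 a.2).2, (h.mul_cm5 (h4 a.2 y.2) (h4 a.2 y'.2) mu.l_mem).1])
  have hS : ∀ a y, (S a y : G) = cm (cm (a : G) y) l := fun _ _ => rfl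
  have hadd : ∀ a b y, S (a * b) y = S a y * S b y := fun a b y => Subtype.ext (by
    show cm (cm ((a : G) * b) y) l = cm (cm (a : G) y) l * cm (cm (b : G) y) l
    rw [(h.cm5_mul y.2 a.2 b.2).2, (h.mul_cm5 (h4 a.2 y.2) (h4 b.2 y.2) mu.l_mem).1])
  have se := mu_sq h mu (h.sqO mu.a_mem)
  have he : ∀ y, S ⟨e, mu.a_mem⟩ y = y := fun y => Subtype.ext (by rw [hS, T_eq h mu mu y.2, se, cj_one])
  obtain ⟨K, _, x, M, _, _, π, x1, xa, πm, π0, πS⟩ := exists_module (A := U 1) (V := V U 4 6) ⊥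
    (fun v w => ⟨1, one_mem _, Subtype.ext (by simpa using (h.cV v.2 (VU w.2)).eq)⟩)
    ⟨⟨f, hf⟩, fun k => f1 (congrArg Subtype.val (Subgroup.mem_bot.1 k))⟩ S
    (fun a z hz => by rw [Subgroup.mem_bot.1 hz, map_one]; exact one_mem _)
    (fun a b v => ⟨1, one_mem _, by rw [hadd, mul_one]⟩) ⟨e, mu.a_mem⟩ he (fun a a1 => by
      obtain ⟨κ', l', m⟩ := h.toMP.exists_mu a.2 fun k => a1 (Subtype.ext k)
      have sa := mu_sq h m (h.sqO a.2)
      have m' := ((m.rf' h.toMP mu.rf).la h.toMP).per h.toMP (j := 1) (by norm_num)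
      have t' := fun y hy => T_eq h mu m' (y := y) hy
      rw [B.mu_la, ← cj_mul, ← cj_mul] at t'
      have t := fun y hy => T_eq h mu m (y := y) hy
      refine ⟨⟨_, m'.a_mem⟩, fun v => ⟨⟨1, one_mem _, Subtype.ext ?_⟩, 1, one_mem _, Subtype.ext ?_⟩⟩
      · rw [hS, t _ (S _ v).2, hS, t' _ v.2, cj_cj, mul_one]
        generalize l * e * l = μ at se
        generalize κ' * a * l' = ν at sa
        rw [show cj ν μ * μ * (ν * μ) = μ⁻¹ * (ν * (μ * μ) * ν) * μ by simp only [cj]; group, se, mul_one, sa]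
        simp [cj_one]
      · rw [hS, t' _ (S _ v).2, hS, t _ v.2, cj_cj, mul_one]
        generalize l * e * l = μ at se
        generalize κ' * a * l' = ν at sa
        rw [show ν * μ * (cj ν μ * μ) = ν * ν * (μ * μ) by simp only [cj]; group, se, mul_one, sa, cj_one])
  have πi : Function.Injective π := fun v w k => by
    have π1 : π 1 = 0 := (π0 1).2 (one_mem _)
    have : π (v * w⁻¹) = 0 := by rw [πm, k, ← πm, mul_inv_cancel, π1]
    exact mul_inv_eq_one.1 (Subgroup.mem_bot.1 ((π0 _).1 this))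
  have πf : π ⟨f, hf⟩ ≠ 0 := fun k => f1 (congrArg Subtype.val (Subgroup.mem_bot.1 ((π0 _).1 k)))
  have : Finite K := Finite.of_equiv _ x.symm
  have := Fintype.ofFinite K
  have := Fintype.ofFinite F
  have φ : F ≃+* K := FiniteField.ringEquivOfCardEq (by
    rw [← Nat.card_eq_fintype_card, ← Nat.card_eq_fintype_card, hF, Nat.card_congr x])
  have vi : Function.Injective fun t : F => S (x (φ t)) ⟨f, hf⟩ := fun t u k => by
    have := congrArg π k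
    simp only [πS] at this
    exact φ.injective (smul_left_injective K πf this)
  have vs := (vi.bijective_of_nat_card_le (by rw [hF, h.card_odd (j := 6) rfl rfl])).2
  refine ⟨fun t => x (φ t), fun t => S (x (φ t)) ⟨f, hf⟩, ⟨fun g => ⟨fun hg => ⟨φ.symm (x.symm ⟨g, hg⟩), by simp⟩, ?_⟩,
    fun t u k => φ.injective (x.injective (Subtype.ext k))⟩, ⟨fun g => ⟨fun hg => ?_, ?_⟩,
    fun t u k => vi (Subtype.ext k)⟩, by simp [x1], by simp [x1, he], fun a b => by simp [xa],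
    fun a b => by simp [xa, hadd], fun a c => ?_⟩
  · rintro ⟨t, rfl⟩; exact (x _).2
  · obtain ⟨t, ht⟩ := vs ⟨g, hg⟩
    exact ⟨t, (congrArg Subtype.val ht).symm⟩
  · rintro ⟨t, rfl⟩; exact (S _ _).2
  · exact congrArg Subtype.val (πi (show π (S (x (φ a)) (S (x (φ c)) ⟨f, hf⟩)) = π (S (x (φ (a * c))) ⟨f, hf⟩) by
      rw [πS, πS, πS, map_mul, mul_smul]))

theorem O3e.pm_cj {A B : Subgroup G} {x : F → G} {g : G} (m : Pm A x) (e : ∀ y, y ∈ A ↔ cj y g ∈ B) :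
    Pm B fun a => cj (x a) g :=
  ⟨fun y => by
    rw [← cj_inv_cj y g, ← e, m.mem]
    exact exists_congr fun t => cj_inj.symm, fun a b k => m.inj (cj_inj.1 k)⟩

theorem Oc.exists_fr [Finite G] [Finite F] (h : Oc p U) (hF : Nat.card F = Nat.card (U 1)) :
    ∃ n₁ n₈ z κ, Fr F U n₁ n₈ z κ := by
  obtain rfl := h.two
  obtain ⟨e, he, e1⟩ := h.ne 1
  obtain ⟨l, l', mu⟩ := h.toMP.exists_mu he e1
  obtain rfl := κ_odd h mu rfl
  obtain ⟨f, hf, f1⟩ := h.exV (i := 8) rfl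
  obtain ⟨k, k', m8⟩ := h.toMP.exists_mu (VU hf) f1
  obtain rfl := κ_eq h m8 (h.sqV hf)
  have s1 := mu_sq h mu (h.sqO he)
  have s8 := mu_sq h m8 (h.sqV hf)
  have r1 : Rf U 10 (l * e * l) := mu.rf.eq
  have r8 : Rf U 8 (k * f * k⁻¹) := (m8.rf_sub h.toMP).eq
  have el : cj e (l * e * l) = l := by
    conv_lhs => rw [κ_odd h (mu.la h.toMP) rfl]
    rw [← κ_odd h (mu.la h.toMP) rfl, ← cj_inj (g := l * e * l), cj_cj, s1, cj_one]
    exact κ_odd h (mu.la h.toMP) rfl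
  have c5 : ∀ y ∈ U 5, Commute y (l * e * l) := fun y hy =>
    ((h.odd_c hy mu.l_mem).mul_right (h.odd_c hy he)).mul_right (h.odd_c hy mu.l_mem)
  have c4 : ∀ y ∈ V U 4 4, Commute y (k * f * k⁻¹) := fun y hy =>
    ((h.cV hy (m8.κ_mem' h.toMP)).mul_right (h.cV hy (VU hf))).mul_right (h.cV hy (m8.κ_mem' h.toMP)).inv_right
  have c9 : ∀ y ∈ V U 4 4, cm y l = cj y (l * e * l) := fun y hy => by
    rw [h.cm5_mu hy (mu.la h.toMP), B.mu_la]
  obtain ⟨n₁, d1⟩ : ∃ n, n = l * e * l := ⟨_, rfl⟩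
  obtain ⟨n₈, d8⟩ : ∃ n, n = k * f * k⁻¹ := ⟨_, rfl⟩
  rw [← d1] at s1 r1 el c5 c9
  rw [← d8] at s8 r8 c4
  obtain ⟨ρ, dρ⟩ : ∃ ρ, ρ = n₁ * n₈ := ⟨_, rfl⟩
  have t2 : Tr U (-2) ρ := by simpa [dρ] using r1.mul r8
  have tr := tr_zpow t2
  have i1 : n₁⁻¹ = n₁ := inv_eq_of_mul_eq_one_right s1
  have i8 : n₈⁻¹ = n₈ := inv_eq_of_mul_eq_one_right s8
  have q1 : ∀ c : ℤ, ρ ^ c * n₁ = n₁ * ρ ^ (-c) := fun c => by
    have : SemiconjBy n₁ ρ⁻¹ ρ := by rw [SemiconjBy, dρ, mul_inv_rev, i1, i8, mul_assoc]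
    rw [← (this.zpow_right c).eq, inv_zpow']
  have q8 : ∀ c : ℤ, ρ ^ c * n₈ = n₈ * ρ ^ (-c) := fun c => by
    have : SemiconjBy n₈ ρ⁻¹ ρ := by
      rw [SemiconjBy, dρ, mul_inv_rev, i1, i8, ← mul_assoc, s8, mul_assoc, s8, one_mul, mul_one]
    rw [← (this.zpow_right c).eq, inv_zpow']
  obtain ⟨x, v, px, pv, x1, v1, xa, va, xv⟩ := h.exists_field hF mu (f := cj f ρ) (Veq ((h.toMP.V_tr t2).1 hf))
    (mt cj_eq_one.1 f1)
  obtain ⟨z, dz⟩ : ∃ z : ℤ → F → G, ∀ j a, z j a = cj (if j % 2 = 1 then x a else cj (v a) (ρ ^ (3 : ℤ))) (ρ ^ (-(j / 2))) :=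
    ⟨_, fun _ _ => rfl⟩
  have sh : ∀ (j c j' : ℤ) a, j' = j - 2 * c → cj (z j a) (ρ ^ c) = z j' a := fun j c j' a e => by
    rw [dz, dz, cj_cj, ← zpow_add, show j' % 2 = j % 2 by omega, show -(j' / 2) = -(j / 2) + c by omega]
  have z1 : z 1 = x := funext fun a => by simp [dz, cj_one]
  have z6 : z 6 = v := funext fun a => by
    rw [dz, if_neg (by decide), cj_cj, ← zpow_add]; simp [cj_one]
  have z8 : z 8 1 = f := by rw [← sh 6 (-1) 8 1 rfl, z6, v1, zpow_neg_one, cj_cj_inv]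
  have pU : ∀ j : ℤ, j % 2 = 1 → Pm (U j) (z j) := fun j hj => by
    have := pm_cj px (B := U j) (g := ρ ^ (-(j / 2))) fun y => by
      rw [tr _ 1 y, show 1 + -(j / 2) * -2 = j by omega]
    rwa [← z1, funext fun a => sh 1 _ j a (by omega)] at this
  have pV : ∀ j : ℤ, j % 2 = 0 → Pm (V U 4 j) (z j) := fun j hj => by
    have := pm_cj pv (B := V U 4 j) (g := ρ ^ (3 - (j / 2))) fun y => by
      rw [h.toMP.V_tr (tr _), show 6 + (3 - (j / 2)) * -2 = j by omega]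
    rwa [← z6, funext fun a => sh 6 _ j a (by omega)] at this
  have R1o : ∀ j a, j % 2 = 1 → cj (z j a) n₁ = z (10 - j) a := fun j a hj => by
    rw [← sh 5 ((5 - j) / 2) j a (by omega), cj_cj, q1, ← cj_cj, cj_eq_self.2 (c5 _ (((pU 5 rfl).mem _).2 ⟨a, rfl⟩)),
      sh _ _ (10 - j) _ (by omega)]
  have R8e : ∀ j a, j % 2 = 0 → cj (z j a) n₈ = z (8 - j) a := fun j a hj => by
    rw [← sh 4 ((4 - j) / 2) j a (by omega), cj_cj, q8, ← cj_cj, cj_eq_self.2 (c4 _ (((pV 4 rfl).mem _).2 ⟨a, rfl⟩)),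
      sh _ _ (8 - j) _ (by omega)]
  have R1 : ∀ j a, cj (z j a) n₁ = z (10 - j) a := fun j a => by
    rcases Int.emod_two_eq_zero_or_one j with hj | hj
    · rw [show n₁ = n₈ * ρ ^ (-1 : ℤ) by rw [zpow_neg_one, dρ, mul_inv_rev, mul_inv_cancel_left, i1], ← cj_cj, R8e j a hj,
        sh _ _ (10 - j) _ (by omega)]
    · exact R1o j a hj
  have R8 : ∀ j a, cj (z j a) n₈ = z (8 - j) a := fun j a => by
    rw [show n₈ = n₁ * ρ ^ (1 : ℤ) by rw [zpow_one, dρ, ← mul_assoc, s1, one_mul], ← cj_cj, R1, sh _ _ (8 - j) _ (by omega)]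
  have p8 : ρ ^ (8 : ℤ) = 1 := by
    have m1 := m8.rf' h.toMP r1
    have m2 := m8.tr (tr 3)
    have e2 : cj f n₁ = cj f (ρ ^ (3 : ℤ)) := by rw [← z8, R1, sh _ _ (10 - 8) _ (by omega)]
    have e3 : cj k n₁ = cj k (ρ ^ (3 : ℤ)) := by rw [e2] at m1; exact (m1.uniq h.toMP m2).1
    have e4 : cj n₈ n₁ = cj n₈ (ρ ^ (3 : ℤ)) := by rw [d8, cj_mul, cj_mul, cj_mul, cj_mul, cj_inv, cj_inv, e2, e3]
    have e5 : cj n₈ n₁ = n₈ * ρ ^ (-2 : ℤ) := by
      rw [← q8, cj, i1, zpow_two, dρ, mul_assoc (n₁ * n₈) (n₁ * n₈), mul_assoc n₁ n₈ n₈, s8, mul_one]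
    rw [e5, cj, ← zpow_neg, q8, mul_assoc, ← zpow_add, mul_right_inj] at e4
    rw [show (8 : ℤ) = - -3 + 3 + 2 by rfl, zpow_add, ← e4, ← zpow_add]
    simp
  have z9 : z 9 1 = l := by rw [← el, ← x1, ← z1, R1]; rfl
  refine ⟨n₁, n₈, z, fun j => cj k (ρ ^ (-(j / 2))), h, ?_, pU, pV, fun j a b => ?_, fun j => funext fun a => ?_, R1, R8,
    ?_, fun j hj => ?_, ?_, ?_, fun a c => ?_⟩
  · have x0 : x 0 = 1 := by simpa using xa 0 0
    exact px.inj (by rw [← one_add_one_eq_two, xa, x1, h.sqO he, x0])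
  · rw [dz, dz, dz, ← cj_mul]
    split_ifs
    · rw [xa]
    · rw [va, cj_mul]
  · rw [← sh j (-8) _ a (by omega), zpow_neg, p8, inv_one, cj_one]
  · rwa [z9, z1, x1]
  · have := m8.tr (tr (-(j / 2)))
    rwa [← z8, sh _ _ (j + 8) _ (by omega), cj_inv, show 8 + -(j / 2) * -2 = j + 8 by omega] at this
  · rw [z9, z1, x1, d1]
  · simp [z8, d8, cj_one]
  · rw [z1, ← cj_inj (g := n₁), R1, show (10 : ℤ) - 4 = 6 by rfl, z6, ← xv, c9]
    exact h.cm5' ((pv.mem _).2 ⟨c, rfl⟩) ((px.mem _).2 ⟨a, rfl⟩)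

end CL.FS
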