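/-
S1144, octagons: the frame API.
-/
import Cfsg.Agent.CHEV.FS.O3e

set_option autoImplicit false
set_option linter.unusedSectionVars false

namespace CL.FS

variable {G : Type*} [Group G] {p : ℕ} {U : ℤ → Subgroup G} {F : Type*} [Field F]

namespace Fr

variable [Finite G] {n₁ n₈ : G} {z : ℤ → F → G} {κ : ℤ → G} (h : Fr F U n₁ n₈ z κ) {i j k : ℤ}
include h

theorem zU (j : ℤ) (a : F) : z j a ∈ U j := by
  rcases Int.emod_two_eq_zero_or_one j with hj | hj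
  · exact VU (((h.pmV j hj).mem _).2 ⟨a, rfl⟩)
  · exact ((h.pmU j hj).mem _).2 ⟨a, rfl⟩
theorem zV (a : F) (hj : j % 2 = 0 := by omega) : z j a ∈ V U 4 j := ((h.pmV j hj).mem _).2 ⟨a, rfl⟩
theorem κU (hj : j % 2 = 0 := by omega) : κ j ∈ U j := Ueq ((h.muk j hj).κ_mem' h.toMP)
theorem z0 (j : ℤ) : z j 0 = 1 := by simpa using h.add j 0 0
theorem zz (j : ℤ) (a : F) : z j a * z j a = 1 := by rw [← h.add, ← two_mul, h.ch, zero_mul, h.z0]
theorem zinv (j : ℤ) (a : F) : (z j a)⁻¹ = z j a := inv_eq_of_mul_eq_one_right (h.zz j a)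
theorem zinj (j : ℤ) {a b : F} (e : z j a = z j b) : a = b := by
  rcases Int.emod_two_eq_zero_or_one j with hj | hj
  · exact (h.pmV j hj).inj e
  · exact (h.pmU j hj).inj e
theorem z_ne (j : ℤ) {a : F} (ha : a ≠ 0) : z j a ≠ 1 := fun e => ha (h.zinj j (e.trans (h.z0 j).symm))
theorem zeq (a : F) (e : (16 : ℤ) ∣ j - i := by omega) : z i a = z j a := by
  obtain ⟨c, hc⟩ := e
  have := Function.Periodic.zsmul (f := z) (c := 16) h.zper c i
  rw [← this, show i + c • (16 : ℤ) = j by rw [smul_eq_mul]; omega]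
theorem kgen {a b : G} (m : Mu 8 U i (z i 1) a b) (hj : j % 2 = 0) (e : (16 : ℤ) ∣ j + 8 - i) : a = κ j := by
  rw [h.zeq (j := j + 8) 1] at m
  exact ((m.per h.toMP (by omega)).uniq h.toMP (h.muk j hj)).1
theorem κeq (hi : i % 2 = 0 := by omega) (e : (16 : ℤ) ∣ j - i := by omega) : κ i = κ j := h.kgen (h.muk i hi) (by omega) (by omega)
theorem rf1 : Rf U 10 n₁ := h.e1 ▸ h.mu1.rf.eq
theorem rf8 : Rf U 8 n₈ := h.e8 ▸ ((h.muk 0 rfl).rf_sub h.toMP).eq
theorem k1 (hi : i % 2 = 0 := by omega) (e : j = 10 - i := by omega) : cj (κ i) n₁ = κ j := by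
  have m := (h.muk i hi).rf' h.toMP h.rf1
  rw [h.r1] at m
  exact h.kgen m (by omega) (by omega)
theorem k8 (hi : i % 2 = 0 := by omega) (e : j = 8 - i := by omega) : cj (κ i) n₈ = κ j := by
  have m := (h.muk i hi).rf' h.toMP h.rf8
  rw [h.r8] at m
  exact h.kgen m (by omega) (by omega)
theorem trρ (c : ℤ) : Tr U (-(2 * c)) ((n₁ * n₈) ^ c) := by
  have := O3e.tr_zpow (h.rf1.mul h.rf8) c
  rwa [show c * (8 - 10) = -(2 * c) by omega] at this
theorem sh (c : ℤ) (a : F) (e : j = i - 2 * c := by omega) : cj (z i a) ((n₁ * n₈) ^ c) = z j a := by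
  have s : ∀ i, cj (z i a) (n₁ * n₈) = z (i - 2) a := fun i => by
    rw [← cj_cj, h.r1, h.r8, show 8 - (10 - i) = i - 2 by omega]
  induction c using Int.induction_on generalizing j with
  | zero => rw [zpow_zero, cj_one, e, mul_zero, sub_zero]
  | succ k ih => rw [zpow_add_one, ← cj_cj, ih rfl, s, show i - 2 * k - 2 = j by omega]
  | pred k ih => rw [zpow_sub_one, ← cj_cj, ih rfl, show i - 2 * -(k : ℤ) = j - 2 by omega, ← s, cj_cj_inv]
theorem shκ (c : ℤ) (hi : i % 2 = 0 := by omega) (e : j = i - 2 * c := by omega) : cj (κ i) ((n₁ * n₈) ^ c) = κ j := by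
  have m := (h.muk i hi).tr (h.trρ c)
  rw [h.sh (j := i + 8 + -(2 * c)) c 1] at m
  exact h.kgen m (by omega) (by omega)
theorem r5 (a c : F) (hi : i % 2 = 1 := by omega) (hj : j = i + 5 := by omega) (hk : k = i + 3 := by omega) :
    cm (z i a) (z j c) = z k (a * c) := by
  rw [← h.sh (i := 1) ((1 - i) / 2) a, ← h.sh (i := 6) (j := j) ((1 - i) / 2) c,
    ← h.sh (i := 4) (j := k) ((1 - i) / 2) (a * c), ← cj_cm, h.mul]
theorem r5' (c a : F) (hj : j % 2 = 1 := by omega) (hi : i = j - 5 := by omega) (hk : k = j - 3 := by omega) :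
    cm (z i c) (z j a) = z k (c * a) := by
  have e := congrArg (cj · n₈) (h.mul a c)
  simp only [cj_cm, h.r8] at e
  rw [← h.sh (i := 8 - 1) ((7 - j) / 2) a, ← h.sh (i := 8 - 6) (j := i) ((7 - j) / 2) c,
    ← h.sh (i := 8 - 4) (j := k) ((7 - j) / 2) (c * a), ← cj_cm, ← cm_inv, e, h.zinv, mul_comm]
theorem muo (hi : i % 2 = 1 := by omega) (hj : j = i + 8 := by omega) : Mu 8 U i (z i 1) (z j 1) (z j 1) := by
  have m := h.mu1.tr (h.trρ ((1 - i) / 2))
  rwa [h.sh (j := i) _ 1, h.sh (j := j) _ 1, show 1 + -(2 * ((1 - i) / 2)) = i by omega] at m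
theorem mue (hi : i % 2 = 0 := by omega) (hj : (16 : ℤ) ∣ j - i - 8 := by omega) : Mu 8 U i (z i 1) (κ j) (κ j)⁻¹ := by
  rw [h.zeq (j := j + 8) 1]
  exact (h.muk j (by omega)).per h.toMP (by omega)
/-- `μ(z i 1)` is a conjugate of `n₁` or `n₈` by a power of `n₁ n₈` -/
theorem refl {a b : G} (m : Mu 8 U i (z i 1) a b) (c : F) (e : (16 : ℤ) ∣ 2 * i + 8 - j - k := by omega) :
    cj (z j c) (a * z i 1 * b) = z k c := by
  have s : ∀ (x g : G) (d : ℤ), cj x (cj g ((n₁ * n₈) ^ d)) = cj (cj (cj x ((n₁ * n₈) ^ (-d))) g) ((n₁ * n₈) ^ d) :=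
    fun x g d => by rw [cj_cj, cj_cj, zpow_neg, ← mul_assoc]; rfl
  rcases Int.emod_two_eq_zero_or_one i with hi | hi
  · obtain ⟨rfl, rfl⟩ := m.uniq h.toMP (h.mue (j := i - 8))
    rw [← h.sh (i := 8) (j := i) ((8 - i) / 2) 1, ← h.shκ (i := 0) (j := i - 8) ((8 - i) / 2), ← cj_inv, ← cj_mul, ← cj_mul,
      ← h.e8, s, h.sh _ c rfl, h.r8, h.sh _ c rfl]
    exact h.zeq c
  · obtain ⟨rfl, rfl⟩ := m.uniq h.toMP (h.muo (j := i + 8))
    rw [← h.sh (i := 1) (j := i) ((1 - i) / 2) 1, ← h.sh (i := 9) (j := i + 8) ((1 - i) / 2) 1, ← cj_mul, ← cj_mul,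
      ← h.e1, s, h.sh _ c rfl, h.r1, h.sh _ c rfl]
    exact h.zeq c
theorem reflκ {a b : G} (m : Mu 8 U i (z i 1) a b) (hj : j % 2 = 0 := by omega) (e : (16 : ℤ) ∣ 2 * i + 8 - j - k := by omega) :
    cj (κ j) (a * z i 1 * b) = κ k := by
  have m' := (h.muk j hj).rf' h.toMP m.rf
  rw [h.refl (k := 2 * i + (8 : ℕ) - (j + 8)) m 1] at m'
  exact h.kgen m' (by omega) (by omega)

end Fr

end CL.FS
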