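/-
S1144, octagons: the Tits endomorphism and the torus.
-/
import Cfsg.Agent.CHEV.FS.O3

set_option autoImplicit false
set_option linter.unusedSectionVars false

namespace CL.FS

variable {G : Type*} [Group G] {U : ℤ → Subgroup G} {F : Type*} [Field F]

/-- the scalars of the torus element `(α, β)` on `U j / V j`, `j = 2, 4, 6, 8` -/
def psi (σ : F →+* F) (α β : F) (j : ℤ) : F :=
  if j = 2 then α * β else if j = 4 then σ α * β * σ β else if j = 6 then α * β * σ β else β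

/-- the scalars of the torus element `(α, β)` on `z j`, `1 ≤ j ≤ 8` -/
def chi (σ : F →+* F) (α β : F) (j : ℤ) : F :=
  if j = 1 then α else if j = 3 then α * σ α * β ^ 2 * σ β else if j = 5 then α * σ α * β ^ 2 * σ β ^ 2
  else if j = 7 then α * β ^ 2 * σ β else psi σ α β j * σ (psi σ α β j)

/-- `t` acts on `f` as the scalar `s` -/
def Sc (f : F → G) (t : G) (s : F) : Prop := ∀ a, cj (f a) t = f (s * a)

theorem Sc.eq {f : F → G} {t : G} {s r : F} (h : Sc f t s) (e : s = r) : Sc f t r := e ▸ h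

theorem Sc.mul {f : F → G} {t t' : G} {s r : F} (h : Sc f t s) (h' : Sc f t' r) : Sc f (t * t') (s * r) := fun a => by
  rw [← cj_cj, h, h', ← mul_assoc, mul_comm r]

namespace Fr

variable [Finite G] [Finite F] {n₁ n₈ : G} {z : ℤ → F → G} {κ : ℤ → G} (h : Fr F U n₁ n₈ z κ) {i j k : ℤ}
include h

theorem ex_cj {t : G} (ht : Tr U 0 t) (i : ℤ) (a : F) : ∃ c, cj (z i a) t = z i c := by
  rcases Int.emod_two_eq_zero_or_one i with e | e
  · exact ((h.pmV i e).mem _).1 (Veq ((h.toMP.V_tr ht).1 (h.zV a)))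
  · exact ((h.pmU i e).mem _).1 (Ueq (ht.cj (h.zU i a)))

theorem uniq35 {x y x' y' : F} (e : z 3 x * z 5 y = z 3 x' * z 5 y') : x = x' ∧ y = y' := by
  obtain ⟨e1, e2⟩ := h.toMP.uniq (i := 3) (k := 3) (j := 5) (by norm_num) (UW (h.zU 3 x)) (UW (h.zU 5 y)) (UW (h.zU 3 x'))
    (UW (h.zU 5 y')) e
  exact ⟨h.zinj 3 e1, h.zinj 5 e2⟩

theorem zc (a c : F) (hi : i % 2 = 1 := by omega) (hj : j % 2 = 1 := by omega) (h1 : i - 4 ≤ j := by omega)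
    (h2 : j ≤ i + 4 := by omega) : Commute (z i a) (z j c) := h.toOc.odd_c (h.zU i a) (h.zU j c)

theorem cm17 {s : F} {a b : G} (m : Mu 8 U 1 (z 1 s) a b) (u : F) :
    ∃ x y, cm (z 1 s) (z 7 u) = z 3 x * z 5 y ∧ cj (z 7 u) (a * z 1 s * b) = z 3 x := by
  obtain ⟨w, hw, e, -⟩ := h.toOc.cm6 m (h.zU 7 u) rfl
  obtain ⟨x, hx⟩ := ((h.pmU 3 rfl).mem _).1 (m.rf.cj (h.zU 7 u))
  obtain ⟨y, rfl⟩ := ((h.pmU 5 rfl).mem _).1 hw
  exact ⟨x, y, by rw [← hx, ← e, h.zinv], hx⟩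

theorem sc8 {t : G} {s : F} (e : Sc (z i) t s) (hj : j = 8 - i := by omega) : Sc (z j) (cj t n₈) s := fun a => by
  rw [hj, ← h.r8, ← h.r8, ← e, cj_cj, cj_cj, show n₈ * cj t n₈ = t * n₈ by rw [cj, mul_assoc, mul_inv_cancel_left]]

/-- Propagation along `[z i a, z j c] = z k (a c)` (`j = i + 5`; `r5`, `r5'`). -/
theorem sc_left {t : G} (ht : Tr U 0 t) (R : ∀ a c, cm (z i a) (z j c) = z k (a * c)) {s r : F} (hs : s ≠ 0)
    (h1 : Sc (z j) t s) (h2 : Sc (z k) t r) : Sc (z i) t (r / s) := fun a => by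
  obtain ⟨c, hc⟩ := h.ex_cj ht i a
  have e : cj _ t = cj _ t := congrArg (cj · t) (R a 1)
  rw [cj_cm, hc, h1, h2, R, mul_one, mul_one] at e
  rw [hc, div_mul_eq_mul_div, ← h.zinj k e, mul_div_cancel_right₀ _ hs]
theorem sc_right {t : G} (ht : Tr U 0 t) (R : ∀ a c, cm (z i a) (z j c) = z k (a * c)) {s r : F} (hs : s ≠ 0)
    (h1 : Sc (z i) t s) (h2 : Sc (z k) t r) : Sc (z j) t (r / s) := fun a => by
  obtain ⟨c, hc⟩ := h.ex_cj ht j a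
  have e : cj _ t = cj _ t := congrArg (cj · t) (R 1 a)
  rw [cj_cm, hc, h1, h2, R, mul_one, one_mul] at e
  rw [hc, div_mul_eq_mul_div, ← h.zinj k e, mul_div_cancel_left₀ _ hs]

/-- `t = μ(z 1 s) n₁`: `z 6 c ^ μ(z 1 s) = [z 1 s, z 6 c] = z 4 (s c)` (`cm5_mu'`); `μ(z 1 s)` is an involution
(`κ = l`); `U 1`, `U 9` centralise `U 5`. -/
theorem hs {s : F} (hs : s ≠ 0) {a b : G} (m : Mu 8 U 1 (z 1 s) a b) : Tr U 0 (a * z 1 s * b * n₁) ∧
    Sc (z 6) (a * z 1 s * b * n₁) s ∧ Sc (z 4) (a * z 1 s * b * n₁) s⁻¹ ∧ Sc (z 5) (a * z 1 s * b * n₁) 1 ∧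
      Sc (z 1) (a * z 1 s * b * n₁) (s ^ 2)⁻¹ ∧ cj (a * z 1 s * b * n₁) n₁ = (a * z 1 s * b * n₁)⁻¹ := by
  have t0 : Tr U 0 (a * z 1 s * b * n₁) := m.rf.mul h.rf1
  have e6 : ∀ c, cj (z 6 c) (a * z 1 s * b) = z 4 (s * c) := fun c => by
    rw [← h.toOc.cm5_mu' (h.zV (j := 6) c) m, h.zinv, h.mul]
  have s6 : Sc (z 6) (a * z 1 s * b * n₁) s := fun c => by rw [← cj_cj, e6, h.r1]; rfl
  have s4 : Sc (z 4) (a * z 1 s * b * n₁) s⁻¹ := fun c => by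
    have e := Oc.B.inv6 h.toOc m (h.zV (j := 6) (s⁻¹ * c))
    rw [e6, mul_inv_cancel_left₀ hs, h.zinv] at e
    rw [← cj_cj, e, h.r1]; rfl
  refine ⟨t0, s6, s4, fun c => ?_, (h.sc_left t0 h.mul hs s6 s4).eq (by rw [div_eq_mul_inv, pow_two, mul_inv]), ?_⟩
  · rw [← cj_cj, cj_eq_self.2 (((h.toOc.odd_c (h.zU 5 c) m.κ_mem).mul_right (h.zc c s)).mul_right
      (h.toOc.odd_c (h.zU 5 c) m.l_mem)), h.r1, one_mul]
    rfl
  · have mi := m.inv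
    rw [h.zinv] at mi
    have e1 : (a * z 1 s * b)⁻¹ = a * z 1 s * b := by
      rw [(Mu.uniq h.toMP m mi).1, mul_inv_rev, mul_inv_rev, inv_inv, h.zinv, mul_assoc]
    have e2 : n₁⁻¹ = n₁ := by rw [h.e1, mul_inv_rev, mul_inv_rev, h.zinv, h.zinv, mul_assoc]
    rw [mul_inv_rev, e1, cj, mul_assoc, mul_assoc _ n₁, mul_eq_one_iff_inv_eq.2 e2, mul_one]

/-- `[z 1 t, z 7 u] = z 3 (t * u) z 5 (m t u)` (`cm6`), `*` is biadditive (`odd_c`), `m t u = u * t` (conjugate by `n₈`),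
`z 7 u ^ {μ(z 1 t) n₁} = z 7 (t * u)`, `1 * u = u`.  Conjugating by `μ(z 1 s) n₁`: `(s * u) * t = u * (s² t)`.  With
`σ s = s * 1` (injective, so bijective): `σ s * t = s² t`, hence `r * t = σ r t`, `σ (σ s) = s²`, `σ (σ s u) = σ u σ (σ s)`. -/
theorem exists_sigma : ∃ σ : F →+* F, (∀ a, σ (σ a) = a ^ 2) ∧
    ∀ a u, cm (z 1 a) (z 7 u) = z 3 (σ a * u) * z 5 (a * σ u) := by
  have ex : ∀ t u, ∃ x y, cm (z 1 t) (z 7 u) = z 3 x * z 5 y := fun t u => by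
    by_cases t0 : t = 0
    · exact ⟨0, 0, by rw [t0, h.z0, h.z0, h.z0, mul_one, cm_eq_one]; exact Commute.one_left _⟩
    · obtain ⟨a, b, m⟩ := h.toMP.exists_mu (h.zU 1 t) (h.z_ne 1 t0)
      obtain ⟨x, y, e, -⟩ := h.cm17 m u
      exact ⟨x, y, e⟩
  choose f g R using ex
  have fa : ∀ t t' u, f (t + t') u = f t u + f t' u := fun t t' u => by
    have e := R (t + t') u
    rw [h.add, cm_mul_left, R, R, cj_eq_self.2 ((h.zc _ _).mul_left (h.zc _ _)), mul_assoc, ← mul_assoc (z 5 _),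
      (h.zc (i := 5) (j := 3) _ _).eq, mul_assoc, ← h.add, ← mul_assoc, ← h.add] at e
    exact (h.uniq35 e).1.symm
  have gf : ∀ t u, g t u = f u t := fun t u => by
    have e := congrArg (cj · n₈) (R t u)
    simp only [cj_cm, cj_mul, h.r8, Int.reduceSub] at e
    rw [← cm_inv, R, mul_inv_rev, h.zinv, h.zinv, (h.zc (i := 5) (j := 3) _ _).eq, (h.zc (i := 5) (j := 3) _ _).eq] at e
    exact (h.uniq35 e).1.symm
  have fm : ∀ {s : F} {a b : G}, Mu 8 U 1 (z 1 s) a b → ∀ u, cj (z 7 u) (a * z 1 s * b) = z 3 (f s u) := fun m u => by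
    obtain ⟨x, y, e1, e2⟩ := h.cm17 m u
    rw [e2, (h.uniq35 (e1.symm.trans (R _ u))).1]
  have f1 : ∀ u, f 1 u = u := fun u => h.zinj 3 (by rw [← fm h.mu1, ← h.e1, h.r1]; rfl)
  have f0 : ∀ u, f 0 u = 0 := fun u => by simpa using fa 0 0 u
  have key : ∀ s u t, s ≠ 0 → f (f s u) t = f u (s ^ 2 * t) := fun s u t s0 => by
    obtain ⟨a, b, m⟩ := h.toMP.exists_mu (h.zU 1 s) (h.z_ne 1 s0)
    obtain ⟨k1, -, -, k4, k5, -⟩ := h.hs s0 m
    have e : cj _ _ = cj _ _ := congrArg (cj · (a * z 1 s * b * n₁)) (R (s ^ 2 * t) u)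
    obtain ⟨c, hc⟩ := h.ex_cj k1 3 (f (s ^ 2 * t) u)
    have e7 : cj (z 7 u) (a * z 1 s * b * n₁) = z 7 (f s u) := by rw [← cj_cj, fm m, h.r1]; rfl
    rw [cj_cm, cj_mul, hc, k4, k5, e7, inv_mul_cancel_left₀ (pow_ne_zero 2 s0), one_mul, R, gf, gf] at e
    exact (h.uniq35 e).2
  have k1 : ∀ s t, f (f s 1) t = s ^ 2 * t := fun s t => by
    by_cases s0 : s = 0
    · simp [s0, f0]
    · rw [key s 1 t s0, f1]
  obtain ⟨σ, hσ⟩ : ∃ σ : F →+ F, ∀ s, σ s = f s 1 := ⟨AddMonoidHom.mk' (f · 1) fun _ _ => fa _ _ _, fun _ => rfl⟩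
  have sj : Function.Surjective σ := Finite.surjective_of_injective ((injective_iff_map_eq_zero σ).2 fun s e => by
    have := k1 s 1
    rw [← hσ s, e, f0, mul_one] at this
    exact pow_eq_zero_iff two_ne_zero |>.1 this.symm)
  have k2 : ∀ s, σ (σ s) = s ^ 2 := fun s => by rw [hσ, hσ, k1, mul_one]
  have k3 : ∀ r t, f r t = σ r * t := fun r t => by
    obtain ⟨s, rfl⟩ := sj r
    rw [k2, hσ, k1]
  refine ⟨{ σ with map_one' := (hσ 1).trans (f1 1), map_mul' := fun r u => ?_ }, k2, fun a u => ?_⟩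
  · obtain ⟨s, rfl⟩ := sj r
    change σ (σ s * u) = σ (σ s) * σ u
    by_cases s0 : s = 0
    · simp [s0]
    · rw [← k3, hσ, key s u 1 s0, k3, k2, mul_one, mul_comm]
  · rw [R, gf, k3, k3, mul_comm (σ u)]; rfl

theorem hs2 {σ : F →+* F} (r6 : ∀ a u, cm (z 1 a) (z 7 u) = z 3 (σ a * u) * z 5 (a * σ u)) {s : F} (s0 : s ≠ 0) :
    ∃ t, Tr U 0 t ∧ Sc (z 1) t (s ^ 2)⁻¹ ∧ Sc (z 3) t (σ s)⁻¹ ∧ Sc (z 4) t s⁻¹ ∧ Sc (z 5) t 1 ∧ Sc (z 7) t (σ s) := by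
  obtain ⟨a, b, m⟩ := h.toMP.exists_mu (h.zU 1 s) (h.z_ne 1 s0)
  obtain ⟨k1, -, k3, k4, k5, -⟩ := h.hs s0 m
  have e7 : ∀ u, cj (z 7 u) (a * z 1 s * b) = z 3 (σ s * u) := fun u => by
    obtain ⟨x, y, e1, e2⟩ := h.cm17 m u
    rw [e2, (h.uniq35 (e1.symm.trans (r6 s u))).1]
  refine ⟨_, k1, k5, fun c => ?_, k3, k4, fun c => by rw [← cj_cj, e7, h.r1]; rfl⟩
  have e := Oc.B.inv7 h.toOc m (h.zU 7 ((σ s)⁻¹ * c)) rfl
  rw [e7, mul_inv_cancel_left₀ ((map_ne_zero σ).2 s0), h.zinv] at e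
  rw [← cj_cj, e, h.r1]; rfl

/-- `h(s) = μ(z 1 s) n₁` has scalars `0, 2 : (s σ s)⁻¹`, `1 : s⁻²`, `3 : (σ s)⁻¹`, `4, -2 : s⁻¹`, `5 : 1`, `6, 12 : s`, `7 : σ s`,
`8, 10 : s σ s` (`hs`, `cm6`, `sc_left`, `sc_right`).  Take `t = h(s) h(r) ^ n₈` with `u² α β² = 1`, `r = σ u u²`, `s = r β`
(`h(s)` is `(s⁻², s)`, `h(r) ^ n₈` is `(σ r, r⁻¹)`). -/
theorem torus {σ : F →+* F} (sq : ∀ a, σ (σ a) = a ^ 2) (r6 : ∀ a u, cm (z 1 a) (z 7 u) = z 3 (σ a * u) * z 5 (a * σ u))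
    {α β : F} (hα : α ≠ 0) (hβ : β ≠ 0) : ∃ t, Tr U 0 t ∧ (∀ j, 1 ≤ j → j ≤ 8 → Sc (z j) t (chi σ α β j)) ∧
      ∀ j, 1 ≤ j → j ≤ 8 → j % 2 = 0 → Sc (z (j + 8)) t (chi σ α β j)⁻¹ := by
  have sj : Function.Surjective σ := Finite.surjective_of_injective σ.injective
  obtain ⟨u, hu⟩ := (sj.comp sj) (α * β ^ 2)⁻¹
  rw [Function.comp, sq] at hu
  have u0 : u ≠ 0 := by rintro rfl; simp [hα, hβ] at hu
  have ea : α = (u ^ 2 * β ^ 2)⁻¹ := by rw [hu]; field_simp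
  have σu := (map_ne_zero σ).2 u0
  have σβ := (map_ne_zero σ).2 hβ
  obtain ⟨t, t0, t1, t3, t4, t5, t7⟩ := h.hs2 r6 (s := σ u * u ^ 2 * β) (by positivity)
  obtain ⟨w, w0, w1, w3, w4, w5, w7⟩ := h.hs2 r6 (s := σ u * u ^ 2) (by positivity)
  have T : Tr U 0 (t * cj w n₈) := t0.mul ((h.rf8.inv.mul_tr w0).mul h.rf8)
  have c1 := t1.mul (h.sc8 w7)
  have c3 := t3.mul (h.sc8 w5)
  have c4 := t4.mul (h.sc8 w4)
  have c5 := t5.mul (h.sc8 w3)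
  have c7 := t7.mul (h.sc8 w1)
  simp only [map_mul, map_pow, sq] at c1 c3 c4 c5 c7
  have c6 := h.sc_right T h.mul (by positivity) c1 c4
  have c8 := h.sc_right (j := 8) T (fun a c => h.r5 a c) (by simp [u0, hβ]) c3 c6
  have c2 := h.sc_left (i := 2) T (fun a c => h.r5' a c) (by positivity) c7 c4
  have c0 := h.sc_left (i := 0) T (fun a c => h.r5' a c) (by simp [u0, hβ]) c5 c2
  have c10 := h.sc_right (j := 10) T (fun a c => h.r5 a c) (by simp [u0, hβ]) c5 c8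
  have c12 := h.sc_right (j := 12) T (fun a c => h.r5 a c) (by positivity) c7 c10
  have c14 := h.sc_left (i := -2) T (fun a c => h.r5' a c) (by simp [u0, hβ]) c3 c0
  rw [← h.zper] at c0 c14
  subst ea
  refine ⟨_, T, fun j j1 j2 => ?_, fun j j1 j2 j3 => ?_⟩
  · interval_cases j
    exacts [c1.eq (by simp [chi, psi, sq]; field_simp), c2.eq (by simp [chi, psi, sq]; field_simp),
      c3.eq (by simp [chi, psi, sq]; field_simp), c4.eq (by simp [chi, psi, sq]; field_simp),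
      c5.eq (by simp [chi, psi, sq]; field_simp), c6.eq (by simp [chi, psi, sq]; field_simp),
      c7.eq (by simp [chi, psi, sq]; field_simp), c8.eq (by simp [chi, psi, sq]; field_simp)]
  · obtain rfl | rfl | rfl | rfl : j = 2 ∨ j = 4 ∨ j = 6 ∨ j = 8 := by omega
    exacts [c10.eq (by simp [chi, psi, sq]; field_simp), c12.eq (by simp [chi, psi, sq]; field_simp),
      c14.eq (by simp [chi, psi, sq]; field_simp), c0.eq (by simp [chi, psi, sq]; field_simp)]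

end Fr

end CL.FS
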