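/-
S1144, octagons: the commutators of the base points.
-/
import Cfsg.Agent.CHEV.FS.O3

set_option autoImplicit false
set_option linter.unusedSectionVars false

namespace CL.FS

variable {G : Type*} [Group G] {U : ℤ → Subgroup G} {F : Type*} [Field F]

namespace Fr

variable [Finite G] {n₁ n₈ : G} {z : ℤ → F → G} {κ : ℤ → G} (h : Fr F U n₁ n₈ z κ)
include h

/-! `z_j = z j 1`.  `[z₁, z₈⁻¹] = s₂ ⋯ s₇` (`dec_bot`).  `shift_bot` four times: `s₂ = z₂`, `[s₂, z₉⁻¹] = s₃ ⋯ s₇ z₈`, `s₃ = z₃`,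
`[s₃, κ 10] = s₄ ⋯ s₇ z₈ z₉` (`mue`), `s₄ = (κ 4)⁻¹`, `[s₄, z₁₁⁻¹] = s₅ ⋯ z₉ (κ 10)⁻¹`, `s₅ = z₁₁ ^ μ(z₁₂) = z₅` (`Mu.la` for
`z₁₂`, `Mu.per`).  `shift_top` twice: `s₇ = z₇`, `[κ 0, z₇⁻¹] = z₁ s₂ ⋯ s₆`, `s₆ = κ 6`.  Use `refl`, `reflκ`, `sh`, `shκ`. -/
theorem b13 : cm (z 1 1) (z 8 1) = z 2 1 * z 3 1 * (κ 4)⁻¹ * z 5 1 * κ 6 * z 7 1 ∧
    cm (z 3 1) (κ 10) = (κ 4)⁻¹ * z 5 1 * κ 6 * z 7 1 * z 8 1 * z 9 1 := by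
  have H := h.toMP
  obtain ⟨s2, h2, y2, hy2, e2⟩ := H.dec_bot (i := 2) (j := 7) (by omega) (Wle (H.commZ (h.zU 1 1) (inv_mem (h.zU 8 1))))
  obtain ⟨s3, h3, y3, hy3, rfl⟩ := H.dec_bot (i := 3) (j := 7) (by omega) (Wle hy2)
  obtain ⟨s4, h4, y4, hy4, rfl⟩ := H.dec_bot (i := 4) (j := 7) (by omega) (Wle hy3)
  obtain ⟨s5, h5, y5, hy5, rfl⟩ := H.dec_bot (i := 5) (j := 7) (by omega) (Wle hy4)
  obtain ⟨s6, h6, s7, h7, rfl⟩ := H.dec_bot (i := 6) (j := 7) (by omega) (Wle hy5)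
  replace h7 : s7 ∈ U 7 := W_self (U := U) 7 ▸ Wle h7
  have m1 := h.muo (i := 1) (j := 9)
  obtain ⟨a2, e3⟩ := m1.shift_bot H (Ueq (h.zU 8 1)) (Ueq h2) (Wle hy2) e2
  rw [h.refl m1 1 (k := 2)] at a2
  have m2 := h.mue (i := 2) (j := 10)
  rw [a2, mul_assoc s3] at e3
  obtain ⟨a3, e4⟩ := m2.shift_bot H (Ueq (h.zU 9 1)) (Ueq h3) (mul_mem (Wle hy3) (UW (h.zU 8 1))) e3
  rw [h.refl m2 1 (k := 3)] at a3
  have m3 := h.muo (i := 3) (j := 11)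
  rw [a3, mul_assoc s4, mul_assoc s4] at e4
  obtain ⟨a4, e5⟩ := m3.shift_bot H (Ueq (inv_mem (h.κU (j := 10)))) (Ueq h4)
    (mul_mem (mul_mem (Wle hy4) (UW (h.zU 8 1))) (UW (h.zU 9 1))) e4
  rw [cj_inv, h.reflκ m3 (k := 4)] at a4
  have m12 := h.mue (i := 12) (j := 4)
  have m4 := (m12.la H).per H (j := 4) (by norm_num)
  rw [a4, mul_assoc s5, mul_assoc s5, mul_assoc s5] at e5
  obtain ⟨a5, -⟩ := m4.shift_bot H (Ueq (h.zU 11 1)) (Ueq h5) (mul_mem (mul_mem (mul_mem (Wle hy5) (UW (h.zU 8 1)))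
    (UW (h.zU 9 1))) (UW (inv_mem (h.κU (j := 10))))) e5
  rw [Oc.B.mu_la, h.refl m12 1 (k := 5)] at a5
  have m8 := h.mue (i := 8) (j := 0)
  obtain ⟨a7, f7⟩ := m8.shift_top H (y := s2 * s3 * s4 * s5 * s6) (Ueq (h.zU 1 1)) (Ueq h7)
    (mul_mem (mul_mem (mul_mem (mul_mem (UW h2) (UW h3)) (UW h4)) (UW h5)) (UW h6)) (by rw [e2]; group)
  rw [← h.refl m8 1 (j := 7) (k := 1), cj_inj] at a7
  have m7 := h.muo (i := 7) (j := 15)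
  obtain ⟨a6, -⟩ := m7.shift_top H (y := z 1 1 * s2 * s3 * s4 * s5) (Ueq (h.κU (j := 0))) (Ueq h6)
    (mul_mem (mul_mem (mul_mem (mul_mem (UW (h.zU 1 1)) (UW h2)) (UW h3)) (UW h4)) (UW h5)) (by rw [a7, f7]; group)
  rw [← h.reflκ m7 (j := 6) (k := 0), cj_inj] at a6
  rw [inv_inv] at e4
  rw [h.zinv] at e2
  rw [e2, e4, a2, a3, a4, a5, ← a6, ← a7]
  exact ⟨by group, by group⟩

theorem b1 : cm (z 1 1) (z 8 1) = z 2 1 * z 3 1 * (κ 4)⁻¹ * z 5 1 * κ 6 * z 7 1 := h.b13.1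
theorem b3 : cm (z 1 1) (κ 8) = (κ 2)⁻¹ * z 3 1 * κ 4 * z 5 1 * z 6 1 * z 7 1 := by
  have := congrArg (cj · ((n₁ * n₈) ^ (1 : ℤ))) h.b13.2
  simp only [cj_cm, cj_mul, cj_inv] at this
  rwa [h.sh 1 1 (j := 1), h.shκ 1 (j := 8), h.shκ 1 (j := 2), h.sh 1 1 (j := 3), h.shκ 1 (j := 4), h.sh 1 1 (j := 5),
    h.sh 1 1 (j := 6), h.sh 1 1 (j := 7)] at this

/-! `μ = μ(z₂) = k z₂ k⁻¹`, `k = κ 10`, `w = [z₇, k] ∈ V 8` (`cm3`), `[z₂, w⁻¹] = b e c` (`vv`).  `z₇ ^ μ = z₅` gives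
`z₅ ^ k = (z₇ w) ^ {z₂} = z₄ z₇ b e c w = (z₄ b) e (c z₇ w)`, so `b = z₄`, `e = z₅`, `[z₅, k] = c z₇ w`; `b = w ^ μ` gives `w = z₈`,
`c = z₂ ^ n₈ = z₆`.  Shift by powers of `n₁ n₈`. -/
theorem b456 : cm (z 2 1) (z 8 1) = z 4 1 * z 5 1 * z 6 1 ∧ cm (z 7 1) (κ 10) = z 8 1 ∧
    cm (z 5 1) (κ 10) = z 6 1 * z 7 1 * z 8 1 := by
  have H := h.toMP
  have O := h.toOc
  have m2 := h.mue (i := 2) (j := 10)
  have hw : cm (z 7 1) (κ 10) ∈ V U 4 8 := O.cm3 (h.zU 7 1) (h.κU (j := 10))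
  obtain ⟨b, hb, e, he, c, hc, E, -, eb, ec⟩ := O.vv (h.zV (j := 2) 1) (Veq hw)
  have E1 : cj (cj (z 7 1) (κ 10)) (z 2 1) = cj (z 5 1) (κ 10) := by
    rw [← h.refl m2 1 (j := 7) (k := 5), cj_cj, cj_cj]; congr 1; group
  have r : cm (z 2 1) (z 7 1) = z 4 1 := by rw [h.r5' 1 1 (k := 4), mul_one]
  rw [cj_eq (z 7 1), cj_mul, cj_eq' (z 7 1), cj_eq' (cm _ _), E, h.zinv, r, cj_eq (z 5 1)] at E1
  generalize hw' : cm (z 7 1) (κ 10) = w at hw E eb ec E1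
  have E2 : (z 4 1 * b * e) * (c * z 7 1 * w) = z 5 1 * cm (z 5 1) (κ 10) := by
    rw [← E1, (O.cV hc (h.zU 7 1)).eq]
    have c1 := (O.cV hb (h.zU 7 1)).eq
    have c2 := (O.odd_c he (h.zU 7 1)).eq
    calc _ = z 4 1 * (b * (e * z 7 1)) * c * w := by group
      _ = _ := by rw [c2, ← mul_assoc b, c1]; group
  obtain ⟨u1, u2⟩ := H.uniq (i := 4) (k := 5) (j := 9) (by omega)
    (mul_mem (mul_mem (UW (h.zU 4 1)) (UW (VU hb))) (UW he)) (mul_mem (mul_mem (UW (VU hc)) (UW (h.zU 7 1))) (UW (VU hw)))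
    (UW (h.zU 5 1)) (Wle (H.commZ (h.zU 5 1) (h.κU (j := 10)))) E2
  obtain ⟨u3, u4⟩ := H.uniq (i := 4) (k := 4) (j := 5) (by omega) (mul_mem (UW (h.zU 4 1)) (UW (VU hb))) (UW he)
    (one_mem _) (UW (h.zU 5 1)) (u1.trans (one_mul _).symm)
  have b4 : b = z 4 1 := by rw [eq_inv_of_mul_eq_one_right u3, h.zinv]
  have w8 : w = z 8 1 := by rw [← cj_inj (g := κ 10 * z 2 1 * (κ 10)⁻¹), ← eb _ _ m2, h.refl m2 1 (k := 4), b4]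
  have m8 := h.mue (i := 8) (j := 0)
  rw [w8, h.zinv] at ec E
  have c6 : c = z 6 1 := by rw [ec _ _ m8, h.refl m8 1 (k := 6)]
  exact ⟨by rw [E, b4, u4, c6], w8, by rw [← u2, c6, w8]⟩

theorem b4 : cm (z 2 1) (z 8 1) = z 4 1 * z 5 1 * z 6 1 := h.b456.1
theorem b5g {i j k : ℤ} (hi : i % 2 = 1 := by omega) (hj : j = i + 3 := by omega) (hk : k = i + 1 := by omega) :
    cm (z i 1) (κ j) = z k 1 := by
  have := congrArg (cj · ((n₁ * n₈) ^ ((7 - i) / 2))) h.b456.2.1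
  simp only [cj_cm] at this
  rwa [h.sh _ 1 (j := i), h.shκ _ (j := j), h.sh _ 1 (j := k)] at this
theorem b5 : cm (z 1 1) (κ 4) = z 2 1 := h.b5g
theorem b6' : cm (z 1 1) (κ 6) = z 2 1 * z 3 1 * z 4 1 := by
  have := congrArg (cj · ((n₁ * n₈) ^ (2 : ℤ))) h.b456.2.2
  simp only [cj_cm, cj_mul] at this
  rwa [h.sh 2 1 (j := 1), h.shκ 2 (j := 6), h.sh 2 1 (j := 2), h.sh 2 1 (j := 3), h.sh 2 1 (j := 4)] at this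
/-- `[a, b⁻¹] = ([a, b]⁻¹) ^ {b⁻¹}`, `b5` shifted -/
theorem b6 : cm (z 1 1) (κ 6)⁻¹ = z 2 1 * z 3 1 := by
  have O := h.toOc
  have : cj (z 1 1 * (z 2 1 * z 3 1)) (κ 6) = z 1 1 := by
    rw [cj_mul, cj_mul, cj_eq (z 1 1), h.b6', cj_eq_self.2 (O.cV (h.zV (j := 2) 1) (h.κU (j := 6))), cj_eq (z 3 1),
      h.b5g (k := 4)]
    have c1 := (O.cV (h.zV (j := 2) 1) (h.zU 3 1)).eq
    have c2 := (O.cV (h.zV (j := 2) 1) (h.zU 4 1)).eq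
    have c3 := (O.cV (h.zV (j := 4) 1) (h.zU 3 1)).eq
    calc _ = z 1 1 * (z 2 1 * z 3 1 * (z 4 1 * z 2 1) * z 3 1 * z 4 1) := by group
      _ = z 1 1 * (z 2 1 * (z 3 1 * z 2 1) * (z 4 1 * z 3 1) * z 4 1) := by rw [← c2]; group
      _ = z 1 1 * ((z 2 1 * z 2 1) * (z 3 1 * z 3 1) * (z 4 1 * z 4 1)) := by rw [← c1, c3]; group
      _ = _ := by rw [h.zz, h.zz, h.zz]; group
  have e := congrArg (cj · (κ 6)⁻¹) this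
  simp only [cj_cj_inv] at e
  rw [cj_eq] at e
  exact (mul_left_cancel e).symm
/-- `z₄ = z₈ ^ μ(z₂) = (z₄ z₅ z₆ z₈) ^ {k⁻¹}` and `b6` shifted give `[z₄, k⁻¹] = z₅ z₇ z₈` -/
theorem b8' : cm (z 4 1) (κ 10)⁻¹ = z 5 1 * z 7 1 * z 8 1 := by
  have O := h.toOc
  have m2 := h.mue (i := 2) (j := 10)
  have b6 := congrArg (cj · ((n₁ * n₈) ^ (-2 : ℤ))) h.b6
  simp only [cj_cm, cj_mul, cj_inv] at b6
  rw [h.sh _ 1 (j := 5), h.shκ _ (j := 10), h.sh _ 1 (j := 6), h.sh _ 1 (j := 7)] at b6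
  have E := h.refl m2 1 (j := 8) (k := 4)
  have k10 := h.κU (j := 10)
  rw [← cj_cj, ← cj_cj, cj_eq_self.2 (O.cV (h.zV (j := 8) 1) k10), cj_eq' (z 8 1), h.zinv, h.b4, cj_mul, cj_mul, cj_mul,
    cj_eq_self.2 (O.cV (h.zV (j := 8) 1) (inv_mem k10)), cj_eq_self.2 (O.cV (h.zV (j := 6) 1) (inv_mem k10)), cj_eq (z 5 1), b6,
    cj_eq (z 4 1)] at E
  have c1 := (O.cV (h.zV (j := 6) 1) (h.zU 7 1)).eq
  have c2 := (O.cV (h.zV (j := 8) 1) (h.zU 7 1)).eq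
  have c3 := (O.cV (h.zV (j := 8) 1) (h.zU 5 1)).eq
  have c4 := (O.odd_c (h.zU 7 1) (h.zU 5 1)).eq
  have : cm (z 4 1) (κ 10)⁻¹ = (z 5 1 * (z 6 1 * z 7 1) * z 6 1 * z 8 1)⁻¹ := by
    refine eq_inv_of_mul_eq_one_left (mul_left_cancel (a := z 4 1) ?_)
    rw [mul_one]; refine Eq.trans ?_ E; group
  rw [this, c1, mul_assoc (z 5 1), mul_assoc (z 7 1), h.zz, mul_one, mul_inv_rev, mul_inv_rev, h.zinv, h.zinv, h.zinv, ← mul_assoc, c2,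
    mul_assoc, c3, ← mul_assoc, c4]
theorem b8 : cm (z 2 1) (κ 8)⁻¹ = z 3 1 * z 5 1 * z 6 1 := by
  have := congrArg (cj · ((n₁ * n₈) ^ (1 : ℤ))) h.b8'
  simp only [cj_cm, cj_mul, cj_inv] at this
  rwa [h.sh 1 1 (j := 2), h.shκ 1 (j := 8), h.sh 1 1 (j := 3), h.sh 1 1 (j := 5), h.sh 1 1 (j := 6)] at this
/-- conjugate `[κ 4, (κ 6)⁻¹] = z 5 δ` by `z₀`: `κ 6 ^ {z₀} = z₁ z₃ z₄ κ 6` (`b8` shifted), `b5`, `r5'` -/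
theorem b7 : cm (κ 4) (κ 6)⁻¹ = z 5 1 := by
  have H := h.toMP
  have O := h.toOc
  have k4 := h.κU (j := 4)
  have k6 := h.κU (j := 6)
  obtain ⟨δ, e⟩ := ((h.pmU 5 (by omega)).mem _).1 (W_self (U := U) 5 ▸ Wle (H.commZ k4 (inv_mem k6)))
  have b8 := congrArg (cj · ((n₁ * n₈) ^ (2 : ℤ))) h.b8'
  simp only [cj_cm, cj_mul, cj_inv] at b8
  rw [h.sh _ 1 (j := 0), h.shκ _ (j := 6), h.sh _ 1 (j := 1), h.sh _ 1 (j := 3), h.sh _ 1 (j := 4)] at b8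
  have E := congrArg (cj · (z 0 1)) e
  simp only [cj_cm, cj_inv] at E
  rw [cj_eq_self.2 (O.cV (h.zV (j := 0) 1) k4).symm, cj_eq' (κ 6), b8, cj_eq' (z 5 δ), h.zinv, h.r5' 1 δ (k := 2), one_mul,
    mul_inv_rev, cm_mul_right, e, mul_inv_rev, mul_inv_rev, h.zinv, h.zinv, h.zinv, ← cj_cj, ← cj_cj,
    cj_eq_self.2 (O.cV (h.zV (j := 4) 1) (h.zU 5 δ)).symm, cj_eq_self.2 (O.odd_c (h.zU 5 δ) (h.zU 3 1)),
    cj_eq_self.2 (O.odd_c (h.zU 5 δ) (h.zU 1 1)), cm_mul_right, cm_eq_one.2 (O.cV (h.zV (j := 4) 1) k4).symm, one_cj, mul_one,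
    cm_mul_right, cm_eq_one.2 (H.comm_succ (h.zU 3 1) (Ueq k4)).symm, one_cj, mul_one, ← cm_inv, h.b5, h.zinv] at E
  rw [e, ← h.zinj 2 (mul_right_cancel E)]

end Fr

end CL.FS
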