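/-
S1144, octagons: coordinates.
-/
import Cfsg.Agent.CHEV.FS.O4
import Cfsg.Agent.CHEV.FS.O5

set_option autoImplicit false
set_option linter.unusedSectionVars false
set_option maxHeartbeats 200000

namespace CL.FS

variable {G : Type*} [Group G] {p : ℕ} {U : ℤ → Subgroup G} {F : Type*} [Field F]

structure Co (σ : F →+* F) (U : ℤ → Subgroup G) (n₁ n₈ : G) (z y : ℤ → F → G) : Prop
    extends Fr F U n₁ n₈ z fun j => y j 1 where
  sq : ∀ a, σ (σ a) = a ^ 2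
  r6 : ∀ a u, cm (z 1 a) (z 7 u) = z 3 (σ a * u) * z 5 (a * σ u)
  y0 : ∀ j : ℤ, y j 0 = 1
  yU : ∀ j : ℤ, j % 2 = 0 → ∀ b, y j b ∈ U j
  y1 : ∀ j : ℤ, j % 2 = 0 → ∀ b, cj (y j b) n₁ = y (10 - j) b
  y8 : ∀ j : ℤ, j % 2 = 0 → ∀ b, cj (y j b) n₈ = y (8 - j) b
  onto : ∀ j : ℤ, j % 2 = 0 → ∀ g ∈ U j, ∃ b c, g = y j b * z j c
  yV : ∀ j : ℤ, j % 2 = 0 → ∀ b, y j b ∈ V U 4 j → b = 0
  law : ∀ j : ℤ, j % 2 = 0 → ∀ b b', y j b * y j b' = y j (b + b') * z j (σ b' * b)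
  c4 : ∀ j : ℤ, j % 2 = 0 → ∀ b, ∀ g ∈ U (j + 4), Commute (y j b) g
  r3 : ∀ a b, cm (z 1 a) (y 4 b) = z 2 (a * b)
  r5y : ∀ a b, cm (z 1 a) (y 6 b)⁻¹ = z 2 (σ a * b) * z 3 (a * σ b)
  tor : ∀ α β, α ≠ 0 → β ≠ 0 → ∃ t, (∀ j : ℤ, 1 ≤ j → j ≤ 8 → Sc (z j) t (chi σ α β j)) ∧
    ∀ j : ℤ, 1 ≤ j → j ≤ 8 → j % 2 = 0 → Sc (y j) t (psi σ α β j)

theorem O6.uq {n : ℕ} (h : MP p n U) {i j : ℤ} {a a' k k' l l' : G} (m : Mu n U i a k l) (m' : Mu n U j a' k' l')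
    (e : (2 * n : ℤ) ∣ j - i) (e' : a = a') : k = k' := ((m.per h e).uniq h (e' ▸ m')).1

theorem O6.root {σ : F →+* F} (sq : ∀ a, σ (σ a) = a ^ 2) {c : F} (hc : c ≠ 0) : ∃ β, β ≠ 0 ∧ β * σ β = c := by
  have := (map_ne_zero σ).2 hc
  exact ⟨σ c / c, div_ne_zero this hc, by rw [map_div₀, sq]; field_simp⟩

/-- `y j b = κ(z (j + 8) (b σ b)⁻¹)` -/
structure O6.Ky (σ : F →+* F) (U : ℤ → Subgroup G) (z y : ℤ → F → G) : Prop where
  y0 : ∀ j, y j 0 = 1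
  mu : ∀ j b, b ≠ 0 → ∃ l, Mu 8 U (j + 8) (z (j + 8) (b * σ b)⁻¹) (y j b) l

namespace O6.Ky

variable [Finite G] [Finite F] {σ : F →+* F} {n₁ n₈ : G} {z y : ℤ → F → G} {κ : ℤ → G} (k : Ky σ U z y)
  (h : Fr F U n₁ n₈ z κ) {i j : ℤ}
include k h

theorem one (hj : j % 2 = 0) : y j 1 = κ j := by
  obtain ⟨l, m⟩ := k.mu j 1 one_ne_zero
  exact uq h.toMP m (h.muk j hj) (by simp) (by simp)

theorem yU (j : ℤ) (b : F) : y j b ∈ U j := by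
  by_cases b0 : b = 0
  · rw [b0, k.y0]; exact one_mem _
  obtain ⟨l, m⟩ := k.mu j b b0
  exact Ueq (m.κ_mem' h.toMP)

theorem rf {c : ℤ} {g : G} (r : Rf U c g) (e : ∀ j a, cj (z j a) g = z (c - j) a) (j : ℤ) (b : F) :
    cj (y j b) g = y (c - j) b := by
  by_cases b0 : b = 0
  · rw [b0, k.y0, k.y0, one_cj]
  obtain ⟨l, m⟩ := k.mu j b b0
  obtain ⟨l', m'⟩ := k.mu (c - j) b b0
  exact uq h.toMP (m.rf' h.toMP r) m' ⟨1, by push_cast; ring⟩ ((e _ _).trans (h.zeq _))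

theorem tr {d : ℤ} {g : G} (r : Tr U d g) {s : F} (hs : s ≠ 0) (e : ∀ a, cj (z (i + 8) a) g = z (j + 8) ((s * σ s)⁻¹ * a))
    (e' : j = i + d) (b : F) : cj (y i b) g = y j (s * b) := by
  by_cases b0 : b = 0
  · rw [b0, mul_zero, k.y0, k.y0, one_cj]
  obtain ⟨l, m⟩ := k.mu i b b0
  obtain ⟨l', m'⟩ := k.mu j (s * b) (mul_ne_zero hs b0)
  exact uq h.toMP (m.tr r) m' ⟨0, by omega⟩ ((e _).trans (by rw [map_mul, ← mul_inv]; congr 2; ring))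

theorem sh (c : ℤ) (b : F) (e : j = i - 2 * c := by omega) : cj (y i b) ((n₁ * n₈) ^ c) = y j b := by
  simpa using k.tr h (h.trρ c) one_ne_zero (j := j) (fun a => by simpa using h.sh c a) (by omega) b

theorem yV (hj : j % 2 = 0) {b : F} (e : y j b ∈ V U 4 j) : b = 0 := by
  by_contra b0
  obtain ⟨l, m⟩ := k.mu j b b0
  exact (h.kap_not (j := j) (h.zV _) m).1 e

theorem c4 (hj : j % 2 = 0) (b : F) {g : G} (hg : g ∈ U (j + 4)) : Commute (y j b) g := by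
  by_cases b0 : b = 0
  · simp [b0, k.y0]
  obtain ⟨l, m⟩ := k.mu j b b0
  exact (m.lemK h.toMP (m := 4) rfl hg (by omega) (h.cV (h.zV _) hg)).1

variable (sq : ∀ a, σ (σ a) = a ^ 2) (r6 : ∀ a u, cm (z 1 a) (z 7 u) = z 3 (σ a * u) * z 5 (a * σ u))
include sq r6

theorem tor (α β : F) (hα : α ≠ 0) (hβ : β ≠ 0) : ∃ t, (∀ j : ℤ, 1 ≤ j → j ≤ 8 → Sc (z j) t (chi σ α β j)) ∧
    ∀ j : ℤ, 1 ≤ j → j ≤ 8 → j % 2 = 0 → Sc (y j) t (psi σ α β j) := by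
  obtain ⟨t, tr, h1, h2⟩ := h.torus sq r6 hα hβ
  refine ⟨t, h1, fun j a b c => k.tr h tr ?_ (fun x => ?_) (by omega)⟩
  · unfold psi; split_ifs <;> simp [hα, hβ]
  · rw [h2 j a b c, chi, if_neg (by omega), if_neg (by omega), if_neg (by omega), if_neg (by omega)]

theorem r3 (a b : F) : cm (z 1 a) (y 4 b) = z 2 (a * b) := by
  by_cases a0 : a = 0
  · simp [a0, h.z0, cm]
  by_cases b0 : b = 0
  · simp [b0, h.z0, k.y0, cm]
  have s := (map_ne_zero σ).2 a0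
  obtain ⟨β, β0, e⟩ := root sq (div_ne_zero b0 s)
  obtain ⟨t, h1, h2⟩ := k.tor h sq r6 a β a0 β0
  have := congrArg (cj · t) h.b5
  simp only [cj_cm, ← k.one h (j := 4) rfl, h1 1 (by decide) (by decide) _, h1 2 (by decide) (by decide) _,
    h2 4 (by decide) (by decide) rfl _] at this
  rw [eq_div_iff s] at e
  rwa [show chi σ a β 1 * 1 = a by simp [chi], show psi σ a β 4 * 1 = b by simp [psi, ← e]; ring,
    show chi σ a β 2 * 1 = a * b by norm_num [chi, psi, ← e, -mul_eq_mul_left_iff, -mul_eq_mul_right_iff]; ring] at this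

theorem r5y (a b : F) : cm (z 1 a) (y 6 b)⁻¹ = z 2 (σ a * b) * z 3 (a * σ b) := by
  by_cases a0 : a = 0
  · simp [a0, h.z0, cm]
  by_cases b0 : b = 0
  · simp [b0, h.z0, k.y0, cm]
  obtain ⟨β, β0, e⟩ := root sq (div_ne_zero b0 a0)
  obtain ⟨t, h1, h2⟩ := k.tor h sq r6 a β a0 β0
  have := congrArg (cj · t) h.b6
  simp only [cj_cm, cj_inv, cj_mul, ← k.one h (j := 6) rfl, h1 1 (by decide) (by decide) _, h1 2 (by decide) (by decide) _,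
    h1 3 (by decide) (by decide) _, h2 6 (by decide) (by decide) rfl _] at this
  rw [eq_div_iff a0] at e
  rwa [show chi σ a β 1 * 1 = a by simp [chi], show psi σ a β 6 * 1 = b by norm_num [psi, ← e]; ring,
    show chi σ a β 2 * 1 = σ a * b by norm_num [chi, psi, ← e, -mul_eq_mul_left_iff, -mul_eq_mul_right_iff]; ring,
    show chi σ a β 3 * 1 = a * σ b by norm_num [chi, ← e, sq, -mul_eq_mul_left_iff, -mul_eq_mul_right_iff]; ring] at this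

theorem r3' (a b : F) (hj : j % 2 = 0 := by omega) : cm (z (j - 3) a) (y j b) = z (j - 2) (a * b) := by
  have := congrArg (cj · ((n₁ * n₈) ^ ((4 - j) / 2))) (k.r3 h sq r6 a b)
  simp only [cj_cm] at this
  rwa [h.sh (j := j - 3) _ _, h.sh (j := j - 2) _ _, k.sh h (j := j) _ _] at this

theorem onto (hj : j % 2 = 0) {g : G} (hg : g ∈ U j) : ∃ b c, g = y j b * z j c := by
  obtain ⟨b, e⟩ := ((h.pmV (j - 2) (by omega)).mem _).1 (h.cm3 (h.zU (j - 3) 1) hg)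
  have c : Commute (z (j - 3) 1) (g * (y j b)⁻¹) := cj_eq_self.1 (by
    rw [← cj_cj, cj_eq _ g, e, ← one_mul b, ← k.r3' h sq r6, ← cj_eq, one_mul, cj_cj_inv])
  obtain ⟨c, e⟩ := ((h.pmV j hj).mem _).1
    (h.ker3 (h.zU _ 1) (h.z_ne _ one_ne_zero) (mul_mem hg (inv_mem (k.yU h j b))) c.symm)
  exact ⟨b, c, by rw [← (h.cV (h.zV c) (k.yU h j b)).eq, ← e, inv_mul_cancel_right]⟩

theorem law6 (b b' : F) : y 6 b * y 6 b' = y 6 (b + b') * z 6 (σ b' * b) := by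
  have c4 : ∀ x b, cj (z 4 x) (y 6 b)⁻¹ = z 4 x := fun x b => cj_eq_self.2 (h.cV (h.zV x) (inv_mem (k.yU h 6 b)))
  have c2 : ∀ x b, cj (z 2 x) (y 6 b)⁻¹ = z 2 x := fun x b => cj_eq_self.2 (h.cV (h.zV x) (inv_mem (k.yU h 6 b)))
  have c3 : ∀ x b, cj (z 3 x) (y 6 b)⁻¹ = z 3 x * z 4 (x * b) := fun x b => by
    have e : cm (z 3 x) (y 6 b) = z 4 (x * b) := k.r3' h sq r6 (j := 6) x b
    rw [← c4, eq_comm, ← eq_mul_inv_iff_mul_eq, ← cj_inv, ← cj_mul, h.zinv, ← e, ← cj_eq, cj_cj_inv]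
  have M : cm (z 1 1) (y 6 b * y 6 b')⁻¹ = cm (z 1 1) (y 6 (b + b') * z 6 (σ b' * b))⁻¹ := by
    simp only [mul_inv_rev, cm_mul_right, k.r5y h sq r6, h.zinv, h.mul, cj_mul, c2, c3, c4, map_one, one_mul, map_add, h.add]
    rw [mul_assoc, mul_assoc, mul_assoc, mul_assoc, ← mul_assoc (z 3 _), ← (h.cV (h.zV (j := 2) b') (h.zU 3 _)).eq, mul_assoc]
  have c : Commute (z 1 1) ((y 6 b * y 6 b')⁻¹ * (y 6 (b + b') * z 6 (σ b' * b))) := cj_eq_self.1 (by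
    rw [← cj_cj, cj_eq _ _⁻¹, M, ← cj_eq, cj_inv_cj])
  exact inv_mul_eq_one.1 ((h.nc5 (h.zU 1 1) (mul_mem (inv_mem (mul_mem (k.yU h 6 b) (k.yU h 6 b')))
    (mul_mem (k.yU h 6 _) (h.zU 6 _))) c).resolve_left (h.z_ne 1 one_ne_zero))

theorem law (hj : j % 2 = 0) (b b' : F) : y j b * y j b' = y j (b + b') * z j (σ b' * b) := by
  have := congrArg (cj · ((n₁ * n₈) ^ ((6 - j) / 2))) (k.law6 h sq r6 b b')
  simp only [cj_mul] at this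
  rwa [h.sh (j := j) _ _, k.sh h (j := j) _ _, k.sh h (j := j) _ _, k.sh h (j := j) _ _] at this

end O6.Ky

/-- `y j b = κ(z (j + 8) (b σ b)⁻¹)` for `b ≠ 0`; transport and torus action by `Mu.rf'`, `Mu.tr`, `Mu.uniq`; `c4` by `lemK`;
`r3`, `r5y` from `b5`, `b6` by the torus (`x σ x = c` for `x = σ c / c`); `onto` by `ker3`; `law`: with `M Y = [z 1 1, Y⁻¹]`,
`M (Y Y') = M Y (M Y') ^ {Y⁻¹}` at `j = 6`. -/
theorem Oc.exists_co [Finite G] [Finite F] (h : Oc p U) (hF : Nat.card F = Nat.card (U 1)) :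
    ∃ (σ : F →+* F) (n₁ n₈ : G) (z y : ℤ → F → G), Co σ U n₁ n₈ z y := by
  obtain ⟨n₁, n₈, z, κ, f⟩ := h.exists_fr hF
  obtain ⟨σ, sq, r6⟩ := f.exists_sigma
  have : ∀ j b, ∃ x, (b = 0 → x = 1) ∧ (b ≠ 0 → ∃ l, Mu 8 U (j + 8) (z (j + 8) (b * σ b)⁻¹) x l) := fun j b => by
    by_cases b0 : b = 0
    · exact ⟨1, fun _ => rfl, fun k => absurd b0 k⟩
    obtain ⟨x, l, m⟩ := h.exists_mu (f.zU (j + 8) (b * σ b)⁻¹) (f.z_ne _ (by simp [b0]))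
    exact ⟨x, fun k => absurd k b0, fun _ => ⟨l, m⟩⟩
  choose y y0 mu using this
  have k : O6.Ky σ U z y := ⟨fun j => y0 j 0 rfl, mu⟩
  exact ⟨σ, n₁, n₈, z, y, { f with
      muk := fun j hj => (k.one f hj).symm ▸ f.muk j hj
      e8 := (k.one f (j := 0) rfl).symm ▸ f.e8 }, sq, r6, k.y0, fun j _ => k.yU f j, fun j _ => k.rf f f.rf1 f.r1 j,
    fun j _ => k.rf f f.rf8 f.r8 j, fun j hj g => k.onto f sq r6 hj, fun j hj b => k.yV f hj, fun j => k.law f sq r6,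
    fun j hj b g => k.c4 f hj b, k.r3 f sq r6, k.r5y f sq r6, k.tor f sq r6⟩

theorem Co.card [Finite G] {σ : F →+* F} {n₁ n₈ : G} {z y : ℤ → F → G} (h : Co σ U n₁ n₈ z y) :
    Nat.card (U 0) = Nat.card F ^ 2 := by
  rw [pow_two, ← Nat.card_prod]
  refine (Nat.card_congr (Equiv.ofBijective (fun x : F × F => (⟨_, mul_mem (h.yU 0 rfl x.1) (h.zU 0 x.2)⟩ : U 0))
    ⟨fun x x' e => ?_, fun g => ?_⟩)).symm
  · have e : y 0 x.1 * z 0 x.2 = y 0 x'.1 * z 0 x'.2 := congrArg Subtype.val e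
    have two : ∀ a : F, a + a = 0 := fun a => by rw [← two_mul, h.ch, zero_mul]
    have e' := congrArg (y 0 x.1 * ·) e
    simp only [← mul_assoc, h.law 0 rfl, two, h.y0, one_mul] at e'
    have := h.yV 0 rfl (x.1 + x'.1) (by
      rw [← mul_inv_eq_iff_eq_mul, ← mul_inv_eq_iff_eq_mul] at e'
      exact e' ▸ mul_mem (mul_mem (mul_mem (h.zV _) (h.zV _)) (inv_mem (h.zV _))) (inv_mem (h.zV _)))
    have e1 : x.1 = x'.1 := by linear_combination this - two x'.1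
    exact Prod.ext e1 (h.zinj 0 (mul_left_cancel (e1 ▸ e)))
  · obtain ⟨b, c, e⟩ := h.onto 0 rfl g g.2
    exact ⟨(b, c), Subtype.ext e.symm⟩

end CL.FS
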