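/-
S1144, octagons: the graph.
-/
import Cfsg.Agent.CHEV.FS.O6
import Cfsg.Agent.CHEV.FS.Uniq

set_option autoImplicit false
set_option linter.unusedSectionVars false

namespace CL.FS

namespace O7

section gen

variable {H : Type*} [Group H] {Y : ℤ → Subgroup H} {T : Subgroup H}

def CC (Y : ℤ → Subgroup H) (i j : ℤ) : Prop := ∀ a ∈ Y i, ∀ b ∈ Y j, cm a b ∈ W Y (i + 1) (j - 1)

theorem CC.tr {i j d : ℤ} {g : H} (c : CC Y i j) (t : Tr Y d g) : CC Y (i + d) (j + d) := fun a ha b hb => by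
  have ha' : cj a g⁻¹ ∈ Y i := Ueq (t.inv.cj ha)
  have hb' : cj b g⁻¹ ∈ Y j := Ueq (t.inv.cj hb)
  have := (t.W _ _ _).1 (c _ ha' _ hb')
  rw [cj_cm, cj_inv_cj, cj_inv_cj] at this
  exact Wle this

theorem CC.rf {i j e : ℤ} {g : H} (c : CC Y i j) (t : Rf Y e g) : CC Y (e - j) (e - i) := fun a ha b hb => by
  have ha' : cj a g⁻¹ ∈ Y j := Ueq (t.inv.cj ha)
  have hb' : cj b g⁻¹ ∈ Y i := Ueq (t.inv.cj hb)
  have := (t.W _ _ _).1 (c _ hb' _ ha')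
  rw [cj_cm, cj_inv_cj, cj_inv_cj] at this
  rw [← cm_inv]
  exact inv_mem (Wle this)

theorem ex_tr {g : H} (t : Tr Y (-2) g) (k : ℤ) : ∃ g, Tr Y (2 * k) g := by
  induction k using Int.induction_on with
  | zero => exact ⟨1, Tr.one⟩
  | succ k ih => obtain ⟨g', t'⟩ := ih; exact ⟨_, (by ring : 2 * (k : ℤ) + - -2 = 2 * (k + 1)) ▸ t'.mul t.inv⟩
  | pred k ih => obtain ⟨g', t'⟩ := ih; exact ⟨_, (by ring : 2 * (-k : ℤ) + -2 = 2 * (-k - 1)) ▸ t'.mul t⟩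

theorem CC.sh {g : H} (t : Tr Y (-2) g) {i j : ℤ} (c : CC Y i j) {r s : ℤ} (e : r % 2 = i % 2 := by omega)
    (e' : s - r = j - i := by omega) : CC Y r s := by
  obtain ⟨g', t'⟩ := ex_tr t ((r - i) / 2)
  have := c.tr t'
  rwa [show i + 2 * ((r - i) / 2) = r by omega, show j + 2 * ((r - i) / 2) = s by omega] at this

theorem nb {i k l : ℤ} (c : ∀ r, i < r → r ≤ k → CC Y i r) (e : l = i + 1 := by omega) :
    ∀ a ∈ Y i, ∀ x ∈ W Y l k, cj x a ∈ W Y l k := fun a ha _ hx => by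
  subst e
  exact cj_W (fun r r1 r2 b hb => by
    rw [cj_eq, ← cm_inv]
    exact mul_mem (le_W r1 r2 hb) (inv_mem (Wle (c r (by omega) r2 a ha b hb)))) hx

theorem nt {j k l : ℤ} (c : ∀ r, k ≤ r → r < j → CC Y r j) (e : l = j - 1 := by omega) :
    ∀ a ∈ Y j, ∀ x ∈ W Y k l, cj x a ∈ W Y k l := fun a ha _ hx => by
  subst e
  exact cj_W (fun r r1 r2 b hb => by
    rw [cj_eq]
    exact mul_mem (le_W r1 r2 hb) (Wle (c r r1 (by omega) b hb a ha))) hx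

theorem dec {i k l : ℤ} (N : ∀ a ∈ Y i, ∀ x ∈ W Y l k, cj x a ∈ W Y l k) {x : H} (hx : x ∈ W Y i k)
    (e : l = i + 1 := by omega) : ∃ a ∈ Y i, ∃ w ∈ W Y l k, x = a * w := by
  refine W_ind (P := fun y => ∃ a ∈ Y i, ∃ w ∈ W Y l k, y = a * w) ⟨1, one_mem _, 1, one_mem _, by simp⟩ ?_
    (fun r r1 r2 b hb => ?_) hx
  · rintro _ _ ⟨a, ha, z, hz, rfl⟩ ⟨a', ha', z', hz', rfl⟩
    exact ⟨a * a', mul_mem ha ha', cj z a' * z', mul_mem (N _ ha' _ hz) hz', by simp [cj, mul_assoc]⟩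
  · rcases r1.eq_or_lt with rfl | r1
    · exact ⟨b, hb, 1, one_mem _, by simp⟩
    · exact ⟨1, one_mem _, b, le_W (by omega) r2 hb, by simp⟩

theorem mr {a b c : H} (h1 : cm a b ∈ T) (h2 : cm a c ∈ T) (N : ∀ x ∈ T, cj x c ∈ T) : cm a (b * c) ∈ T := by
  rw [cm_mul_right]; exact mul_mem h2 (N _ h1)
theorem ml {a b c : H} (h1 : cm a c ∈ T) (h2 : cm b c ∈ T) (N : ∀ x ∈ T, cj x b ∈ T) : cm (a * b) c ∈ T := by
  rw [cm_mul_left]; exact mul_mem (N _ h1) h2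
theorem ir {a b : H} (h1 : cm a b⁻¹ ∈ T) (N : ∀ x ∈ T, cj x b ∈ T) : cm a b ∈ T := by
  rw [show cm a b = cj (cm a b⁻¹)⁻¹ b by simp [cm, cj, mul_assoc]]; exact N _ (inv_mem h1)
theorem il {a b : H} (h1 : cm a⁻¹ b ∈ T) (N : ∀ x ∈ T, cj x a ∈ T) : cm a b ∈ T := by
  rw [show cm a b = cj (cm a⁻¹ b)⁻¹ a by simp [cm, cj, mul_assoc]]; exact N _ (inv_mem h1)
theorem c1 (a : H) : cm a 1 ∈ T := by simp [cm]
theorem c1' (a : H) : cm 1 a ∈ T := by simp [cm]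
theorem cc {a b : H} (h : Commute a b) : cm a b ∈ T := by rw [cm_eq_one.2 h]; exact one_mem _

end gen

variable {G G' : Type*} [Group G] [Group G'] [Finite G] [Finite G'] {U : ℤ → Subgroup G} {U' : ℤ → Subgroup G'}
  {F : Type*} [Field F] {σ : F →+* F} {n₁ n₈ : G} {z y : ℤ → F → G} {n₁' n₈' : G'} {z' y' : ℤ → F → G'}

theorem ex_norm (sq : ∀ a, σ (σ a) = a ^ 2) {c : F} (hc : c ≠ 0) : ∃ x, x ≠ 0 ∧ x * σ x = c := by
  have : σ c ≠ 0 := (map_ne_zero σ).2 hc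
  exact ⟨σ c / c, div_ne_zero this hc, by rw [map_div₀, sq]; field_simp⟩

theorem mul_yz (h : Co σ U n₁ n₈ z y) {j : ℤ} {b b' : F} (hb : j % 2 = 1 → b = 0) (hb' : j % 2 = 1 → b' = 0) (c c' : F) :
    y j b * z j c * (y j b' * z j c') = y j (b + b') * z j (σ b' * b + c + c') := by
  rcases Int.emod_two_eq_zero_or_one j with e | e
  · have := (h.cV (h.zV c e) (h.yU j e b')).eq
    rw [h.add, h.add, mul_assoc (z j _), ← mul_assoc (y j (b + b')), ← h.law j e, ← mul_assoc, mul_assoc (y j b), this]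
    simp only [mul_assoc]
  · simp [hb e, hb' e, h.y0, h.add]

theorem inv_yz (h : Co σ U n₁ n₈ z y) {j : ℤ} {b : F} (hb : j % 2 = 1 → b = 0) (c : F) :
    (y j b * z j c)⁻¹ = y j b * z j (σ b * b + c) := by
  have two := h.ch
  rw [inv_eq_iff_mul_eq_one, mul_yz h hb hb, show b + b = 0 by linear_combination b * two,
    show σ b * b + c + (σ b * b + c) = 0 by linear_combination (σ b * b + c) * two, h.y0, h.z0, one_mul]

theorem yz_one (h : Co σ U n₁ n₈ z y) {j : ℤ} {b c : F} (hb : j % 2 = 1 → b = 0) (e : y j b * z j c = 1) :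
    b = 0 ∧ c = 0 := by
  have b0 : b = 0 := by
    rcases Int.emod_two_eq_zero_or_one j with k | k
    · exact h.yV j k b (by rw [eq_inv_of_mul_eq_one_left e]; exact inv_mem (h.zV c k))
    · exact hb k
  rw [b0, h.y0, one_mul, ← h.z0 j] at e
  exact ⟨b0, h.zinj j e⟩

theorem yz_mem (h : Co σ U n₁ n₈ z y) {j : ℤ} {b : F} (hb : j % 2 = 1 → b = 0) (c : F) : y j b * z j c ∈ U j := by
  refine mul_mem ?_ (h.zU j c)
  rcases Int.emod_two_eq_zero_or_one j with k | k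
  · exact h.yU j k b
  · rw [hb k, h.y0]; exact one_mem _

theorem yz_onto (h : Co σ U n₁ n₈ z y) {j : ℤ} {g : G} (hg : g ∈ U j) :
    ∃ b c, (j % 2 = 1 → b = 0) ∧ g = y j b * z j c := by
  rcases Int.emod_two_eq_zero_or_one j with k | k
  · obtain ⟨b, c, e⟩ := h.onto j k g hg
    exact ⟨b, c, fun k' => by omega, e⟩
  · obtain ⟨c, e⟩ := ((h.pmU j k).mem g).1 hg
    exact ⟨0, c, fun _ => rfl, by rw [h.y0, one_mul, e]⟩

theorem yz_r1 (h : Co σ U n₁ n₈ z y) {j : ℤ} {b : F} (hb : j % 2 = 1 → b = 0) (c : F) :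
    cj (y j b * z j c) n₁ = y (10 - j) b * z (10 - j) c := by
  rw [cj_mul, h.r1]
  rcases Int.emod_two_eq_zero_or_one j with k | k
  · rw [h.y1 j k]
  · rw [hb k, h.y0, h.y0, one_cj]

theorem yz_r8 (h : Co σ U n₁ n₈ z y) {j : ℤ} {b : F} (hb : j % 2 = 1 → b = 0) (c : F) :
    cj (y j b * z j c) n₈ = y (8 - j) b * z (8 - j) c := by
  rw [cj_mul, h.r8]
  rcases Int.emod_two_eq_zero_or_one j with k | k
  · rw [h.y8 j k]
  · rw [hb k, h.y0, h.y0, one_cj]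

def pz (z : ℤ → F → G) (z' : ℤ → F → G') (j : ℤ) (a : F) : G × G' := (z j a, z' j a)

variable (h : Co σ U n₁ n₈ z y) (h' : Co σ U' n₁' n₈' z' y')

def gY (j : ℤ) : Subgroup (G × G') where
  carrier := {g | ∃ b c, (j % 2 = 1 → b = 0) ∧ g = pz y y' j b * pz z z' j c}
  one_mem' := ⟨0, 0, fun _ => rfl, Prod.ext (by simp [pz, h.y0, h.z0]) (by simp [pz, h'.y0, h'.z0])⟩
  mul_mem' := by
    rintro _ _ ⟨b, c, hb, rfl⟩ ⟨b', c', hb', rfl⟩
    exact ⟨b + b', _, fun k => by simp [hb k, hb' k], Prod.ext (mul_yz h hb hb' c c') (mul_yz h' hb hb' c c')⟩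
  inv_mem' := by
    rintro _ ⟨b, c, hb, rfl⟩
    exact ⟨b, _, hb, Prod.ext (inv_yz h hb c) (inv_yz h' hb c)⟩

include h h'

theorem y_zero (j : ℤ) : pz y y' j 0 = 1 := Prod.ext (h.y0 j) (h'.y0 j)
theorem z_zero (j : ℤ) : pz z z' j 0 = 1 := Prod.ext (h.z0 j) (h'.z0 j)
theorem zY (j : ℤ) (c : F) : pz z z' j c ∈ gY h h' j := ⟨0, c, fun _ => rfl, by rw [y_zero h h', one_mul]⟩
theorem yY {j : ℤ} (b : F) (hj : j % 2 = 0 := by omega) : pz y y' j b ∈ gY h h' j :=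
  ⟨b, 0, fun k => by omega, by rw [z_zero h h', mul_one]⟩
theorem zW {i j k : ℤ} (c : F) (h1 : i ≤ k := by omega) (h2 : k ≤ j := by omega) : pz z z' k c ∈ W (gY h h') i j :=
  le_W h1 h2 (zY h h' k c)
theorem yW {i j k : ℤ} (c : F) (h1 : i ≤ k := by omega) (h2 : k ≤ j := by omega) (hk : k % 2 = 0 := by omega) :
    pz y y' k c ∈ W (gY h h') i j := le_W h1 h2 (yY h h' c)

theorem gr (j : ℤ) : Gr (U j) (U' j) (gY h h' j) where
  le := by rintro _ ⟨b, c, hb, rfl⟩; exact ⟨yz_mem h hb c, yz_mem h' hb c⟩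
  onto x hx := by obtain ⟨b, c, hb, rfl⟩ := yz_onto h hx; exact ⟨_, b, c, hb, rfl⟩
  onto' x hx := by obtain ⟨b, c, hb, rfl⟩ := yz_onto h' hx; exact ⟨_, b, c, hb, rfl⟩
  inj := by
    rintro _ ⟨b, c, hb, rfl⟩
    constructor
    · intro e; obtain ⟨rfl, rfl⟩ := yz_one h hb e; simp [pz, h'.y0, h'.z0]
    · intro e; obtain ⟨rfl, rfl⟩ := yz_one h' hb e; simp [pz, h.y0, h.z0]

theorem rf1 : Rf (gY h h') 10 (n₁, n₁') := fun j x => by
  constructor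
  · rintro ⟨b, c, hb, rfl⟩
    exact ⟨b, c, fun k => hb (by omega), Prod.ext (yz_r1 h hb c) (yz_r1 h' hb c)⟩
  · rintro ⟨b, c, hb, e⟩
    have hb' : j % 2 = 1 → b = 0 := fun k => hb (by omega)
    exact ⟨b, c, hb', cj_inj.1 (e.trans (Prod.ext (yz_r1 h hb' c).symm (yz_r1 h' hb' c).symm))⟩

theorem rf8 : Rf (gY h h') 8 (n₈, n₈') := fun j x => by
  constructor
  · rintro ⟨b, c, hb, rfl⟩
    exact ⟨b, c, fun k => hb (by omega), Prod.ext (yz_r8 h hb c) (yz_r8 h' hb c)⟩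
  · rintro ⟨b, c, hb, e⟩
    have hb' : j % 2 = 1 → b = 0 := fun k => hb (by omega)
    exact ⟨b, c, hb', cj_inj.1 (e.trans (Prod.ext (yz_r8 h hb' c).symm (yz_r8 h' hb' c).symm))⟩

theorem tr2 : Tr (gY h h') (-2) ((n₁, n₁') * (n₈, n₈')) := (rf1 h h').mul (rf8 h h')

theorem tor {α β : F} (hα : α ≠ 0) (hβ : β ≠ 0) : ∃ t : G × G',
    (∀ j : ℤ, 1 ≤ j → j ≤ 8 → cj (pz z z' j 1) t = pz z z' j (chi σ α β j)) ∧
    (∀ j : ℤ, 1 ≤ j → j ≤ 8 → j % 2 = 0 → cj (pz y y' j 1) t = pz y y' j (psi σ α β j)) ∧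
    ∀ i j : ℤ, 1 ≤ i → j ≤ 8 → ∀ x ∈ W (gY h h') i j, cj x t ∈ W (gY h h') i j := by
  obtain ⟨t, t1, t2⟩ := h.tor α β hα hβ
  obtain ⟨t', t1', t2'⟩ := h'.tor α β hα hβ
  have a1 : ∀ j : ℤ, 1 ≤ j → j ≤ 8 → Sc (pz z z' j) (t, t') (chi σ α β j) := fun j j1 j2 a =>
    Prod.ext (t1 j j1 j2 a) (t1' j j1 j2 a)
  have a2 : ∀ j : ℤ, 1 ≤ j → j ≤ 8 → j % 2 = 0 → Sc (pz y y' j) (t, t') (psi σ α β j) := fun j j1 j2 j3 a =>
    Prod.ext (t2 j j1 j2 j3 a) (t2' j j1 j2 j3 a)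
  refine ⟨(t, t'), fun j j1 j2 => by rw [a1 j j1 j2, mul_one], fun j j1 j2 j3 => by rw [a2 j j1 j2 j3, mul_one],
    fun i j i1 j1 x hx => cj_W (fun k k1 k2 a ha => ?_) hx⟩
  obtain ⟨b, c, hb, rfl⟩ := ha
  rw [cj_mul, a1 k (by omega) (by omega)]
  refine mul_mem ?_ (zW h h' _)
  rcases Int.emod_two_eq_zero_or_one k with e | e
  · rw [a2 k (by omega) (by omega) e]; exact yW h h' _
  · rw [hb e, y_zero h h', one_cj]; exact one_mem _

theorem of_comm {i j : ℤ} (c : ∀ a ∈ U i, ∀ b ∈ U j, Commute a b) (c' : ∀ a ∈ U' i, ∀ b ∈ U' j, Commute a b) :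
    CC (gY h h') i j := fun a ha b hb =>
  cc (Prod.ext (c _ ((gr h h' i).le a ha).1 _ ((gr h h' j).le b hb).1) (c' _ ((gr h h' i).le a ha).2 _ ((gr h h' j).le b hb).2))

theorem zc {i j : ℤ} {T : Subgroup (G × G')} (c : F) {b : G × G'} (hb : b ∈ gY h h' j) (hi : i % 2 = 0 := by omega)
    (h1 : i - 4 ≤ j := by omega) (h2 : j ≤ i + 4 := by omega) : cm (pz z z' i c) b ∈ T ∧ cm b (pz z z' i c) ∈ T :=
  have : Commute (pz z z' i c) b :=
    Prod.ext (h.cV (h.zV c hi) ((gr h h' j).le b hb).1) (h'.cV (h'.zV c hi) ((gr h h' j).le b hb).2)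
  ⟨cc this, cc this.symm⟩

theorem right {j : ℤ} {T : Subgroup (G × G')} {a : G × G'} (N : ∀ b ∈ gY h h' j, ∀ x ∈ T, cj x b ∈ T)
    (h1 : ∀ c, c ≠ 0 → cm a (pz z z' j c) ∈ T) (h2 : j % 2 = 0 → ∀ c, c ≠ 0 → cm a (pz y y' j c) ∈ T) :
    ∀ b ∈ gY h h' j, cm a b ∈ T := by
  rintro _ ⟨b, c, hb, rfl⟩
  refine mr ?_ ?_ (N _ (zY h h' j c))
  · by_cases b0 : b = 0
    · rw [b0, y_zero h h']; exact c1 _
    · exact h2 (by by_contra k; exact b0 (hb (by omega))) b b0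
  · by_cases c0 : c = 0
    · rw [c0, z_zero h h']; exact c1 _
    · exact h1 c c0

theorem left {i : ℤ} {T : Subgroup (G × G')} {b : G × G'} (N : ∀ a ∈ gY h h' i, ∀ x ∈ T, cj x a ∈ T)
    (h1 : ∀ c, c ≠ 0 → cm (pz z z' i c) b ∈ T) (h2 : i % 2 = 0 → ∀ c, c ≠ 0 → cm (pz y y' i c) b ∈ T) :
    ∀ a ∈ gY h h' i, cm a b ∈ T := fun a ha => by
  rw [← cm_inv]
  exact inv_mem (right h h' N (fun c c0 => by rw [← cm_inv]; exact inv_mem (h1 c c0))
    (fun e c c0 => by rw [← cm_inv]; exact inv_mem (h2 e c c0)) a ha)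

theorem d1 {i j : ℤ} (e : j = i + 1) : CC (gY h h') i j := by
  subst e; exact of_comm h h' (fun _ a _ b => h.comm_succ a b) fun _ a _ b => h'.comm_succ a b

theorem dodd {i j : ℤ} (hi : i % 2 = 1) (e : j = i + 2 ∨ j = i + 4) : CC (gY h h') i j :=
  of_comm h h' (fun _ a _ b => h.odd_c a b) fun _ a _ b => h'.odd_c a b

omit h' in
theorem c4 {i : ℤ} (hi : i % 2 = 0) : ∀ a ∈ U i, ∀ b ∈ U (i + 4), Commute a b := fun a ha b hb => by
  obtain ⟨c, d, rfl⟩ := h.onto i hi a ha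
  exact (h.c4 i hi c b hb).mul_left (h.cV (h.zV d hi) hb)

theorem d2 {i j : ℤ} (e : j = i + 2) : CC (gY h h') i j := by
  rcases Int.emod_two_eq_zero_or_one i with k | k
  swap
  · exact dodd h h' k (.inl e)
  have N := nb (Y := gY h h') (i := 4) (k := 6 - 1) (l := 4 + 1) fun r _ _ => d1 h h' (by omega)
  have N' := nt (Y := gY h h') (j := 6) (k := 4 + 1) (l := 6 - 1) fun r _ _ => d1 h h' (by omega)
  refine CC.sh (tr2 h h') (i := 4) (j := 6) fun a ha b hb => left h h' N (fun c _ => (zc h h' c hb).1)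
    (fun _ c c0 => right h h' N' (fun d _ => (zc h h' d (yY h h' c)).2) (fun _ d d0 => ir ?_ (N' _ (yY h h' d))) b hb) a ha
  have s0 : σ (c / d) ≠ 0 := (map_ne_zero σ).2 (div_ne_zero c0 d0)
  have α0 : c / d * σ (c / d) ≠ 0 := mul_ne_zero (div_ne_zero c0 d0) s0
  obtain ⟨β, β0, hβ⟩ := ex_norm h.sq (div_ne_zero d0 α0)
  obtain ⟨t, t1, t2, t3⟩ := tor h h' α0 β0
  have := t3 (4 + 1) (6 - 1) (by omega) (by omega) _ (zW h h' (k := 5) 1)
  rw [← show cm (pz y y' 4 1) (pz y y' 6 1)⁻¹ = pz z z' 5 1 from Prod.ext h.b7 h'.b7, cj_cm, cj_inv,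
    t2 4 (by omega) (by omega) rfl, t2 6 (by omega) (by omega) rfl] at this
  have e4 : psi σ (c / d * σ (c / d)) β 4 = c := by
    simp only [psi]; norm_num only [if_true, if_false]; rw [mul_assoc, hβ, map_mul, h.sq]; field_simp
  have e6 : psi σ (c / d * σ (c / d)) β 6 = d := by
    simp only [psi]; norm_num only [if_true, if_false]; rw [mul_assoc, hβ]; field_simp
  rwa [e4, e6] at this

theorem odd_z {i : ℤ} (hi : i % 2 = 1) {a : G × G'} (ha : a ∈ gY h h' i) : ∃ c, a = pz z z' i c := by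
  obtain ⟨b, c, hb, rfl⟩ := ha
  exact ⟨c, by rw [hb hi, y_zero h h', one_mul]⟩

theorem le2 {i j : ℤ} (h1 : i < j) (h2 : j ≤ i + 2) : CC (gY h h') i j := by
  by_cases e : j = i + 1
  · exact d1 h h' e
  · exact d2 h h' (by omega)

theorem d3 {i j : ℤ} (e : j = i + 3) : CC (gY h h') i j := by
  have c : CC (gY h h') 1 4 := fun a ha b hb => by
    obtain ⟨c, rfl⟩ := odd_z h h' rfl ha
    refine right h h' (nt fun r _ _ => le2 h h' (by omega) (by omega)) (fun d _ => (zc h h' d ha).2) (fun _ d _ => ?_) b hb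
    rw [show cm (pz z z' 1 c) (pz y y' 4 d) = pz z z' 2 (c * d) from Prod.ext (h.r3 c d) (h'.r3 c d)]
    exact zW h h' _
  rcases Int.emod_two_eq_zero_or_one i with k | k
  · exact (c.rf (rf8 h h')).sh (tr2 h h')
  · exact c.sh (tr2 h h')

theorem d4 {i j : ℤ} (e : j = i + 4) : CC (gY h h') i j := by
  rcases Int.emod_two_eq_zero_or_one i with k | k
  · subst e; exact of_comm h h' (c4 h k) (c4 h' k)
  · exact dodd h h' k (.inr e)

theorem le4 {i j : ℤ} (h1 : i < j) (h2 : j ≤ i + 4) : CC (gY h h') i j := by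
  by_cases e : j = i + 3
  · exact d3 h h' e
  by_cases e : j = i + 4
  · exact d4 h h' e
  · exact le2 h h' h1 (by omega)

theorem d5 {i j : ℤ} (e : j = i + 5) : CC (gY h h') i j := by
  have c : CC (gY h h') 1 6 := fun a ha b hb => by
    obtain ⟨c, rfl⟩ := odd_z h h' rfl ha
    have N := nt (Y := gY h h') (j := 6) (k := 1 + 1) (l := 6 - 1) fun r _ _ => le4 h h' (by omega) (by omega)
    refine right h h' N (fun d _ => ?_) (fun _ d _ => ir ?_ (N _ (yY h h' d))) b hb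
    · rw [show cm (pz z z' 1 c) (pz z z' 6 d) = pz z z' 4 (c * d) from Prod.ext (h.mul c d) (h'.mul c d)]
      exact zW h h' _
    · rw [show cm (pz z z' 1 c) (pz y y' 6 d)⁻¹ = pz z z' 2 _ * pz z z' 3 _ from Prod.ext (h.r5y c d) (h'.r5y c d)]
      exact mul_mem (zW h h' _) (zW h h' _)
  rcases Int.emod_two_eq_zero_or_one i with k | k
  · exact (c.rf (rf8 h h')).sh (tr2 h h')
  · exact c.sh (tr2 h h')

theorem le5 {i j : ℤ} (h1 : i < j) (h2 : j ≤ i + 5) : CC (gY h h') i j := by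
  by_cases e : j = i + 5
  · exact d5 h h' e
  · exact le4 h h' h1 (by omega)

theorem c17 : CC (gY h h') 1 7 := fun a ha b hb => by
  obtain ⟨c, rfl⟩ := odd_z h h' rfl ha
  obtain ⟨d, rfl⟩ := odd_z h h' rfl hb
  rw [show cm (pz z z' 1 c) (pz z z' 7 d) = pz z z' 3 _ * pz z z' 5 _ from Prod.ext (h.r6 c d) (h'.r6 c d)]
  exact mul_mem (zW h h' _) (zW h h' _)

theorem N8 : ∀ a ∈ gY h h' 8, ∀ x ∈ W (gY h h') 3 7, cj x a ∈ W (gY h h') 3 7 :=
  nt fun _ _ _ => le5 h h' (by omega) (by omega)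
theorem N2 : ∀ a ∈ gY h h' 2, ∀ x ∈ W (gY h h') 3 7, cj x a ∈ W (gY h h') 3 7 :=
  nb fun _ _ _ => le5 h h' (by omega) (by omega)

theorem z28 (c : F) : ∀ b ∈ gY h h' 8, cm (pz z z' 2 c) b ∈ W (gY h h') 3 7 := by
  by_cases c0 : c = 0
  · rw [c0, z_zero h h']; exact fun _ _ => c1' _
  obtain ⟨u, u0, hu⟩ := ex_norm h.sq c0
  have A : ∀ β : F, β ≠ 0 → chi σ (u / β) β 2 = c := fun β β0 => by
    simp only [chi, psi]; norm_num only [if_true, if_false]; rw [div_mul_cancel₀ _ β0, hu]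
  refine right h h' (N8 h h') (fun d d0 => ?_) fun _ d d0 => ir ?_ (N8 h h' _ (yY h h' d))
  · obtain ⟨β, β0, hβ⟩ := ex_norm h.sq d0
    obtain ⟨t, t1, t2, t3⟩ := tor h h' (div_ne_zero u0 β0) β0
    have := t3 3 7 (by omega) (by omega) _ (mul_mem (mul_mem (zW h h' (k := 4) 1) (zW h h' (k := 5) 1)) (zW h h' (k := 6) 1))
    rw [← show cm (pz z z' 2 1) (pz z z' 8 1) = pz z z' 4 1 * pz z z' 5 1 * pz z z' 6 1 from Prod.ext h.b4 h'.b4, cj_cm,
      t1 2 (by omega) (by omega), t1 8 (by omega) (by omega), A β β0] at this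
    rwa [show chi σ (u / β) β 8 = d by simp only [chi, psi]; norm_num only [if_true, if_false]; exact hβ] at this
  · obtain ⟨t, t1, t2, t3⟩ := tor h h' (div_ne_zero u0 d0) d0
    have := t3 3 7 (by omega) (by omega) _ (mul_mem (mul_mem (zW h h' (k := 3) 1) (zW h h' (k := 5) 1)) (zW h h' (k := 6) 1))
    rw [← show cm (pz z z' 2 1) (pz y y' 8 1)⁻¹ = pz z z' 3 1 * pz z z' 5 1 * pz z z' 6 1 from Prod.ext h.b8 h'.b8, cj_cm,
      cj_inv, t1 2 (by omega) (by omega), t2 8 (by omega) (by omega) rfl, A d d0] at this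
    rwa [show psi σ (u / d) d 8 = d by simp only [psi]; norm_num only [if_true, if_false]] at this

theorem p1 {a c : F} (a0 : a ≠ 0) (c0 : c ≠ 0) :
    ∃ d, ∃ R ∈ W (gY h h') 3 7, cm (pz z z' 1 a) (pz z z' 8 c) = pz z z' 2 d * R := by
  obtain ⟨β, β0, hβ⟩ := ex_norm h.sq c0
  obtain ⟨t, t1, t2, t3⟩ := tor h h' a0 β0
  have := congrArg (cj · t) (show cm (pz z z' 1 1) (pz z z' 8 1) = pz z z' 2 1 * pz z z' 3 1 * (pz y y' 4 1)⁻¹ * pz z z' 5 1 *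
    pz y y' 6 1 * pz z z' 7 1 from Prod.ext h.b1 h'.b1)
  simp only [mul_assoc] at this
  rw [cj_cm, cj_mul, t1 1 (by omega) (by omega), t1 8 (by omega) (by omega), t1 2 (by omega) (by omega),
    show chi σ a β 8 = c by simp only [chi, psi]; norm_num only [if_true, if_false]; exact hβ,
    show chi σ a β 1 = a by simp only [chi]; norm_num only [if_true, if_false]] at this
  exact ⟨_, _, t3 3 7 (by omega) (by omega) _ (mul_mem (zW h h' 1) (mul_mem (inv_mem (yW h h' 1)) (mul_mem (zW h h' 1)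
    (mul_mem (yW h h' 1) (zW h h' 1))))), this⟩

theorem p2 {a c : F} (a0 : a ≠ 0) (c0 : c ≠ 0) :
    ∃ R ∈ W (gY h h') 3 7, cm (pz z z' 1 a) (pz y y' 8 c) = (pz y y' 2 (a * c))⁻¹ * R := by
  obtain ⟨t, t1, t2, t3⟩ := tor h h' a0 c0
  have := congrArg (cj · t) (show cm (pz z z' 1 1) (pz y y' 8 1) = (pz y y' 2 1)⁻¹ * pz z z' 3 1 * pz y y' 4 1 * pz z z' 5 1 *
    pz z z' 6 1 * pz z z' 7 1 from Prod.ext h.b3 h'.b3)
  simp only [mul_assoc] at this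
  rw [cj_cm, cj_mul, cj_inv, t1 1 (by omega) (by omega), t2 8 (by omega) (by omega) rfl, t2 2 (by omega) (by omega) rfl,
    show psi σ a c 8 = c by simp only [psi]; norm_num only [if_true, if_false],
    show psi σ a c 2 = a * c by simp only [psi]; norm_num only [if_true, if_false],
    show chi σ a c 1 = a by simp only [chi]; norm_num only [if_true, if_false]] at this
  exact ⟨_, t3 3 7 (by omega) (by omega) _ (mul_mem (zW h h' 1) (mul_mem (yW h h' 1) (mul_mem (zW h h' 1)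
    (mul_mem (zW h h' 1) (zW h h' 1))))), this⟩

theorem z18 (a : F) : ∀ b ∈ gY h h' 8, cm (pz z z' 1 a) b ∈ W (gY h h') 2 7 := by
  by_cases a0 : a = 0
  · rw [a0, z_zero h h']; exact fun _ _ => c1' _
  rintro _ ⟨b, c, -, rfl⟩
  have A : cm (pz z z' 1 a) (pz y y' 8 b) ∈ W (gY h h') 2 7 := by
    by_cases b0 : b = 0
    · rw [b0, y_zero h h']; exact c1 _
    · obtain ⟨R, hR, e⟩ := p2 h h' a0 b0
      rw [e]; exact mul_mem (inv_mem (yW h h' _)) (Wle hR)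
  by_cases c0 : c = 0
  · rwa [c0, z_zero h h', mul_one]
  obtain ⟨d, R, hR, e⟩ := p1 h h' a0 c0
  rw [← (cm_eq_one.1 (Subgroup.mem_bot.1 (zc h h' (i := 8) c (yY h h' (j := 8) b)).1)).eq, cm_mul_right, e, cj_mul,
    cj_eq (pz z z' 2 d)]
  exact mul_mem A (mul_mem (mul_mem (zW h h' _) (Wle (z28 h h' d _ (yY h h' b)))) (Wle (N8 h h' _ (yY h h' b) _ hR)))

theorem c28 : CC (gY h h') 2 8 := fun a ha b hb => by
  refine left h h' (T := W (gY h h') 3 7) (N2 h h') (fun c _ => z28 h h' c b hb) (fun _ c c0 => il ?_ (N2 h h' _ (yY h h' c))) a ha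
  obtain ⟨R, hR, e⟩ := p2 h h' c0 one_ne_zero
  have A := z18 h h' c _ (mul_mem (yY h h' (j := 8) 1) hb)
  rw [cm_mul_right, e, cj_mul, cj_eq (_)⁻¹, mul_one, mul_mem_cancel_left (z18 h h' c b hb),
    mul_mem_cancel_right (Wle (N8 h h' _ hb _ hR)), mul_mem_cancel_left (inv_mem (yW h h' c))] at A
  obtain ⟨u, hu, w, hw, e⟩ := dec (N2 h h') A
  have w1 : w.1 ∈ W U 3 7 := W_ind (P := fun w : G × G' => w.1 ∈ W U 3 7) (one_mem _) (fun _ _ a b => mul_mem a b)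
    (fun r r1 r2 b hb => le_W r1 r2 ((gr h h' r).le b hb).1) hw
  have u1 : u.1 = 1 := by
    have : u.1 * w.1 ∈ W U 3 7 := by
      rw [← Prod.fst_mul, ← e]
      exact Wle (h.commZ (inv_mem (h.yU 2 rfl c)) ((gr h h' 8).le b hb).1)
    exact h.ind' (UW (i := 2) (j := 2) ((gr h h' 2).le u hu).1) ((mul_mem_cancel_right w1).1 this)
  rwa [e, (gr h h' 2).eq hu (one_mem _) u1, one_mul]

end O7

variable {G G' : Type*} [Group G] [Group G'] [Finite G] [Finite G'] {U : ℤ → Subgroup G} {U' : ℤ → Subgroup G'}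
  {F : Type*} [Field F]

theorem Co.win {σ : F →+* F} {n₁ n₈ : G} {z y : ℤ → F → G} {n₁' n₈' : G'} {z' y' : ℤ → F → G'} (h : Co σ U n₁ n₈ z y)
    (h' : Co σ U' n₁' n₈' z' y') : ∃ Y : ℤ → Subgroup (G × G'), Win 8 U U' Y 1 := by
  refine ⟨O7.gY h h', fun j _ _ => O7.gr h h' j, fun j k h1 h2 h3 => ?_⟩
  by_cases e : k ≤ j + 5
  · exact O7.le5 h h' h2 e
  obtain ⟨rfl, rfl⟩ | ⟨rfl, rfl⟩ | ⟨rfl, rfl⟩ : (j = 1 ∧ k = 7) ∨ (j = 2 ∧ k = 8) ∨ (j = 1 ∧ k = 8) := by omega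
  · exact O7.c17 h h'
  · exact O7.c28 h h'
  · intro a ha b hb
    obtain ⟨c, rfl⟩ := O7.odd_z h h' rfl ha
    exact O7.z18 h h' c b hb

end CL.FS
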