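/-
S1144, quadrangles: from the raw commutator data `PQ` to the pseudo-quadratic data `TB.QD` (pure algebra).
-/
import Cfsg.Agent.CHEV.TB.QDi

set_option autoImplicit false
set_option linter.unusedSectionVars false

namespace CL.FS

open CL.TB

/-- raw commutator data: `x t * v * (x t)⁻¹ = v * v₂ (sm t v) * y (θ v t)`; `Z` is trivial or the group of central elations -/
structure PQ (K V : Type*) [Field K] [Group V] where
  Z : Subgroup V
  sm : K → V → V
  θ : V → K → K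
  b : V → V → K
  ζ : K → K → V
  w₀ : V
  sm_one : ∀ v, sm 1 v = v
  sm_zero : ∀ v, sm 0 v = 1
  sm_hom : ∀ t v w, sm t (v * w) = sm t v * sm t w
  sm_mul : ∀ t u v, ∃ z ∈ Z, sm (t * u) v = sm t (sm u v) * z
  sm_add : ∀ t u v, sm (t + u) v = sm t v * sm u v * ζ t (θ v u)
  ζ_mem : ∀ t d, ζ t d ∈ Z
  b_Z_left : ∀ z ∈ Z, ∀ w, b z w = 0
  b_Z_right : ∀ z ∈ Z, ∀ w, b w z = 0
  b_mul_left : ∀ u v w, b (u * v) w = b u w + b v w
  b_mul_right : ∀ u v w, b u (v * w) = b u v + b u w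
  θ_mul : ∀ v w t, θ (v * w) t = θ v t + θ w t + b (sm t v) w
  θ_add : ∀ v t u, θ v (t + u) = θ v t + θ v u
  θ_semi : ∀ v t u, θ v 1 * θ v (t * u) = θ v t * θ v u
  θ_eq_zero : ∀ v, θ v 1 = 0 → v = 1
  θ_w₀ : ∀ t, θ w₀ t = t
  tor : ∀ s, s ≠ 0 → ∃ η : K → K, (∀ v t, θ (sm s v) t = η (θ v (s * s * t))) ∧
    (∀ v w, b v (sm s w) = η (b (sm s v) w)) ∧ (Z = ⊥ → ∀ d, η d = d)
  case : Z = ⊥ ∨ (w₀ ∈ Z ∧ ∃ v w, b v w ≠ 0)

namespace PQ

variable {K V : Type*} [Field K] [Group V] (P : PQ K V)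

/-- Dedekind: `linearIndependent_monoidHom`, `linearIndependent_iff` for a sum of four `Finsupp.single`. -/
theorem ded (α β γ δ φ : K →* K) [DecidableEq (K →* K)] (a b c d : K) (h : ∀ t, a * α t + b * β t + c * γ t + d * δ t = 0) :
    (if α = φ then a else 0) + (if β = φ then b else 0) + (if γ = φ then c else 0) + (if δ = φ then d else 0) = 0 := by
  have := linearIndependent_iff.1 (linearIndependent_monoidHom K K)
    (Finsupp.single α a + Finsupp.single β b + Finsupp.single γ c + Finsupp.single δ d) (funext fun t => by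
      simpa [Finsupp.linearCombination_single] using h t)
  simpa [Finsupp.single_apply] using congrArg (· φ) this

theorem θ_one (t : K) : P.θ 1 t = 0 := by
  have := P.θ_mul 1 1 t
  rw [mul_one, P.b_Z_right 1 P.Z.one_mem] at this
  linear_combination -this

/-- `θ_semi`, `θ_add`; for `θ v 1 = 0` one has `v = 1` and `θ 1 t = 0` (`θ_mul`, `b_Z_right`). -/
theorem semi (v : V) : ∃ τ : K →+* K, ∀ t, P.θ v t = P.θ v 1 * τ t := by
  by_cases h : P.θ v 1 = 0
  · refine ⟨RingHom.id K, fun t => ?_⟩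
    rw [h, P.θ_eq_zero v h, P.θ_one, zero_mul]
  · refine ⟨RingHom.mk' ⟨⟨fun t => P.θ v t / P.θ v 1, div_self h⟩, fun t u => ?_⟩ fun t u => ?_, fun t => ?_⟩
    · have := P.θ_semi v t u
      field_simp
      linear_combination this
    · exact (congrArg (· / P.θ v 1) (P.θ_add v t u)).trans (add_div _ _ _)
    · exact (mul_div_cancel₀ _ h).symm

/-- Let `θ v t = N τ t`, `N ≠ 0`, `τ ≠ id`.  Case `w₀ ∈ Z`: `θ (v w₀) t = N τ t + t` contradicts `ded`.  Case `Z = ⊥`:
`θ (sm s v * w₀) t = θ v (s² t) + t + b (sm (s t) v) w₀ = N τ(s) (τ s - 1) τ t + (1 - s) t + θ (v w₀) (s t)`.  With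
`θ (v w₀) = c β`: for `s ≠ 0, 1` `ded` at `id` and `τ` gives `β = τ`, `N (τ s - 1) + c = 0` or `β = id`, `1 - s + c s = 0`;
both determine `s`, but `s` and `s + 1` qualify if `τ s ≠ s`. -/
theorem lin (v : V) (t : K) : P.θ v t = t * P.θ v 1 := by
  classical
  obtain ⟨τ, hτ⟩ := P.semi v
  obtain ⟨β, hβ⟩ := P.semi (v * P.w₀)
  by_contra hne
  have hN : P.θ v 1 ≠ 0 := fun e => hne (by rw [hτ, e, zero_mul, mul_zero])
  have ht : τ t ≠ t := fun e => hne (by rw [hτ, e, mul_comm])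
  have hi : (τ : K →* K) ≠ MonoidHom.id K := fun e => ht (DFunLike.congr_fun e t)
  generalize P.θ v 1 = N at *
  generalize P.θ (v * P.w₀) 1 = c at *
  rcases P.case with hZ | ⟨hw, -⟩
  · have key : ∀ s : K, s ≠ 0 → s ≠ 1 → ((β : K →* K) = MonoidHom.id K ∧ 1 - s + c * s = 0) ∨
        ((β : K →* K) = τ ∧ N * (τ s - 1) + c = 0) := fun s h0 h1 => by
      obtain ⟨η, e1, -, e3⟩ := P.tor s h0
      obtain ⟨γ, hγ⟩ := P.semi (P.sm s v * P.w₀)
      have H := fun φ => ded τ (MonoidHom.id K) β γ φ (N * τ s * (τ s - 1)) (1 - s) (c * β s)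
        (-P.θ (P.sm s v * P.w₀) 1) fun t => by
          obtain ⟨z, hz, e⟩ := P.sm_mul t s v
          rw [hZ, Subgroup.mem_bot] at hz
          have a1 := P.θ_mul (P.sm s v) P.w₀ t
          have a2 := P.θ_mul v P.w₀ (t * s)
          rw [hγ, e1, e3 hZ, hτ, P.θ_w₀] at a1
          rw [hβ, hτ, P.θ_w₀, e, hz, mul_one] at a2
          simp only [map_mul, MonoidHom.coe_coe, MonoidHom.id_apply] at a1 a2 ⊢
          linear_combination a2 - a1
      have hs : τ s ≠ 0 := (map_ne_zero τ).2 h0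
      have hA : N * τ s * (τ s - 1) ≠ 0 :=
        mul_ne_zero (mul_ne_zero hN hs) (sub_ne_zero.2 fun e => h1 (τ.injective (e.trans τ.map_one.symm)))
      have hB : 1 - s ≠ 0 := sub_ne_zero.2 h1.symm
      have H1 := H (MonoidHom.id K)
      have H2 := H τ
      rw [if_neg hi, if_pos rfl] at H1
      rw [if_neg hi.symm, if_pos rfl] at H2
      by_cases g : (γ : K →* K) = τ
      · rw [if_neg (show ¬ (γ : K →* K) = MonoidHom.id K from g ▸ hi)] at H1
        by_cases b : (β : K →* K) = MonoidHom.id K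
        · rw [if_pos b, show β s = s from DFunLike.congr_fun b s] at H1
          exact .inl ⟨b, by linear_combination H1⟩
        · rw [if_neg b] at H1
          exact (hB (by linear_combination H1)).elim
      · rw [if_neg g] at H2
        by_cases b : (β : K →* K) = τ
        · rw [if_pos b, show β s = τ s from DFunLike.congr_fun b s] at H2
          exact .inr ⟨b, mul_left_cancel₀ hs (by linear_combination H2)⟩
        · rw [if_neg b] at H2
          exact (hA (by linear_combination H2)).elim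
    have t0 : t ≠ 0 := fun e => ht (by rw [e, map_zero])
    have t1 : t ≠ 1 := fun e => ht (by rw [e, map_one])
    have t2 : t + 1 ≠ 0 := fun e => ht (by rw [eq_neg_of_add_eq_zero_left e, map_neg, map_one])
    rcases key t t0 t1 with ⟨b, e⟩ | ⟨b, e⟩ <;> rcases key (t + 1) t2 (by simpa using t0) with ⟨b', e'⟩ | ⟨b', e'⟩
    · exact one_ne_zero (α := K) (by linear_combination (t + 1) * e - t * e')
    · exact hi (b'.symm.trans b)
    · exact hi (b.symm.trans b')
    · rw [map_add, map_one] at e'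
      exact hN (by linear_combination e' - e)
  · have H := fun φ => ded τ (MonoidHom.id K) β β φ N 1 (-c) 0 fun t => by
      have a := P.θ_mul v P.w₀ t
      rw [hβ, hτ, P.θ_w₀, P.b_Z_right _ hw] at a
      simp only [MonoidHom.coe_coe, MonoidHom.id_apply]
      linear_combination -a
    have H1 := H (MonoidHom.id K)
    have H2 := H τ
    rw [if_neg hi, if_pos rfl, ite_self] at H1
    rw [if_neg hi.symm, if_pos rfl, ite_self] at H2
    by_cases b : (β : K →* K) = τ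
    · rw [if_neg (b ▸ hi)] at H1
      exact one_ne_zero (α := K) (by linear_combination H1)
    · rw [if_neg b] at H2
      exact hN (by linear_combination H2)

/-- `N v = θ v 1`; `b (sm t v) w = t * b v w` from `θ_mul`, `lin`.  Case `Z = ⊥`: `σ = id`, `c₀ = -1`, `ζ = 1`,
`v * v = sm 2 v`.  Other case: `c₀ = 1`, scale to `b v₁ w₁ = 1`, `σ s = b v₁ (sm s w₁)`; `η (s t) = t σ s`, so
`b v (sm s w) = σ s * b v w`, `N (sm s v) = s σ(s) N v`; `sm_mul` as `N z = 0`; `N_ζ` from `N` of `sm_add` at `w₀`; `N_sub`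
from `sm_add` at `t = u = 1`... (`t = 1`, `u = 1`: `N (sm 2 v)`); polarise: `σ (b v w) = - b w v`, so `σ σ = id`. -/
theorem exists_qd : ∃ D : QD K V, D.sm = P.sm ∧ D.b = P.b ∧ D.ζ = P.ζ ∧ (∀ v t, P.θ v t = t * D.N v) ∧
    ((∀ t d, D.ζ t d = 1) ∨ ∃ v w, D.b v w ≠ 0) := by
  have Nm : ∀ v w, P.θ (v * w) 1 = P.θ v 1 + P.θ w 1 + P.b v w := fun v w => by rw [P.θ_mul, P.sm_one]
  have bl : ∀ t v w, P.b (P.sm t v) w = t * P.b v w := fun t v w => by
    have := P.θ_mul v w t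
    rw [P.lin, P.lin v, P.lin w, Nm] at this
    linear_combination -this
  have sa : ∀ t u v, P.sm (t + u) v = P.sm t v * P.sm u v * P.ζ t (u * P.θ v 1) := fun t u v => by
    rw [P.sm_add, P.lin]
  have nt : ∃ v : V, v ≠ 1 := ⟨P.w₀, fun e => one_ne_zero (α := K) (by rw [← P.θ_w₀ 1, e, P.θ_one])⟩
  have bζ := fun t d w => P.b_Z_left _ (P.ζ_mem t d) w
  have b1 := P.b_Z_right 1 P.Z.one_mem
  rcases P.case with hZ | ⟨hw, v₀, w₁, h₀⟩
  · have ζ1 : ∀ t d, P.ζ t d = 1 := fun t d => Subgroup.mem_bot.1 (hZ ▸ P.ζ_mem t d)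
    have Ns : ∀ t v, P.θ (P.sm t v) 1 = t * t * P.θ v 1 := fun t v => by
      by_cases h : t = 0
      · rw [h, P.sm_zero, P.θ_one, zero_mul, zero_mul]
      · obtain ⟨η, e1, -, e3⟩ := P.tor t h
        rw [e1, e3 hZ, P.lin, mul_one]
    refine ⟨⟨RingHom.id K, -1, P.sm, fun v => P.θ v 1, P.b, P.ζ, fun _ => rfl, by simp, fun t u v => ?_, P.sm_one,
      P.sm_zero, P.sm_hom, sa, Nm, P.b_mul_left, P.b_mul_right, bl, fun t v w => ?_, Ns, fun v => ?_, P.θ_eq_zero, bζ,
      fun t d => ?_, nt⟩, rfl, rfl, rfl, P.lin, .inl ζ1⟩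
    · obtain ⟨z, hz, e⟩ := P.sm_mul t u v
      rw [hZ, Subgroup.mem_bot] at hz
      rw [e, hz, mul_one]
    · by_cases h : t = 0
      · rw [h, P.sm_zero, b1, map_zero, zero_mul]
      · obtain ⟨η, -, e2, e3⟩ := P.tor t h
        rw [e2, e3 hZ, bl, RingHom.id_apply]
    · have := Ns (1 + 1) v
      rw [sa, ζ1, mul_one, P.sm_one, Nm] at this
      rw [RingHom.id_apply]
      linear_combination -this
    · simp [ζ1, P.θ_one]
  · obtain ⟨v₁, h₁⟩ : ∃ v₁, P.b v₁ w₁ = 1 := ⟨P.sm (P.b v₀ w₁)⁻¹ v₀, by rw [bl, inv_mul_cancel₀ h₀]⟩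
    have key : ∀ s, (∀ v w, P.b v (P.sm s w) = P.b v₁ (P.sm s w₁) * P.b v w) ∧
        ∀ v, P.θ (P.sm s v) 1 = s * P.b v₁ (P.sm s w₁) * P.θ v 1 := fun s => by
      by_cases h : s = 0
      · simp [h, P.sm_zero, b1, P.θ_one]
      obtain ⟨η, e1, e2, -⟩ := P.tor s h
      have e : ∀ t, η (s * t) = t * P.b v₁ (P.sm s w₁) := fun t => by
        rw [← bl, e2, bl, bl, h₁, mul_one]
      exact ⟨fun v w => by rw [e2 v, bl, e, mul_comm], fun v => by
        rw [e1, P.lin, mul_one, mul_assoc, e]; ring⟩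
    let σ : K →+* K := RingHom.mk' ⟨⟨fun s => P.b v₁ (P.sm s w₁), by rw [P.sm_one, h₁]⟩, fun t u => by
      obtain ⟨z, hz, e⟩ := P.sm_mul t u w₁
      show P.b v₁ (P.sm (t * u) w₁) = P.b v₁ (P.sm t w₁) * P.b v₁ (P.sm u w₁)
      rw [e, P.b_mul_right, P.b_Z_right z hz, add_zero, (key t).1]⟩ fun t u => by
      show P.b v₁ (P.sm (t + u) w₁) = P.b v₁ (P.sm t w₁) + P.b v₁ (P.sm u w₁)
      rw [sa, P.b_mul_right, P.b_mul_right, P.b_Z_right _ (P.ζ_mem _ _), add_zero]
    have br : ∀ t v w, P.b v (P.sm t w) = σ t * P.b v w := fun t => (key t).1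
    have Ns : ∀ t v, P.θ (P.sm t v) 1 = t * σ t * P.θ v 1 := fun t => (key t).2
    clear_value σ
    have Nζ : ∀ t u, P.θ (P.ζ t u) 1 = t * σ u + u * σ t := fun t u => by
      have := Ns (t + u) P.w₀
      rw [sa, Nm, Nm, Ns, Ns, bl, P.b_Z_left _ hw, P.b_Z_right _ (P.ζ_mem _ _), P.θ_w₀, map_add, mul_one u] at this
      linear_combination this
    have Nb : ∀ v, P.θ v 1 - 1 * σ (P.θ v 1) = P.b v v := fun v => by
      have := Ns (1 + 1) v
      rw [sa, P.sm_one, Nm, Nm, Nζ, P.b_Z_right _ (P.ζ_mem _ _), map_add, map_one, one_mul (P.θ v 1)] at this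
      linear_combination -this
    have σb : ∀ v w, σ (P.b v w) = -P.b w v := fun v w => by
      have := Nb (v * w)
      rw [Nm, map_add, map_add, P.b_mul_left, P.b_mul_right, P.b_mul_right, ← Nb v, ← Nb w] at this
      linear_combination -this
    have σσ : ∀ t, σ (σ t) = t := fun t => by
      have := bl t v₁ w₁
      rw [h₁, mul_one] at this
      rw [← this, σb, map_neg, σb, neg_neg]
    refine ⟨⟨σ, 1, P.sm, fun v => P.θ v 1, P.b, P.ζ, σσ, by simp, fun t u v => ?_, P.sm_one,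
      P.sm_zero, P.sm_hom, sa, Nm, P.b_mul_left, P.b_mul_right, bl, br, Ns, Nb, P.θ_eq_zero, bζ,
      fun t d => ?_, nt⟩, rfl, rfl, rfl, P.lin, .inr ⟨v₀, w₁, h₀⟩⟩
    · obtain ⟨z, hz, e⟩ := P.sm_mul t u v
      have := Ns (t * u) v
      rw [e, Nm, Ns, Ns, P.b_Z_right z hz, map_mul] at this
      rw [e, P.θ_eq_zero z (by linear_combination this), mul_one]
    · rw [Nζ, map_mul, σσ]
      ring

end PQ

end CL.FS
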