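/-
S1144, quadrangles: the commutator components of `[U 1, U 4]`.
-/
import Cfsg.Agent.CHEV.FS.Bru

set_option autoImplicit false
set_option linter.unusedSectionVars false

namespace CL.FS

variable {G : Type*} [Group G] {p : ℕ} {U Z : ℤ → Subgroup G}

/-- `a v a⁻¹ = v c d` -/
structure C14 (U : ℤ → Subgroup G) (a v c d : G) : Prop where
  a_mem : a ∈ U 1
  v_mem : v ∈ U 4
  c_mem : c ∈ U 2
  d_mem : d ∈ U 3
  eq : a * v * a⁻¹ = v * c * d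

/-- the `U 2`-component -/
noncomputable def s2 (U : ℤ → Subgroup G) (a v : G) : G := Classical.epsilon fun c => ∃ d, C14 U a v c d

/-- the `U 3`-component -/
noncomputable def s3 (U : ℤ → Subgroup G) (a v : G) : G := Classical.epsilon fun d => C14 U a v (s2 U a v) d

/-- the standing hypotheses: `Z` is trivial or the family of central elations -/
structure QH (U Z : ℤ → Subgroup G) : Prop where
  le : ∀ i, Z i ≤ V U 2 i
  rf : ∀ {c i : ℤ} {g x : G}, Rf U c g → x ∈ Z i → cj x g ∈ Z (c - i)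
  tr : ∀ {d i : ℤ} {g x : G}, Tr U d g → x ∈ Z i → cj x g ∈ Z (i + d)
  ab3 : ∀ a ∈ U 3, ∀ b ∈ U 3, Commute a b
  c13 : ∀ a ∈ U 1, ∀ b ∈ U 3, cm b a⁻¹ ∈ Z 2
  ne : ∃ v ∈ U 4, v ∉ Z 4
  case : (Z 4 = ⊥ ∧ U 3 ≤ V U 2 3) ∨ (∃ w ∈ Z 4, w ≠ 1) ∧ ∃ a ∈ U 2, ∃ v ∈ U 4, cm a v ≠ 1

/-- `ν = μ(a)` for some `a ∈ U 1` -/
def IsMu (U : ℤ → Subgroup G) (ν : G) : Prop := ∃ a κ l, Mu 4 U 1 a κ l ∧ ν = κ * a * l

/-- congruence -/
def Cg (Z : Subgroup G) (v w : G) : Prop := ∃ z ∈ Z, v = w * z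

namespace Cg

variable {A B : Subgroup G} {u v w : G}

theorem rfl : Cg A v v := ⟨1, one_mem _, (mul_one v).symm⟩
theorem symm (h : Cg A v w) : Cg A w v := let ⟨z, hz, e⟩ := h; ⟨z⁻¹, inv_mem hz, by rw [e]; group⟩
theorem trans (h : Cg A u v) (k : Cg A v w) : Cg A u w :=
  let ⟨z, hz, e⟩ := h; let ⟨y, hy, f⟩ := k; ⟨y * z, mul_mem hy hz, by rw [e, f, mul_assoc]⟩
theorem cj (h : Cg A v w) {g : G} (hg : ∀ z ∈ A, cj z g ∈ B) : Cg B (cj v g) (cj w g) :=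
  let ⟨z, hz, e⟩ := h; ⟨_, hg z hz, by rw [e, cj_mul]⟩
theorem inv (h : Cg A v w) (hc : ∀ z ∈ A, Commute z w) : Cg A v⁻¹ w⁻¹ :=
  let ⟨z, hz, e⟩ := h; ⟨z⁻¹, inv_mem hz, by rw [e, mul_inv_rev, (hc z hz).inv_inv.eq]⟩

end Cg

theorem IsMu.inv {ν : G} (k : IsMu U ν) : IsMu U ν⁻¹ :=
  let ⟨_, _, _, m, e⟩ := k; ⟨_, _, _, m.inv, by rw [e]; group⟩

theorem IsMu.rf {ν : G} (k : IsMu U ν) : Rf U 6 ν := let ⟨_, _, _, m, e⟩ := k; e ▸ m.rf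

namespace MP

variable (h : MP p 4 U)
include h

theorem q12 {a b : G} (ha : a ∈ U 1) (hb : b ∈ U 2) : Commute a b := h.comm_succ ha hb
theorem q23 {a b : G} (ha : a ∈ U 2) (hb : b ∈ U 3) : Commute a b := h.comm_succ ha hb
theorem q34 {a b : G} (ha : a ∈ U 3) (hb : b ∈ U 4) : Commute a b := h.comm_succ ha hb
theorem q24 {a b : G} (ha : a ∈ U 2) (hb : b ∈ U 4) : cm a b ∈ U 3 := (W_self 3).le (Wle (h.commZ ha hb))
theorem q31 {a b : G} (ha : a ∈ U 1) (hb : b ∈ U 3) : cm b a ∈ U 2 :=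
  cm_inv a b ▸ inv_mem ((W_self 2).le (Wle (h.commZ ha hb)))

theorem u23 {c d c' d' : G} (hc : c ∈ U 2) (hd : d ∈ U 3) (hc' : c' ∈ U 2) (hd' : d' ∈ U 3) (e : c * d = c' * d') :
    c = c' ∧ d = d' := h.uniq (i := 2) (j := 3) (k := 2) (by omega) (UW hc) (UW hd) (UW hc') (UW hd') e

theorem c14 {a v : G} (ha : a ∈ U 1) (hv : v ∈ U 4) : C14 U a v (s2 U a v) (s3 U a v) := by
  obtain ⟨c, hc, d, hd, e⟩ := h.dec_bot (i := 2) (j := 3) (by omega) (inv_mem (Wle (h.commZ (inv_mem ha) hv)))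
  have k : C14 U a v c d := ⟨ha, hv, hc, (W_self 3).le hd, by rw [mul_assoc v, ← e, cm]; group⟩
  exact Classical.epsilon_spec (p := fun d => C14 U a v (s2 U a v) d)
    (Classical.epsilon_spec (p := fun c => ∃ d, C14 U a v c d) ⟨c, d, k⟩)

theorem s_eq {a v c d : G} (k : C14 U a v c d) : s2 U a v = c ∧ s3 U a v = d :=
  let k' := h.c14 k.a_mem k.v_mem
  h.u23 k'.c_mem k'.d_mem k.c_mem k.d_mem (mul_left_cancel (a := v) (by rw [← mul_assoc, ← mul_assoc, ← k.eq, k'.eq]))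

theorem s2_mem {a v : G} (ha : a ∈ U 1) (hv : v ∈ U 4) : s2 U a v ∈ U 2 := (h.c14 ha hv).c_mem
theorem s3_mem {a v : G} (ha : a ∈ U 1) (hv : v ∈ U 4) : s3 U a v ∈ U 3 := (h.c14 ha hv).d_mem

theorem s_one_left {v : G} (hv : v ∈ U 4) : s2 U 1 v = 1 ∧ s3 U 1 v = 1 :=
  h.s_eq ⟨one_mem _, hv, one_mem _, one_mem _, by group⟩

theorem s_one_right {a : G} (ha : a ∈ U 1) : s2 U a 1 = 1 ∧ s3 U a 1 = 1 :=
  h.s_eq ⟨ha, one_mem _, one_mem _, one_mem _, by group⟩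

theorem s_mul_right {a v w : G} (ha : a ∈ U 1) (hv : v ∈ U 4) (hw : w ∈ U 4) :
    s2 U a (v * w) = s2 U a v * s2 U a w ∧ s3 U a (v * w) = cm (s2 U a v) w * s3 U a v * s3 U a w := by
  obtain ⟨-, -, hc, hd, e⟩ := h.c14 ha hv
  obtain ⟨-, -, hc', hd', e'⟩ := h.c14 ha hw
  have hy := h.q24 hc hw
  generalize s2 U a v = c, s3 U a v = d, s2 U a w = c', s3 U a w = d' at *
  refine h.s_eq ⟨ha, mul_mem hv hw, mul_mem hc hc', mul_mem (mul_mem hy hd) hd', ?_⟩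
  calc a * (v * w) * a⁻¹ = (a * v * a⁻¹) * (a * w * a⁻¹) := by group
    _ = v * c * (d * w) * c' * d' := by rw [e, e']; group
    _ = v * w * c * (cm c w * d * c') * d' := by rw [(h.q34 hd hw).eq, cm]; group
    _ = _ := by rw [← (h.q23 hc' (mul_mem hy hd)).eq]; group

theorem s_mul_left {a a' v : G} (ha : a ∈ U 1) (ha' : a' ∈ U 1) (hv : v ∈ U 4) :
    s2 U (a * a') v = s2 U a v * s2 U a' v * cm (s3 U a' v) a⁻¹ ∧ s3 U (a * a') v = s3 U a v * s3 U a' v := by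
  obtain ⟨-, -, hc, hd, e⟩ := h.c14 ha hv
  obtain ⟨-, -, hc', hd', e'⟩ := h.c14 ha' hv
  have hy := h.q31 (inv_mem ha) hd'
  generalize s2 U a v = c, s3 U a v = d, s2 U a' v = c', s3 U a' v = d' at *
  refine h.s_eq ⟨mul_mem ha ha', hv, mul_mem (mul_mem hc hc') hy, mul_mem hd hd', ?_⟩
  calc a * a' * v * (a * a')⁻¹ = a * (a' * v * a'⁻¹) * a⁻¹ := by group
    _ = (a * v * a⁻¹) * (a * c') * a⁻¹ * (d' * cm d' a⁻¹) := by rw [e', cm]; group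
    _ = v * c * (d * (c' * cm d' a⁻¹)) * d' := by rw [e, (h.q12 ha hc').eq, ← (h.q23 hy hd').eq]; group
    _ = _ := by rw [← (h.q23 (mul_mem hc' hy) hd).eq]; group

theorem s_tr {a v g : G} (ha : a ∈ U 1) (hv : v ∈ U 4) (t : Tr U 0 g) :
    s2 U (cj a g) (cj v g) = cj (s2 U a v) g ∧ s3 U (cj a g) (cj v g) = cj (s3 U a v) g := by
  obtain ⟨-, -, hc, hd, e⟩ := h.c14 ha hv
  exact h.s_eq ⟨t.cj ha, t.cj hv, t.cj hc, t.cj hd, by rw [← cj_inv, ← cj_mul, ← cj_mul, e, cj_mul, cj_mul]⟩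

theorem cm_s {a v : G} (ha : a ∈ U 1) (hv : v ∈ U 4) : cm a⁻¹ v⁻¹⁻¹ = (s2 U a v)⁻¹ * (s3 U a v)⁻¹ := by
  obtain ⟨-, -, hc, hd, e⟩ := h.c14 ha hv
  rw [(h.q23 hc hd).inv_inv.eq]
  calc cm a⁻¹ v⁻¹⁻¹ = (a * v * a⁻¹)⁻¹ * v := by rw [cm]; group
    _ = _ := by rw [e]; group

theorem s2_mu {a κ l v : G} (m : Mu 4 U 1 a κ l) (hv : v ∈ U 4) : s2 U a v = cj v (κ * a * l)⁻¹ := by
  have := (m.inv.shift_bot h (inv_mem hv) (inv_mem (h.s2_mem m.a_mem hv)) (UW (inv_mem (h.s3_mem m.a_mem hv)))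
    (h.cm_s m.a_mem hv)).1
  rw [cj_inv, inv_inj] at this
  rw [this]; congr 1; group

theorem s3_mu {a κ l v : G} (m : Mu 4 U 4 v κ l) (ha : a ∈ U 1) : s3 U a v = cj a (κ * v * l) := by
  have := (m.inv.shift_top h (inv_mem ha) (inv_mem (h.s3_mem ha m.a_mem)) (UW (inv_mem (h.s2_mem ha m.a_mem)))
    (h.cm_s ha m.a_mem)).1
  rw [cj_inv, inv_inj] at this
  rw [this, cj_cj, ← this]
  conv_lhs => rw [← cj_one (s3 U a v)]
  congr 1; group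

end MP

namespace QH

variable (h : MP p 4 U) (q : QH U Z)
include h q

theorem z_comm {i j : ℤ} {z b : G} (hz : z ∈ Z i) (hb : b ∈ U j) (h1 : i - 2 ≤ j := by omega) (h2 : j ≤ i + 2 := by omega) :
    Commute z b := (h.mem_V.1 (q.le i hz)).2 j h1 h2 b hb

theorem z_mem {i : ℤ} {z : G} (hz : z ∈ Z i) : z ∈ U i := (q.le i hz).1

theorem s2_add {a a' v : G} (ha : a ∈ U 1) (ha' : a' ∈ U 1) (hv : v ∈ U 4) :
    Cg (Z 2) (s2 U (a * a') v) (s2 U a v * s2 U a' v) := ⟨_, q.c13 a ha _ (h.s3_mem ha' hv), (h.s_mul_left ha ha' hv).1⟩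

/-- `U 2 / Z 2` is abelian -/
theorem ab2 {u c : G} (hu : u ∈ U 2) (hc : c ∈ U 2) : Cg (Z 2) (u * c) (c * u) := by
  obtain ⟨a, ha, a1⟩ := h.ne 1
  obtain ⟨κ, l, m⟩ := h.exists_mu ha a1
  have hv : cj c (κ * a * l) ∈ U 4 := m.rf.cj hc
  obtain ⟨-, -, -, hd, e⟩ := h.c14 ha hv
  rw [h.s2_mu m hv, cj_cj_inv] at e
  have hy := h.q24 hu hv
  have hz := q.c13 a ha _ hy
  generalize cj c (κ * a * l) = v at *
  generalize s3 U a v = d at *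
  refine ⟨_, hz, mul_left_cancel (a := v) (mul_right_cancel (b := cm u v * d) ?_)⟩
  calc v * (u * c) * (cm u v * d) = v * u * (c * cm u v) * d := by group
    _ = u * (v * c * d) := by rw [(h.q23 hc hy).eq, cm]; group
    _ = (u * a) * v * a⁻¹ := by rw [← e]; group
    _ = (a * v * a⁻¹) * (a * u) * a⁻¹ * (cm u v * cm (cm u v) a⁻¹) := by rw [← (h.q12 ha hu).eq]; simp only [cm]; group
    _ = v * c * (d * (u * cm (cm u v) a⁻¹)) * cm u v := by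
      rw [e, (h.q12 ha hu).eq, ← (h.q23 (q.z_mem h hz) hy).eq]; group
    _ = _ := by rw [← (h.q23 (mul_mem hu (q.z_mem h hz)) hd).eq, (q.ab3 _ hy _ hd).eq]; group

theorem sq4 {ν v : G} (k : IsMu U ν) (hv : v ∈ U 4) : Cg (Z 4) (cj v (ν * ν)) v⁻¹ := by
  obtain ⟨a, κ, l, m, rfl⟩ := k
  obtain ⟨z, hz, e⟩ := q.s2_add h m.a_mem (inv_mem m.a_mem) hv
  rw [mul_inv_cancel, (h.s_one_left hv).1, h.s2_mu m hv, h.s2_mu m.inv hv] at e
  refine ⟨_, inv_mem (q.rf m.rf hz), ?_⟩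
  rw [← inv_mul_eq_iff_eq_mul, inv_inv, ← mul_eq_one_iff_eq_inv, ← one_cj (κ * a * l), e]
  simp only [cj]; group

theorem sq2 {ν u : G} (k : IsMu U ν) (hu : u ∈ U 2) : Cg (Z 2) (cj u (ν * ν)) u⁻¹ := by
  have := (q.sq4 h k (k.rf.cj hu)).cj (g := ν⁻¹) (B := Z 2) fun z hz => q.rf k.inv.rf hz
  rw [← cj_inv, cj_cj_inv] at this
  convert this using 1
  simp only [cj]; group

theorem sand {ν ν' v : G} (k : IsMu U ν) (k' : IsMu U ν') (hv : v ∈ U 4) : Cg (Z 4) (cj v (ν * (ν' * ν') * ν)) v := by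
  have h1 := (q.sq2 h k' (k.rf.cj hv)).cj (g := ν) (B := Z 4) fun z hz => q.rf k.rf hz
  rw [← cj_inv, cj_cj, cj_cj, cj_cj, ← mul_assoc] at h1
  simpa using h1.trans (q.sq4 h k (inv_mem hv))

/-- the action of `ν⁻¹ n` on `U 2` is inverse to the action on `U 4` -/
theorem tor2 {ν n v : G} (k : IsMu U ν) (k' : IsMu U n) (hv : v ∈ U 4) :
    Cg (Z 2) (cj (cj (cj v (ν⁻¹ * n)) n⁻¹) (ν⁻¹ * n)) (cj v n⁻¹) := by
  have h1 := (q.sq4 h k.inv hv).cj (g := n) (B := Z 2) fun z hz => q.rf k'.rf hz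
  have h2 := (q.sq4 h k' (inv_mem hv)).cj (g := n⁻¹) (B := Z 2) fun z hz => q.rf k'.inv.rf hz
  rw [inv_inv, cj_cj, mul_inv_cancel_right] at h2
  convert h1.trans h2 using 1
  simp only [cj_cj, mul_assoc, mul_inv_cancel_left]

end QH

end CL.FS
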