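/-
S1144, quadrangles: the pseudo-quadratic data of a finite Moufang quadrangle.
-/
import Cfsg.Agent.CHEV.FS.QB
import Cfsg.Agent.CHEV.FS.QA
import Cfsg.Agent.CHEV.FS.QJ

set_option autoImplicit false
set_option linter.unusedSectionVars false

namespace CL.FS

open CL.TB

universe u

variable {G : Type u} [Group G] [Finite G] {p : ℕ} {U Z : ℤ → Subgroup G}

/-- the action of `U 1` on `U 4` -/
noncomputable def Sm (h : MP p 4 U) {n : G} (k : IsMu U n) (a : U 1) : U 4 →* U 4 :=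
  MonoidHom.mk' (fun v => ⟨cj (s2 U a v) n, k.rf.cj (h.s2_mem a.2 v.2)⟩) fun v w => Subtype.ext (by
    change cj (s2 U a (v * w)) n = cj _ n * cj _ n
    rw [(h.s_mul_right a.2 v.2 w.2).1, cj_mul])

theorem Sm_coe (h : MP p 4 U) {n : G} (k : IsMu U n) (a : U 1) (v : U 4) : (Sm h k a v : G) = cj (s2 U a v) n := rfl

theorem Sm_mu (h : MP p 4 U) {n : G} (k : IsMu U n) {a : U 1} {κ l : G} (m : Mu 4 U 1 a κ l) (v : U 4) :
    (Sm h k a v : G) = cj (v : G) ((κ * a * l)⁻¹ * n) := by rw [Sm_coe, h.s2_mu m v.2, cj_cj]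

theorem Cg.sub {A B : Subgroup G} {v w : A} (e : Cg B v w) : ∃ z ∈ B.subgroupOf A, v = w * z := by
  obtain ⟨z, hz, e⟩ := e
  refine ⟨w⁻¹ * v, ?_, by group⟩
  rw [Subgroup.mem_subgroupOf, Subgroup.coe_mul, Subgroup.coe_inv, e, inv_mul_cancel_left]
  exact hz

namespace QH

variable (h : MP p 4 U) (q : QH U Z)
include h q

theorem exists_mod {e κ l : G} (m : Mu 4 U 1 e κ l) (k : IsMu U (κ * e * l)) :
    ∃ (K : Type u) (_ : Field K) (x : K ≃ U 1) (M : Type u) (_ : AddCommGroup M) (_ : Module K M) (π : U 4 → M),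
      x 1 = ⟨e, m.a_mem⟩ ∧ (∀ t u, x (t + u) = x t * x u) ∧ (∀ v w, π (v * w) = π v + π w) ∧
      (∀ v, π v = 0 ↔ v ∈ (Z 4).subgroupOf (U 4)) ∧ ∀ t v, π (Sm h k (x t) v) = t • π v := by
  have : ((Z 4).subgroupOf (U 4)).Normal := ⟨fun z hz g => by
    rw [Subgroup.mem_subgroupOf, Subgroup.coe_mul, Subgroup.coe_mul, ← (q.z_comm h (z := z) hz g.2).eq, Subgroup.coe_inv,
      mul_inv_cancel_right]
    exact hz⟩
  have r : ∀ z ∈ Z 2, cj z (κ * e * l) ∈ Z 4 := fun z hz => q.rf k.rf hz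
  refine exists_module _ (fun v w => Cg.sub ?_) (let ⟨v, hv, e⟩ := q.ne; ⟨⟨v, hv⟩, e⟩) _ (fun a z hz => ?_)
    (fun a b v => Cg.sub ?_) _ (fun v => Subtype.ext ?_) fun a a1 => ?_
  · simpa only [cj_mul, cj_inv_cj, Subgroup.coe_mul] using (q.ab2 h (k.inv.rf.cj v.2) (k.inv.rf.cj w.2)).cj r
  · rw [Subgroup.mem_subgroupOf, Sm_coe]
    by_cases a1 : (a : G) = 1
    · rw [a1, (h.s_one_left z.2).1, one_cj]; exact one_mem _
    · obtain ⟨κ', l', m'⟩ := h.exists_mu a.2 a1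
      rw [h.s2_mu m' z.2]
      exact r _ (q.rf m'.rf.inv hz)
  · simpa only [cj_mul, Subgroup.coe_mul, Sm_coe] using (q.s2_add h a.2 b.2 v.2).cj r
  · rw [Sm_mu h k m, inv_mul_cancel, cj_one]
  · obtain ⟨κ', l', m'⟩ := h.exists_mu a.2 (fun e => a1 (Subtype.ext e))
    have k' : IsMu U (κ' * a * l') := ⟨_, _, _, m', rfl⟩
    have mb : Mu 4 U 1 _ _ _ := (m'.la h).rf' h k.inv.rf
    refine ⟨⟨_, mb.a_mem⟩, fun v => ⟨Cg.sub ?_, Cg.sub ?_⟩⟩
    · convert q.sand h k k'.inv v.2 using 1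
      rw [Sm_mu h k m', Sm_mu h k (a := ⟨_, mb.a_mem⟩) mb, cj_cj]
      congr 1; simp only [cj]; group
    · convert q.sand h k'.inv k v.2 using 1
      rw [Sm_mu h k (a := ⟨_, mb.a_mem⟩) mb, Sm_mu h k m', cj_cj]
      congr 1; simp only [cj]; group

theorem exists_real : ∃ (K : Type u) (_ : Field K) (_ : Finite K) (D : QD K (U 4)) (x : K → G) (v₂ : U 4 →* G) (y : K → G),
    D.Real x v₂ y (U 4).subtype ∧ Pm (U 1) x ∧ Pm (U 2) v₂ ∧ Pm (U 3) y ∧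
      ((∀ t d, D.ζ t d = 1) ∨ ∃ v w, D.b v w ≠ 0) := by
  obtain ⟨e, he, e1⟩ := h.ne 1
  obtain ⟨κ, l, m⟩ := h.exists_mu he e1
  have k : IsMu U (κ * e * l) := ⟨_, _, _, m, rfl⟩
  obtain ⟨K, _, x, M, _, _, π, x1, xa, πm, π0, πs⟩ := q.exists_mod h m k
  have S1 : ∀ v, Sm h k (x 1) v = v := fun v => Subtype.ext (by rw [x1, Sm_mu h k (a := ⟨e, _⟩) m, inv_mul_cancel, cj_one])
  have cn : ∀ b ∈ V U 2 3, ∀ ν, IsMu U ν → Commute b ν := by
    rintro b hb _ ⟨a, κ, l, m, rfl⟩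
    have := (h.mem_V.1 hb).2
    exact ((this 5 (by omega) (by omega) κ m.κ_mem).mul_right (this 1 (by omega) (by omega) a m.a_mem)).mul_right
      (this 5 (by omega) (by omega) l m.l_mem)
  generalize κ * e * l = n at k πs S1
  obtain ⟨w₀, hw, w1, hc⟩ : ∃ w₀ ∈ U 4, w₀ ≠ 1 ∧ ((Z 4 = ⊥ ∧ U 3 ≤ V U 2 3) ∨
      w₀ ∈ Z 4 ∧ ∃ a ∈ U 2, ∃ v ∈ U 4, cm a v ≠ 1) := by
    rcases q.case with c | ⟨⟨w, hw, w1⟩, c⟩
    · obtain ⟨w, hw, w1⟩ := h.ne 4
      exact ⟨w, hw, w1, .inl c⟩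
    · exact ⟨w, q.z_mem h hw, w1, .inr ⟨hw, c⟩⟩
  obtain ⟨κ₀, l₀, m₀⟩ := h.exists_mu hw w1
  have r₀ : Rf U 4 (κ₀ * w₀ * l₀) := m₀.rf_sub h
  have x0 : x 0 = 1 := by simpa using xa 0 0
  let y : K → G := fun d => cj (x d : G) (κ₀ * w₀ * l₀)
  have ym : ∀ d, y d ∈ U 3 := fun d => r₀.cj (x d).2
  have ya : ∀ d d', y (d + d') = y d * y d' := fun d d' => by simp only [y, xa, Subgroup.coe_mul, cj_mul]
  have yi : Function.Injective y := fun d d' e => x.injective (Subtype.ext (cj_inj.1 e))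
  have y0 : y 0 = 1 := by simp only [y, x0, OneMemClass.coe_one, one_cj]
  have ys : ∀ g ∈ U 3, ∃ d, y d = g := fun g hg =>
    ⟨x.symm ⟨_, r₀.inv.cj hg⟩, by simp only [y, Equiv.apply_symm_apply, cj_inv_cj]⟩
  have yv : ∀ g ∈ U 3, y (Function.invFun y g) = g := fun g hg => Function.invFun_eq (ys g hg)
  have m2 : ∀ v : U 4, cj (v : G) n⁻¹ ∈ U 2 := fun v => k.inv.rf.cj v.2
  let θ : U 4 → K → K := fun v t => Function.invFun y (s3 U (x t) v)
  let b : U 4 → U 4 → K := fun v w => Function.invFun y (cm (cj (v : G) n⁻¹) w)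
  have hθ : ∀ v t, y (θ v t) = s3 U (x t) v := fun v t => yv _ (h.s3_mem (x t).2 v.2)
  have hb : ∀ v w, y (b v w) = cm (cj (v : G) n⁻¹) w := fun v w => yv _ (h.q24 (m2 v) w.2)
  have hs : ∀ t v, cj (Sm h k (x t) v : G) n⁻¹ = s2 U (x t) v := fun t v => by rw [Sm_coe, cj_cj_inv]
  have hπ : ∀ {v w}, π v = π w ↔ Cg (Z 4) v w := fun {v w} => by
    rw [← mul_inv_cancel_left w v, πm, add_eq_left, π0, Subgroup.mem_subgroupOf]
    exact ⟨fun e => ⟨_, e, rfl⟩, fun ⟨z, hz, e⟩ => by rwa [mul_left_cancel e]⟩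
  have t2 : ∀ {g}, Tr U 0 g → Tr U 0 (n⁻¹ * g * n) := fun t => (k.inv.rf.mul_tr t).mul k.rf
  have πt : ∀ {g} (t : Tr U 0 g) {v w : U 4}, π v = π w → π ⟨_, t.cj v.2⟩ = π ⟨_, t.cj w.2⟩ := fun t v w e =>
    hπ.2 ((hπ.1 e).cj fun z hz => q.tr t hz)
  have key : ∀ {g} (t : Tr U 0 g) {a a' : K}, (x a' : G) = cj (x a : G) g → ∀ v : U 4,
      a' • π ⟨_, t.cj v.2⟩ = π ⟨_, (t2 t).cj (Sm h k (x a) v).2⟩ := fun t a a' e v => by
    rw [← πs]
    congr 1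
    refine Subtype.ext ?_
    simp only [Sm_coe, e, (h.s_tr (x a).2 v.2 t).1, cj_cj, mul_assoc, mul_inv_cancel_left]
  have πu : ∀ t u v, π (Sm h k (x (t * u)) v) = π (Sm h k (x t) (Sm h k (x u) v)) := fun t u v => by
    simp only [πs, mul_smul]
  obtain ⟨v₁, hv₁, v₁Z⟩ := q.ne
  let P : PQ K (U 4) :=
    { Z := (Z 4).subgroupOf (U 4)
      sm := fun t v => Sm h k (x t) v
      θ := θ
      b := b
      ζ := fun t d => ⟨cj (cm (y d) (x t : G)⁻¹) n, k.rf.cj (h.q31 (inv_mem (x t).2) (ym d))⟩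
      w₀ := ⟨w₀, hw⟩
      sm_one := S1
      sm_zero := fun v => Subtype.ext (by rw [Sm_coe, x0, OneMemClass.coe_one, (h.s_one_left v.2).1, one_cj]; rfl)
      sm_hom := fun t v w => map_mul _ v w
      sm_mul := fun t u v => Cg.sub (hπ.1 (πu t u v))
      sm_add := fun t u v => Subtype.ext (by
        simp only [Subgroup.coe_mul, Sm_coe, xa, (h.s_mul_left (x t).2 (x u).2 v.2).1, cj_mul, hθ])
      ζ_mem := fun t d => q.rf k.rf (q.c13 _ (x t).2 _ (ym d))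
      b_Z_left := fun z hz w => yi (by rw [hb, y0, cm_eq_one]; exact q.z_comm h (i := 2) (q.rf k.inv.rf hz) w.2)
      b_Z_right := fun z hz w => yi (by rw [hb, y0, cm_eq_one]; exact (q.z_comm h (i := 4) hz (m2 w)).symm)
      b_mul_left := fun u v w => yi (by
        rw [ya, hb, hb, hb, Subgroup.coe_mul, cj_mul, cm_mul_left, cj_eq_self.2 (h.q23 (m2 v) (h.q24 (m2 u) w.2)).symm])
      b_mul_right := fun u v w => yi (by
        rw [add_comm, ya, hb, hb, hb, Subgroup.coe_mul, cm_mul_right, cj_eq_self.2 (h.q34 (h.q24 (m2 u) v.2) w.2)])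
      θ_mul := fun v w t => yi (by
        rw [add_comm, ya, ya, hθ, hθ, hθ, hb, hs, Subgroup.coe_mul, (h.s_mul_right (x t).2 v.2 w.2).2, mul_assoc])
      θ_add := fun v t u => yi (by rw [ya, hθ, hθ, hθ, xa, Subgroup.coe_mul, (h.s_mul_left (x t).2 (x u).2 v.2).2])
      θ_semi := fun v t u => by
        by_cases v1 : (v : G) = 1
        · have : ∀ t, θ v t = 0 := fun t => yi (by rw [hθ, v1, (h.s_one_right (x t).2).2, y0])
          simp only [this]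
        obtain ⟨κ', l', m'⟩ := h.exists_mu v.2 v1
        have tr : Tr U 0 (κ' * v * l' * (κ₀ * w₀ * l₀)⁻¹) := (m'.rf_sub h).mul r₀.inv
        have e : ∀ t, (x (θ v t) : G) = cj (x t : G) (κ' * v * l' * (κ₀ * w₀ * l₀)⁻¹) := fun t => by
          rw [← cj_cj, ← h.s3_mu m' (x t).2, ← hθ, cj_cj_inv]
        refine smul_left_injective K (m := π ⟨_, tr.cj hv₁⟩) (fun e0 => v₁Z ?_) ?_
        · exact cj_cj_inv v₁ _ ▸ q.tr tr.inv (Subgroup.mem_subgroupOf.1 ((π0 _).1 e0))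
        · beta_reduce
          rw [mul_smul, mul_smul, key tr (e _) ⟨v₁, hv₁⟩, key tr (e u) ⟨v₁, hv₁⟩, πt (t2 tr) (πu t u _), ← key tr (e t),
            smul_comm, key tr (e 1), πt (t2 tr) (congrArg π (S1 _))]
      θ_eq_zero := fun v e0 => by_contra fun v1 => by
        obtain ⟨κ', l', m'⟩ := h.exists_mu v.2 fun e => v1 (Subtype.ext e)
        have := hθ v 1
        rw [e0, y0, h.s3_mu m' (x 1).2, x1, eq_comm, cj_eq_one] at this
        exact e1 this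
      θ_w₀ := fun t => yi (by rw [hθ, h.s3_mu m₀ (x t).2])
      tor := fun s s0 => by
        obtain ⟨κ', l', m'⟩ := h.exists_mu (x s).2 fun e => s0 (x.injective ((Subtype.ext e).trans x0.symm))
        have k' : IsMu U (κ' * x s * l') := ⟨_, _, _, m', rfl⟩
        have sg := Sm_mu h k m'
        generalize κ' * x s * l' = ν at k' sg
        have tr : Tr U 0 (ν⁻¹ * n) := k'.inv.rf.mul k.rf
        have hη : ∀ d, y (Function.invFun y (cj (y d) (ν⁻¹ * n))) = cj (y d) (ν⁻¹ * n) := fun d => yv _ (tr.cj (ym d))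
        have e : ∀ t, (x t : G) = cj (x (s * s * t) : G) (ν⁻¹ * n) := fun t => by
          obtain ⟨t', e⟩ := x.surjective ⟨_, tr.cj (x (s * s * t)).2⟩
          have e' : (x t' : G) = cj (x (s * s * t) : G) (ν⁻¹ * n) := congrArg Subtype.val e
          have := key tr e' ⟨v₁, hv₁⟩
          have t3 : ∀ w : U 4, π ⟨_, (t2 tr).cj (Sm h k (x s) w).2⟩ = π w := fun w => hπ.2 (by
            simpa only [sg, cj_cj, mul_assoc, inv_mul_cancel, cj_one] using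
              (q.tor2 h k' k w.2).cj (B := Z 4) fun z hz => q.rf k.rf hz)
          rw [← e']
          rw [mul_assoc s, πt (t2 tr) (πu _ _ _), t3,
            ← Subtype.ext (a1 := Sm h k (x s) ⟨v₁, hv₁⟩) (a2 := ⟨_, tr.cj hv₁⟩) (sg _), πs, πs, ← mul_smul, mul_comm s] at this
          rw [mul_right_cancel₀ s0 (smul_left_injective K (fun e0 => v₁Z ((π0 _).1 e0)) this)]
        refine ⟨fun d => Function.invFun y (cj (y d) (ν⁻¹ * n)), fun v t => yi ?_, fun v w => yi ?_, fun z d => yi ?_⟩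
        · rw [hη, hθ, hθ, sg, e t, (h.s_tr (x _).2 v.2 tr).2]
        · obtain ⟨z, hz, ez⟩ := q.tor2 h k' k v.2
          have hw : cj (w : G) (ν⁻¹ * n) ∈ U 4 := tr.cj w.2
          rw [hη, hb, hb, sg, sg, cj_cm, ez, cm_mul_left, cm_eq_one.2 (q.z_comm h hz hw), mul_one,
            cj_eq_self.2 (q.z_comm h hz (h.q24 (m2 v) hw)).symm]
        · rcases hc with c | c
          · rw [hη, cj_eq_self.2 ((cn _ (c.2 (ym d)) _ k'.inv).mul_right (cn _ (c.2 (ym d)) _ k))]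
          · exact (w1 (congrArg Subtype.val (Subgroup.mem_bot.1 (z.le (show (⟨w₀, hw⟩ : U 4) ∈ _ from c.1))))).elim
      case := hc.imp (fun c => by rw [c.1, Subgroup.bot_subgroupOf]) fun ⟨c, a, ha, v, hv, e⟩ =>
        ⟨c, ⟨_, k.rf.cj ha⟩, ⟨v, hv⟩, fun e0 => e (by simpa only [e0, y0, cj_cj_inv, eq_comm] using hb ⟨_, k.rf.cj ha⟩ ⟨v, hv⟩)⟩ }
  obtain ⟨D, d1, d2, d3, d4, d5⟩ := P.exists_qd
  refine ⟨K, inferInstance, Finite.of_equiv _ x.symm, D, fun t => x t, MonoidHom.mk' (fun v => cj (v : G) n⁻¹) fun v w => cj_mul _ _ _, y,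
    ⟨fun t u => by rw [xa, Subgroup.coe_mul], ya, fun t v => ?_, fun v w => ?_, fun t d => ?_, fun t v => h.q12 (x t).2 (m2 v),
      fun v d => h.q23 (m2 v) (ym d), fun d v => h.q34 (ym d) v.2⟩,
    ⟨fun g => ⟨fun hg => ⟨x.symm ⟨g, hg⟩, by simp⟩, fun ⟨t, e⟩ => e ▸ (x t).2⟩, fun t u e => x.injective (Subtype.ext e)⟩,
    ⟨fun g => ⟨fun hg => ⟨⟨_, k.rf.cj hg⟩, (cj_cj_inv g n).symm⟩, fun ⟨v, e⟩ => e ▸ m2 v⟩, fun v w e => Subtype.ext (cj_inj.1 e)⟩,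
    ⟨fun g => ⟨fun hg => (ys g hg).imp fun _ => Eq.symm, fun ⟨t, e⟩ => e ▸ ym t⟩, yi⟩, d5⟩
  · rw [← d4, d1]
    exact (h.c14 (x t).2 v.2).eq.trans (by rw [← hs, ← hθ]; rfl)
  · rw [d2]
    change cj (v : G) n⁻¹ * w = w * cj (v : G) n⁻¹ * y (b v w)
    rw [hb, cm]; group
  · rw [d3]
    change _ = y d * cj (cj (cm (y d) (x t : G)⁻¹) n) n⁻¹
    rw [cj_cj_inv, cm]; group

end QH

end CL.FS
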